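import Cfsg.Agent.Lib.Helper10.TH0

set_option autoImplicit false

namespace Cfsg.Agent.Lib.Helper79.THB1

open Matrix Complex UpperHalfPlane ModularForm MatrixGroups Cfsg.Agent.Lib.Helper10.TH
open scoped Manifold Real

theorem summable_exp_abs {a : ℝ} (ha : 0 < a) :
    Summable (fun k : ℤ => Real.exp (-a * |(k : ℝ)|)) := by
  have h1 : Summable (fun n : ℕ => Real.exp ((n : ℝ) * (-a))) :=
    Real.summable_exp_nat_mul_iff.mpr (by linarith)
  apply Summable.of_nat_of_neg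
  · refine h1.congr fun n => ?_
    congr 1
    push_cast
    rw [abs_of_nonneg (Nat.cast_nonneg n)]
    ring
  · refine h1.congr fun n => ?_
    congr 1
    push_cast
    rw [abs_neg, abs_of_nonneg (Nat.cast_nonneg n)]
    ring

/-- B1 -/
theorem summable_gauss_one {c : ℝ} (hc : 0 < c) (z : ℝ) :
    Summable (fun k : ℤ => Real.exp (-c * ((k : ℝ) - z) ^ 2)) := by
  have h := (summable_exp_abs (a := c / 2) (by linarith)).mul_left (Real.exp (c * z ^ 2))
  refine Summable.of_nonneg_of_le (fun x => (Real.exp_pos _).le) (fun k => ?_) h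
  rw [← Real.exp_add]
  apply Real.exp_le_exp.mpr
  -- `|k| ≤ k ^ 2` for integers
  have hk : |(k : ℝ)| ≤ (k : ℝ) ^ 2 := by
    have h1 : |k| ≤ k ^ 2 := by
      rcases abs_cases k with ⟨h, _⟩ | ⟨h, _⟩ <;> rw [h] <;> nlinarith
    have h2 : ((|k| : ℤ) : ℝ) ≤ ((k ^ 2 : ℤ) : ℝ) := by exact_mod_cast h1
    push_cast at h2
    exact h2
  -- `(k - z) ^ 2 ≥ k ^ 2 / 2 - z ^ 2`
  have h3 : (k : ℝ) ^ 2 / 2 - z ^ 2 ≤ ((k : ℝ) - z) ^ 2 := by nlinarith [sq_nonneg ((k : ℝ) - 2 * z)]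
  nlinarith

end Cfsg.Agent.Lib.Helper79.THB1
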