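import Cfsg.Agent.Lib.Helper10.TH0

set_option autoImplicit false

namespace Cfsg.Agent.Lib.Helper79.THB4

open Matrix Complex UpperHalfPlane ModularForm MatrixGroups Cfsg.Agent.Lib.Helper10.TH
open scoped Manifold Real

/-- B4 (from A2 and B2 as hypotheses) -/
theorem summable_Qd_of {n : ℕ} (T : Tri n) {c : ℝ} (hc : 0 < c)
    (hco : ∀ w : Fin n → ℝ, c * ∑ i, w i ^ 2 ≤ T.Qd w)
    (hg : ∀ c' : ℝ, 0 < c' → ∀ z : Fin n → ℝ,
      Summable (fun x : Fin n → ℤ => Real.exp (-c' * ∑ i, ((x i : ℝ) - z i) ^ 2)))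
    {ρ : ℝ} (hρ : 0 < ρ) (z : Fin n → ℝ) :
    Summable (fun ξ : Fin n → ℤ => Real.exp (-ρ * T.Qd (fun i => (ξ i : ℝ) - z i))) := by
  have h := hg (ρ * c) (mul_pos hρ hc) z
  refine Summable.of_nonneg_of_le (fun x => (Real.exp_pos _).le) (fun x => ?_) h
  apply Real.exp_le_exp.mpr
  have h1 := hco (fun i => (x i : ℝ) - z i)
  have h2 := mul_le_mul_of_nonneg_left h1 hρ.le
  linarith

end Cfsg.Agent.Lib.Helper79.THB4
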