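import Cfsg.Agent.Lib.Helper10.TH0

set_option autoImplicit false

namespace Cfsg.Agent.Lib.Helper79.THC12

open Matrix Complex UpperHalfPlane ModularForm MatrixGroups Cfsg.Agent.Lib.Helper10.TH
open scoped Manifold Real

theorem coeff_mul_small (a b : PowerSeries ℂ) :
    (a * b).coeff 0 = a.coeff 0 * b.coeff 0 ∧
    (a * b).coeff 1 = a.coeff 0 * b.coeff 1 + a.coeff 1 * b.coeff 0 ∧
    (a * b).coeff 2 = a.coeff 0 * b.coeff 2 + a.coeff 1 * b.coeff 1 + a.coeff 2 * b.coeff 0 ∧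
    (a * b).coeff 3 = a.coeff 0 * b.coeff 3 + a.coeff 1 * b.coeff 2 + a.coeff 2 * b.coeff 1 +
      a.coeff 3 * b.coeff 0 ∧
    (a * b).coeff 4 = a.coeff 0 * b.coeff 4 + a.coeff 1 * b.coeff 3 + a.coeff 2 * b.coeff 2 +
      a.coeff 3 * b.coeff 1 + a.coeff 4 * b.coeff 0 := by
  refine ⟨?_, ?_, ?_, ?_, ?_⟩ <;>
  · rw [PowerSeries.coeff_mul, Finset.Nat.sum_antidiagonal_eq_sum_range_succ_mk]
    simp [Finset.sum_range_succ]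

/-- C12 -/
theorem ps_coeffs (p4 p6 : PowerSeries ℂ)
    (h4 : p4.coeff 0 = 1 ∧ p4.coeff 1 = 240 ∧ p4.coeff 2 = 2160 ∧ p4.coeff 3 = 6720 ∧
      p4.coeff 4 = 17520)
    (h6 : p6.coeff 0 = 1 ∧ p6.coeff 1 = -504 ∧ p6.coeff 2 = -16632 ∧ p6.coeff 3 = -122976 ∧
      p6.coeff 4 = -532728) :
    ((7 / 12 : ℂ) • p4 ^ 3 + (5 / 12 : ℂ) • p6 ^ 2).coeff 0 = 1 ∧
    ((7 / 12 : ℂ) • p4 ^ 3 + (5 / 12 : ℂ) • p6 ^ 2).coeff 1 = 0 ∧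
    ((7 / 12 : ℂ) • p4 ^ 3 + (5 / 12 : ℂ) • p6 ^ 2).coeff 2 = 196560 ∧
    ((7 / 12 : ℂ) • p4 ^ 3 + (5 / 12 : ℂ) • p6 ^ 2).coeff 3 = 16773120 ∧
    ((7 / 12 : ℂ) • p4 ^ 3 + (5 / 12 : ℂ) • p6 ^ 2).coeff 4 = 398034000 := by
  obtain ⟨a0, a1, a2, a3, a4⟩ := h4
  obtain ⟨b0, b1, b2, b3, b4⟩ := h6
  obtain ⟨s0, s1, s2, s3, s4⟩ := coeff_mul_small p4 p4
  simp only [a0, a1, a2, a3, a4] at s0 s1 s2 s3 s4
  norm_num1 at s0 s1 s2 s3 s4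
  obtain ⟨c0, c1, c2, c3, c4⟩ := coeff_mul_small (p4 * p4) p4
  simp only [s0, s1, s2, s3, s4, a0, a1, a2, a3, a4] at c0 c1 c2 c3 c4
  norm_num1 at c0 c1 c2 c3 c4
  obtain ⟨t0, t1, t2, t3, t4⟩ := coeff_mul_small p6 p6
  simp only [b0, b1, b2, b3, b4] at t0 t1 t2 t3 t4
  norm_num1 at t0 t1 t2 t3 t4
  have e3 : p4 ^ 3 = p4 * p4 * p4 := by ring
  have e2 : p6 ^ 2 = p6 * p6 := by ring
  rw [e3, e2]
  refine ⟨?_, ?_, ?_, ?_, ?_⟩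
  · rw [map_add, map_smul, map_smul, c0, t0]; norm_num
  · rw [map_add, map_smul, map_smul, c1, t1]; norm_num
  · rw [map_add, map_smul, map_smul, c2, t2]; norm_num
  · rw [map_add, map_smul, map_smul, c3, t3]; norm_num
  · rw [map_add, map_smul, map_smul, c4, t4]; norm_num

end Cfsg.Agent.Lib.Helper79.THC12
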