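import Mathlib
import Cfsg.Agent.Lib.Helper18.TLDefs

/-! S3797 piece TL-AMB (helper18's project; proved by helper79). -/

set_option autoImplicit false

namespace Cfsg.Agent.Lib.Helper18.TL

open Subgroup
open scoped commutatorElement

universe u

variable {G : Type u} [Group G]

theorem amb_of [Finite G] (hs : Group.IsSolvable G)
    (hodd : ∀ N : Subgroup G, N.Normal → Odd (Nat.card N) → N = ⊥)
    (hconj : ∀ x y : G, x ≠ 1 → x ^ 2 = 1 → y ≠ 1 → y ^ 2 = 1 → IsConj x y)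
    (htwo : ∃ x y : G, x ≠ y ∧ x ≠ 1 ∧ x ^ 2 = 1 ∧ y ≠ 1 ∧ y ^ 2 = 1 ∧ x * y = y * x)
    (Z : Subgroup G) (hZ : ∀ g : G, g ∈ Z ↔ g ^ 2 = 1)
    (IH : ∀ H : Subgroup G, H ≠ ⊤ → Group.IsSolvable ↥H →
      (∀ x y : ↥H, x ≠ 1 → x ^ 2 = 1 → y ≠ 1 → y ^ 2 = 1 → IsConj x y) →
      (∃ x y : ↥H, x ≠ y ∧ x ≠ 1 ∧ x ^ 2 = 1 ∧ y ≠ 1 ∧ y ^ 2 = 1 ∧ x * y = y * x) →
      PL H) :
    Amb G Z := by
  obtain ⟨x, y, hxy, hx1, hx2, hy1, hy2, hcomm⟩ := htwo
  have hxZ : x ∈ Z := (hZ x).mpr hx2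
  have hyZ : y ∈ Z := (hZ y).mpr hy2
  refine ⟨hs, hZ, ?_, ⟨x, hxZ, y, hyZ, hx1, hy1, hxy⟩, hodd, ?_⟩
  · intro z hz z' hz' hz1 hz1'
    obtain ⟨c, hc⟩ := isConj_iff.mp (hconj z z' hz1 ((hZ z).mp hz) hz1' ((hZ z').mp hz'))
    exact ⟨c, Subgroup.mem_top c, hc⟩
  · intro H hH hZH htr
    haveI := hs
    refine IH H hH inferInstance ?_ ?_
    · intro a b ha1 ha2 hb1 hb2
      have haZ : (a : G) ∈ Z := by
        rw [hZ]
        have h1 := congrArg Subtype.val ha2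
        simpa using h1
      have hbZ : (b : G) ∈ Z := by
        rw [hZ]
        have h1 := congrArg Subtype.val hb2
        simpa using h1
      have ha1' : (a : G) ≠ 1 := fun h => ha1 (Subtype.ext h)
      have hb1' : (b : G) ≠ 1 := fun h => hb1 (Subtype.ext h)
      obtain ⟨h, hh, hhc⟩ := htr (a : G) haZ (b : G) hbZ ha1' hb1'
      rw [isConj_iff]
      refine ⟨⟨h, hh⟩, ?_⟩
      apply Subtype.ext
      exact hhc
    · refine ⟨⟨x, hZH hxZ⟩, ⟨y, hZH hyZ⟩, ?_, ?_, ?_, ?_, ?_, ?_⟩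
      · intro h
        exact hxy (congrArg Subtype.val h)
      · intro h
        exact hx1 (congrArg Subtype.val h)
      · apply Subtype.ext
        simpa using hx2
      · intro h
        exact hy1 (congrArg Subtype.val h)
      · apply Subtype.ext
        simpa using hy2
      · apply Subtype.ext
        exact hcomm

end Cfsg.Agent.Lib.Helper18.TL
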