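import Mathlib
import Cfsg.Agent.Lib.Helper18.TLDefs

/-! S3797 piece TL-COMMINV (helper18's project; proved by helper79). -/

set_option autoImplicit false

namespace Cfsg.Agent.Lib.Helper18.TL

open Subgroup
open scoped commutatorElement

universe u

variable {G : Type u} [Group G]

theorem comm_invs [Finite G] (S : Sylow 2 G)
    (htwo : ∃ x y : G, x ∈ (S : Subgroup G) ∧ y ∈ (S : Subgroup G) ∧ x ≠ y ∧ x ≠ 1 ∧ x ^ 2 = 1 ∧
      y ≠ 1 ∧ y ^ 2 = 1) :
    ∃ x y : G, x ≠ y ∧ x ≠ 1 ∧ x ^ 2 = 1 ∧ y ≠ 1 ∧ y ^ 2 = 1 ∧ x * y = y * x := by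
  obtain ⟨x, y, hxS, hyS, hxy, hx1, hx2, hy1, hy2⟩ := htwo
  haveI : Fact (Nat.Prime 2) := ⟨Nat.prime_two⟩
  have hSp : IsPGroup 2 (S : Subgroup G) := S.isPGroup'
  haveI : Nontrivial (S : Subgroup G) :=
    ⟨⟨⟨x, hxS⟩, 1, fun h => hx1 (congrArg Subtype.val h)⟩⟩
  haveI : Nontrivial (Subgroup.center (S : Subgroup G)) := hSp.center_nontrivial
  have hCp : IsPGroup 2 (Subgroup.center (S : Subgroup G)) := hSp.to_subgroup _
  have hdvd : 2 ∣ Nat.card (Subgroup.center (S : Subgroup G)) := by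
    obtain ⟨n, hn0, hn⟩ := hCp.nontrivial_iff_card.mp inferInstance
    rw [hn]
    exact dvd_pow_self 2 (by omega)
  obtain ⟨c, hc⟩ := exists_prime_orderOf_dvd_card' 2 hdvd
  -- the central involution
  obtain ⟨z, hzS, hz1, hz2, hzc⟩ : ∃ z : G, z ∈ (S : Subgroup G) ∧ z ≠ 1 ∧ z ^ 2 = 1 ∧
      ∀ s ∈ (S : Subgroup G), s * z = z * s := by
    refine ⟨((c : (S : Subgroup G)) : G), (c : (S : Subgroup G)).2, ?_, ?_, ?_⟩
    · intro h1
      have h2 : c = 1 := Subtype.ext (Subtype.ext h1)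
      rw [h2, orderOf_one] at hc
      omega
    · have h1 : c ^ 2 = 1 := by
        have h0 := pow_orderOf_eq_one c
        rwa [hc] at h0
      have h2 := congrArg (fun t : Subgroup.center (S : Subgroup G) => ((t : (S : Subgroup G)) : G)) h1
      simpa using h2
    · intro s hs
      have h1 := Subgroup.mem_center_iff.mp c.2 ⟨s, hs⟩
      exact congrArg Subtype.val h1
  by_cases hxz : x = z
  · refine ⟨y, z, ?_, hy1, hy2, hz1, hz2, hzc y hyS⟩
    intro h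
    exact hxy (hxz.trans h.symm)
  · exact ⟨x, z, hxz, hx1, hx2, hz1, hz2, hzc x hxS⟩

end Cfsg.Agent.Lib.Helper18.TL
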