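import Mathlib
import Cfsg.Agent.Lib.Helper18.TLDefs
import Cfsg.Agent.Lib.Helper1.Hall

/-! S3797 piece TL-EXZ (helper18's project; proved by helper79). -/

set_option autoImplicit false

namespace Cfsg.Agent.Lib.Helper18.TL

open Subgroup
open scoped commutatorElement

universe u

variable {G : Type u} [Group G]

theorem exists_Z [Finite G] (hs : Group.IsSolvable G)
    (hodd : ∀ N : Subgroup G, N.Normal → Odd (Nat.card N) → N = ⊥)
    (hconj : ∀ x y : G, x ≠ 1 → x ^ 2 = 1 → y ≠ 1 → y ^ 2 = 1 → IsConj x y)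
    (hinv : ∃ x : G, x ≠ 1 ∧ x ^ 2 = 1) :
    ∃ Z : Subgroup G, ∀ g : G, g ∈ Z ↔ g ^ 2 = 1 := by
  obtain ⟨x0, hx01, hx02⟩ := hinv
  haveI : Nontrivial G := ⟨⟨x0, 1, hx01⟩⟩
  haveI := hs
  obtain ⟨A, hAn, hAne, hAab⟩ := Cfsg.Agent.Lib.Helper1.exists_normal_abelian (G := G)
  have hcomm : ∀ a ∈ A, ∀ b ∈ A, a * b = b * a := by
    intro a ha b hb
    have h1 : ⁅a, b⁆ ∈ ⁅A, A⁆ := Subgroup.commutator_mem_commutator ha hb
    rw [hAab, Subgroup.mem_bot] at h1
    have h2 : a * b = ⁅a, b⁆ * (b * a) := by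
      rw [commutatorElement_def]
      group
    rw [h2, h1, one_mul]
  have heven : 2 ∣ Nat.card A := by
    by_contra h2
    exact hAne (hodd A hAn (Nat.odd_iff.mpr (by omega)))
  haveI : Fact (Nat.Prime 2) := ⟨Nat.prime_two⟩
  obtain ⟨t, ht⟩ := exists_prime_orderOf_dvd_card' 2 heven
  have ht1 : (t : G) ≠ 1 := by
    intro h1
    have h2 : t = 1 := Subtype.ext h1
    rw [h2, orderOf_one] at ht
    omega
  have ht2 : (t : G) ^ 2 = 1 := by
    have h0 := pow_orderOf_eq_one t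
    rw [ht] at h0
    have h1 := congrArg Subtype.val h0
    simpa using h1
  let Z : Subgroup G :=
    { carrier := {g | g ∈ A ∧ g ^ 2 = 1}
      mul_mem' := by
        intro a b ha hb
        refine ⟨A.mul_mem ha.1 hb.1, ?_⟩
        have h1 : (a * b) ^ 2 = a ^ 2 * b ^ 2 := by
          rw [pow_two, pow_two, pow_two]
          calc a * b * (a * b) = a * (b * a) * b := by group
            _ = a * (a * b) * b := by rw [hcomm b hb.1 a ha.1]
            _ = a * a * (b * b) := by group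
        rw [h1, ha.2, hb.2, one_mul]
      one_mem' := ⟨A.one_mem, one_pow 2⟩
      inv_mem' := by
        intro a ha
        refine ⟨A.inv_mem ha.1, ?_⟩
        rw [inv_pow, ha.2, inv_one] }
  refine ⟨Z, fun g => ⟨fun h => h.2, fun h => ?_⟩⟩
  by_cases hg1 : g = 1
  · rw [hg1]
    exact Z.one_mem
  · obtain ⟨c, hc⟩ := isConj_iff.mp (hconj (t : G) g ht1 ht2 hg1 h)
    refine ⟨?_, h⟩
    rw [← hc]
    exact hAn.conj_mem (t : G) t.2 c

end Cfsg.Agent.Lib.Helper18.TL
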