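import Mathlib
import Cfsg.Agent.Lib.Helper18.TLDefs

/-! S3797 piece TL-L0TOP (helper18's project; proved by helper79). -/

set_option autoImplicit false

namespace Cfsg.Agent.Lib.Helper18.TL

open Subgroup
open scoped commutatorElement
open scoped Pointwise

universe u

variable {G : Type u} [Group G]

theorem case_top [Finite G] {Z W0 : Subgroup G} (hA : Amb G Z) (hodd : Odd (Nat.card W0))
    (hne : W0 ≠ ⊥) (htop : normalizer (W0 : Set G) ⊔ Z = ⊤) :
    ∀ S : Sylow 2 G, (S : Subgroup G).Normal := by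
  haveI : Fact (Nat.Prime 2) := ⟨Nat.prime_two⟩
  have hZn : Z.Normal := by
    refine ⟨fun z hz g => ?_⟩
    rw [hA.memZ] at hz ⊢
    rw [conj_pow, hz]
    group
  haveI := hZn
  have hZab : ∀ a ∈ Z, ∀ b ∈ Z, a * b = b * a := by
    intro a ha b hb
    have h1 := (hA.memZ a).mp ha
    have h2 := (hA.memZ b).mp hb
    have h3 := (hA.memZ (a * b)).mp (Z.mul_mem ha hb)
    have ha' : a = a⁻¹ := eq_inv_of_mul_eq_one_left (by rw [← pow_two]; exact h1)
    have hb' : b = b⁻¹ := eq_inv_of_mul_eq_one_left (by rw [← pow_two]; exact h2)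
    calc a * b = (a * b)⁻¹ := eq_inv_of_mul_eq_one_left (by rw [← pow_two]; exact h3)
      _ = b⁻¹ * a⁻¹ := mul_inv_rev a b
      _ = b * a := by rw [← hb', ← ha']
  have hZW : ∀ g, g ∈ Z → g ∈ W0 → g = 1 := by
    intro g hgZ hgW
    obtain ⟨k, hk⟩ := hodd
    have h1 : (⟨g, hgW⟩ : W0) ^ Nat.card W0 = 1 := pow_card_eq_one'
    have h2 : g ^ Nat.card W0 = 1 := by
      have h3 := congrArg (fun t : W0 => (t : G)) h1
      simp only [Subgroup.coe_pow, Subgroup.coe_one] at h3
      exact h3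
    rw [hk, pow_succ, pow_mul, (hA.memZ g).mp hgZ, one_pow, one_mul] at h2
    exact h2
  -- conjugation by the normalizer preserves `W0`
  have hNW : ∀ n ∈ normalizer (W0 : Set G), ∀ w ∈ W0, n⁻¹ * w * n ∈ W0 := by
    intro n hn w hw
    refine (Subgroup.mem_normalizer_iff.mp hn (n⁻¹ * w * n)).mpr ?_
    have h2 : n * (n⁻¹ * w * n) * n⁻¹ = w := by group
    rw [h2]
    exact hw
  have hNW' : ∀ n ∈ normalizer (W0 : Set G), ∀ w ∈ W0, n * w * n⁻¹ ∈ W0 := by
    intro n hn w hw
    exact (Subgroup.mem_normalizer_iff.mp hn w).mp hw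
  have hmul : ((normalizer (W0 : Set G) ⊔ Z : Subgroup G) : Set G) =
      (normalizer (W0 : Set G) : Set G) * (Z : Set G) := Subgroup.mul_normal _ _
  -- `Z ⊓ C(W0) = ⊥`
  have hD : Z ⊓ centralizer (W0 : Set G) = ⊥ := by
    by_contra hD
    obtain ⟨⟨d, hd⟩, hd1⟩ := (Subgroup.ne_bot_iff_exists_ne_one).mp hD
    have hd1' : d ≠ 1 := fun h => hd1 (Subtype.ext h)
    have hZC : Z ≤ centralizer (W0 : Set G) := by
      intro z' hz'
      by_cases h1 : z' = 1
      · rw [h1]
        exact Subgroup.one_mem _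
      · obtain ⟨g, -, hg⟩ := hA.trans d hd.1 z' hz' hd1' h1
        have hgmem : g ∈ ((normalizer (W0 : Set G) ⊔ Z : Subgroup G) : Set G) := by
          rw [htop]
          exact Subgroup.mem_top g
        rw [hmul] at hgmem
        obtain ⟨n, hn, z, hz, rfl⟩ := Set.mem_mul.mp hgmem
        have h2 : n * z * d * (n * z)⁻¹ = n * d * n⁻¹ := by
          have h3 : z * d = d * z := hZab z hz d hd.1
          calc n * z * d * (n * z)⁻¹ = n * (z * d) * z⁻¹ * n⁻¹ := by group
            _ = n * (d * z) * z⁻¹ * n⁻¹ := by rw [h3]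
            _ = n * d * n⁻¹ := by group
        rw [← hg, h2, Subgroup.mem_centralizer_iff]
        intro w hw
        have h4 : (n⁻¹ * w * n) * d = d * (n⁻¹ * w * n) :=
          Subgroup.mem_centralizer_iff.mp hd.2 _ (hNW n hn w hw)
        calc w * (n * d * n⁻¹) = n * ((n⁻¹ * w * n) * d) * n⁻¹ := by group
          _ = n * (d * (n⁻¹ * w * n)) * n⁻¹ := by rw [h4]
          _ = n * d * n⁻¹ * w := by group
    have hZN : Z ≤ normalizer (W0 : Set G) := hZC.trans (Subgroup.centralizer_le_normalizer _)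
    have hNtop : normalizer (W0 : Set G) = ⊤ := by
      rw [← htop]
      exact (sup_eq_left.mpr hZN).symm
    have hWn : W0.Normal := Subgroup.normalizer_eq_top_iff.mp hNtop
    exact hne (hA.oddcore W0 hWn hodd)
  -- `N(W0) ⊓ Z = ⊥`
  have hNZ : normalizer (W0 : Set G) ⊓ Z = ⊥ := by
    rw [eq_bot_iff]
    intro z hz
    have hzC : z ∈ Z ⊓ centralizer (W0 : Set G) := by
      refine Subgroup.mem_inf.mpr ⟨hz.2, ?_⟩
      rw [Subgroup.mem_centralizer_iff]
      intro w hw
      have hc1 : z * w * z⁻¹ * w⁻¹ ∈ W0 := W0.mul_mem (hNW' z hz.1 w hw) (W0.inv_mem hw)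
      have hc2 : z * w * z⁻¹ * w⁻¹ ∈ Z := by
        have h5 : w * z⁻¹ * w⁻¹ ∈ Z := hZn.conj_mem z⁻¹ (Z.inv_mem hz.2) w
        have h6 : z * w * z⁻¹ * w⁻¹ = z * (w * z⁻¹ * w⁻¹) := by group
        rw [h6]
        exact Z.mul_mem hz.2 h5
      have hc3 := hZW _ hc2 hc1
      calc w * z = (z * w * z⁻¹ * w⁻¹)⁻¹ * (z * w) := by group
        _ = z * w := by rw [hc3, inv_one, one_mul]
    rw [hD] at hzC
    exact hzC
  -- `N(W0)` has odd order
  have hNodd : ¬ 2 ∣ Nat.card (normalizer (W0 : Set G)) := by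
    intro h2
    obtain ⟨t, ht⟩ := exists_prime_orderOf_dvd_card' 2 h2
    have ht2 : (t : G) ^ 2 = 1 := by
      have h0 := pow_orderOf_eq_one t
      rw [ht] at h0
      have h1 := congrArg Subtype.val h0
      simpa using h1
    have htZ : (t : G) ∈ normalizer (W0 : Set G) ⊓ Z := ⟨t.2, (hA.memZ _).mpr ht2⟩
    rw [hNZ, Subgroup.mem_bot] at htZ
    have h3 : t = 1 := Subtype.ext htZ
    rw [h3, orderOf_one] at ht
    omega
  have hcompl : IsComplement' (normalizer (W0 : Set G)) Z := by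
    apply Subgroup.isComplement'_of_disjoint_and_mul_eq_univ (disjoint_iff.mpr hNZ)
    rw [← hmul, htop]
    rfl
  have hidx : ¬ 2 ∣ Z.index := by
    rw [hcompl.index_eq_card]
    exact hNodd
  have hZp : IsPGroup 2 Z := by
    intro g
    refine ⟨1, ?_⟩
    have h1 := (hA.memZ g).mp g.2
    apply Subtype.ext
    simpa using h1
  have hP0n : ((hZp.toSylow hidx : Sylow 2 G) : Subgroup G).Normal := by
    rw [IsPGroup.toSylow_coe]
    exact hZn
  letI := Sylow.unique_of_normal (hZp.toSylow hidx) hP0n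
  intro S
  have hS : S = hZp.toSylow hidx := Subsingleton.elim _ _
  rw [hS]
  exact hP0n

end Cfsg.Agent.Lib.Helper18.TL
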