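import Mathlib
import Cfsg.Prelude.Def_Solvable
import Cfsg.Agent.Lib.Helper18.TLDefs
import Cfsg.Agent.Lib.Helper30.Cores

/-! S3797 piece TL-PCTOP (helper18's project; proved by helper79). -/

set_option autoImplicit false

namespace Cfsg.Agent.Lib.Helper18.TL

open Subgroup
open scoped commutatorElement

universe u

variable {G : Type u} [Group G]

theorem pcore_top [Finite G] (h : Cfsg.pCore 2 G = ⊤) :
    ∀ S : Sylow 2 G, (S : Subgroup G).Normal := by
  intro S
  have hG : IsPGroup 2 (⊤ : Subgroup G) := by
    rw [← h]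
    exact Cfsg.Agent.Lib.Helper30.pCore_isPGroup 2
  have hS : (S : Subgroup G) = ⊤ := (S.is_maximal' hG le_top).symm
  rw [hS]
  infer_instance

end Cfsg.Agent.Lib.Helper18.TL
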