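import Mathlib
import Cfsg.Agent.Lib.Helper18.TLDefs
import Cfsg.Agent.Lib.Helper41.CritSub

/-! S3797 piece TL-ZCENT (helper18's project; proved by helper79). -/

set_option autoImplicit false

namespace Cfsg.Agent.Lib.Helper18.TL

open Subgroup
open scoped commutatorElement

universe u

variable {G : Type u} [Group G]

theorem Z_cent [Finite G] {Z S N : Subgroup G} (hA : Amb G Z) (hS : IsPGroup 2 S) (hZS : Z ≤ S)
    (hN : N ≤ normalizer (S : Set G)) (ht : TransOn Z N) : S ≤ centralizer (Z : Set G) := by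
  haveI : Fact (Nat.Prime 2) := ⟨Nat.prime_two⟩
  have hZn : Z.Normal := by
    refine ⟨fun z hz g => ?_⟩
    rw [hA.memZ] at hz ⊢
    rw [conj_pow, hz]
    group
  obtain ⟨z0, hz0, -, -, hz01, -, -⟩ := hA.four
  have hZne : Z.subgroupOf S ≠ ⊥ := by
    intro h
    have h1 : (⟨z0, hZS hz0⟩ : S) ∈ Z.subgroupOf S := Subgroup.mem_subgroupOf.mpr hz0
    rw [h, Subgroup.mem_bot] at h1
    exact hz01 (congrArg Subtype.val h1)
  have h := Cfsg.Agent.Lib.Helper41.normal_inf_center_ne_bot 2 hS (Z.subgroupOf S) hZne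
  obtain ⟨⟨c, hc⟩, hc1⟩ := (Subgroup.ne_bot_iff_exists_ne_one).mp h
  have hcZ : (c : G) ∈ Z := Subgroup.mem_subgroupOf.mp hc.1
  have hcne : (c : G) ≠ 1 := by
    intro h1
    apply hc1
    apply Subtype.ext
    apply Subtype.ext
    exact h1
  have hcc : ∀ s ∈ S, s * (c : G) = (c : G) * s := by
    intro s hs
    have h1 := Subgroup.mem_center_iff.mp hc.2 ⟨s, hs⟩
    exact congrArg Subtype.val h1
  intro s hs
  rw [Subgroup.mem_centralizer_iff]
  intro z' hz'
  by_cases h1 : z' = 1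
  · rw [h1, one_mul, mul_one]
  · obtain ⟨n, hn, hnz⟩ := ht (c : G) hcZ z' hz' hcne h1
    have hnS : n⁻¹ * s * n ∈ S := by
      refine (Subgroup.mem_normalizer_iff.mp (hN hn) (n⁻¹ * s * n)).mpr ?_
      have h2 : n * (n⁻¹ * s * n) * n⁻¹ = s := by group
      rw [h2]
      exact hs
    have hcomm := hcc _ hnS
    rw [← hnz]
    calc n * (c : G) * n⁻¹ * s = n * ((c : G) * (n⁻¹ * s * n)) * n⁻¹ := by group
      _ = n * ((n⁻¹ * s * n) * (c : G)) * n⁻¹ := by rw [hcomm]
      _ = s * (n * (c : G) * n⁻¹) := by group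

end Cfsg.Agent.Lib.Helper18.TL
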