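import Mathlib
import Cfsg.Prelude.Def_Solvable
import Cfsg.Agent.Lib.Helper18.TLDefs
import Cfsg.Agent.Lib.Helper30.Cores
import Cfsg.Agent.Lib.Helper79.TLZCENT

/-! S3797 piece TL-PCZ (helper18's project; proved by helper79). -/

set_option autoImplicit false

namespace Cfsg.Agent.Lib.Helper18.TL

open Subgroup
open scoped commutatorElement

universe u

variable {G : Type u} [Group G]

theorem pcz_normal {Z : Subgroup G} (hA : Amb G Z) : Z.Normal := by
  refine ⟨fun z hz g => ?_⟩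
  rw [hA.memZ] at hz ⊢
  rw [conj_pow, hz]
  group

theorem pcore_Z [Finite G] {Z : Subgroup G} (hA : Amb G Z) :
    Z ≤ Cfsg.pCore 2 G ∧ Cfsg.pCore 2 G ≤ centralizer (Z : Set G) := by
  have hZn : Z.Normal := pcz_normal hA
  have hZp : IsPGroup 2 Z := by
    intro g
    refine ⟨1, ?_⟩
    have h1 := (hA.memZ g).mp g.2
    apply Subtype.ext
    simpa using h1
  have hle : Z ≤ Cfsg.pCore 2 G := Cfsg.Agent.Lib.Helper30.le_pCore_of_normal hZn hZp
  refine ⟨hle, ?_⟩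
  haveI := Cfsg.Agent.Lib.Helper30.pCore_characteristic (G := G) 2
  exact Z_cent hA (Cfsg.Agent.Lib.Helper30.pCore_isPGroup 2) hle (N := ⊤)
    (by rw [Subgroup.normalizer_eq_top]) hA.trans

theorem trans_L [Finite G] {Z L : Subgroup G} (hA : Amb G Z) (hL : Cfsg.pCore 2 G ⊔ L = ⊤) :
    TransOn Z L := by
  obtain ⟨-, hcent⟩ := pcore_Z hA
  have hZn : Z.Normal := pcz_normal hA
  haveI := Cfsg.Agent.Lib.Helper30.pCore_characteristic (G := G) 2
  intro z hz z' hz' hz1 hz1'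
  obtain ⟨g, -, hg⟩ := hA.trans z hz z' hz' hz1 hz1'
  have hgmem : g ∈ ((Cfsg.pCore 2 G ⊔ L : Subgroup G) : Set G) := by
    rw [hL]
    exact Subgroup.mem_top g
  rw [Subgroup.normal_mul] at hgmem
  obtain ⟨p, hp, l, hl, rfl⟩ := Set.mem_mul.mp hgmem
  refine ⟨l, hl, ?_⟩
  have hlz : l * z * l⁻¹ ∈ Z := hZn.conj_mem z hz l
  have hcomm : (l * z * l⁻¹) * p = p * (l * z * l⁻¹) :=
    (Subgroup.mem_centralizer_iff.mp (hcent hp)) _ hlz
  rw [← hg]
  calc l * z * l⁻¹ = (l * z * l⁻¹) * p * p⁻¹ := by group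
    _ = p * (l * z * l⁻¹) * p⁻¹ := by rw [hcomm]
    _ = p * l * z * (p * l)⁻¹ := by group

end Cfsg.Agent.Lib.Helper18.TL
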