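import Mathlib
import Cfsg.Agent.Lib.Helper18.TLDefs

/-! S3797 piece TL-SUP (helper18's project; proved by helper79). -/

set_option autoImplicit false

namespace Cfsg.Agent.Lib.Helper18.TL

open Subgroup
open scoped commutatorElement

universe u

variable {G : Type u} [Group G]

theorem sup_of_max {Z T B B' : Subgroup G} (hB : IsMaxIn Z T B) (hB' : IsMaxIn Z T B')
    (hne : B ≠ B') : B ⊔ B' = T := by
  obtain ⟨-, hBT, hBne, hBm⟩ := hB
  obtain ⟨-, hBT', hBne', hBm'⟩ := hB'
  apply le_antisymm (sup_le hBT hBT')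
  obtain ⟨b', hb', hb'B⟩ : ∃ b' ∈ B', b' ∉ B := by
    by_contra hcon
    have hle : B' ≤ B := by
      intro x hx
      by_contra hxB
      exact hcon ⟨x, hx, hxB⟩
    obtain ⟨a, haB, haB'⟩ : ∃ a ∈ B, a ∉ B' := by
      by_contra hcon2
      apply hne
      apply le_antisymm _ hle
      intro x hx
      by_contra hxB
      exact hcon2 ⟨x, hx, hxB⟩
    obtain ⟨c, hcT, hcB⟩ : ∃ c ∈ T, c ∉ B := by
      by_contra hcon3
      apply hBne
      apply le_antisymm hBT
      intro x hx
      by_contra hxB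
      exact hcon3 ⟨x, hx, hxB⟩
    have h1 : a * c ∈ B' := hBm' a (hBT haB) c hcT haB' (fun h => hcB (hle h))
    have h2 : a * c ∈ B := hle h1
    have h3 : c = a⁻¹ * (a * c) := by group
    rw [h3] at hcB
    exact hcB (B.mul_mem (B.inv_mem haB) h2)
  intro t ht
  by_cases htB : t ∈ B
  · exact Subgroup.mem_sup_left htB
  · have h1 : t * b' ∈ B := hBm t ht b' (hBT' hb') htB hb'B
    have h2 : t = (t * b') * b'⁻¹ := by group
    rw [h2]
    exact Subgroup.mul_mem _ (Subgroup.mem_sup_left h1) (Subgroup.mem_sup_right (B'.inv_mem hb'))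

end Cfsg.Agent.Lib.Helper18.TL
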