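import Mathlib
import Cfsg.Prelude.Def_Blocks
import Cfsg.Agent.Lib.Helper81.BrNormal

/-!
# The McKay sum of a subgroup (helper79, DG project, for S4502)

For a subgroup `Q` of `H`: canonical characters of `C_H(Q)` (those with `Q` in the kernel),
the stabilizer of such a character in `N_H(Q)`, its weight and the sum of the weights.
-/

set_option autoImplicit false

namespace Cfsg.Agent.Lib.Helper79.DG

open Cfsg

/-- `θ` has `Q` in its kernel -/
def IsCanon {H : Type*} [Group H] (Q : Subgroup H)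
    (θ : IrrCharacter (Subgroup.centralizer (Q : Set H))) : Prop :=
  ∀ x : Subgroup.centralizer (Q : Set H), (x : H) ∈ Q → θ.1 x = θ.1 1

/-- the stabilizer of `θ` in `N_H(Q)`, as a set -/
def stabSet {H : Type*} [Group H] (Q : Subgroup H)
    (θ : IrrCharacter (Subgroup.centralizer (Q : Set H))) : Set H :=
  {g | g ∈ Subgroup.normalizer (Q : Set H) ∧
    ∀ c c' : Subgroup.centralizer (Q : Set H), (c' : H) = g * c * g⁻¹ → θ.1 c' = θ.1 c}

/-- the inertial index of `θ` -/
noncomputable def mkE {H : Type*} [Group H] (Q : Subgroup H)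
    (θ : IrrCharacter (Subgroup.centralizer (Q : Set H))) : ℕ :=
  Nat.card (stabSet Q θ) / Nat.card (Subgroup.centralizer (Q : Set H))

/-- the weight of `θ` -/
noncomputable def mkWeight (p : ℕ) {H : Type*} [Group H] (Q : Subgroup H)
    (θ : IrrCharacter (Subgroup.centralizer (Q : Set H))) : ℚ :=
  ((mkE Q θ + (p - 1) / mkE Q θ : ℕ) : ℚ) * (Nat.card (stabSet Q θ) : ℚ) /
    (Nat.card (Subgroup.normalizer (Q : Set H)) : ℚ)

/-- the McKay sum -/
noncomputable def mkSum (p : ℕ) {H : Type*} [Group H] (Q : Subgroup H) : ℚ :=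
  ∑ᶠ θ ∈ {θ : IrrCharacter (Subgroup.centralizer (Q : Set H)) | IsCanon Q θ}, mkWeight p Q θ

/-- the stabilizer is a subgroup -/
theorem exists_stabGroup {H : Type*} [Group H] (Q : Subgroup H)
    (θ : IrrCharacter (Subgroup.centralizer (Q : Set H))) :
    ∃ T : Subgroup H, ∀ g, g ∈ T ↔ g ∈ stabSet Q θ := by
  refine ⟨{ carrier := stabSet Q θ, mul_mem' := ?_, one_mem' := ?_, inv_mem' := ?_ },
    fun g => Iff.rfl⟩
  · intro a b ha hb
    refine ⟨Subgroup.mul_mem _ ha.1 hb.1, ?_⟩
    intro c c' hcc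
    have hbC := Cfsg.Agent.Lib.Helper81.normalizer_le_normalizer_centralizer Q hb.1
    have hmem : b * (c : H) * b⁻¹ ∈ Subgroup.centralizer (Q : Set H) :=
      (Subgroup.mem_normalizer_iff.mp hbC c).mp c.2
    have h1 := hb.2 c ⟨_, hmem⟩ rfl
    have h2 := ha.2 ⟨_, hmem⟩ c' (by rw [hcc]; group)
    rw [h2, h1]
  · refine ⟨Subgroup.one_mem _, ?_⟩
    intro c c' hcc
    have h : c' = c := Subtype.ext (by rw [hcc]; group)
    rw [h]
  · intro a ha
    refine ⟨Subgroup.inv_mem _ ha.1, ?_⟩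
    intro c c' hcc
    have h1 := ha.2 c' c (by rw [hcc]; group)
    exact h1.symm

end Cfsg.Agent.Lib.Helper79.DG
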