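import Mathlib
import Cfsg.Agent.Lib.Helper33.BFOne2
import Cfsg.Agent.Lib.Helper22.DOne2
import Cfsg.Agent.Lib.Helper22.TGDefs
import Cfsg.Agent.Lib.Helper22.IndCent2
import Cfsg.Agent.Lib.Helper6.DGSMT
import Cfsg.Agent.Lib.Helper66.DGH2R
import Cfsg.Agent.Lib.Helper82.StrongOrth
import Cfsg.Agent.Lib.Helper33.TGCGD
import Cfsg.Agent.Lib.Helper75.DGSTAB

/-!
# General blocks of defect one: the local structure (helper79)

`local_struct`: for a block `B` with defect group a Sylow subgroup `P` of order `p`, a root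
`b` of `B` in `C_G(P)` with canonical character `θ`, the generalized decomposition numbers
`D t χ` at the powers of a generator `z` of `P`, with all their properties.
-/

set_option autoImplicit false
set_option linter.style.haveILetI false
set_option maxHeartbeats 1600000

namespace Cfsg.Agent.Lib.Helper79.DG

open Cfsg Cfsg.Agent.Lib.Helper80.GenDec Cfsg.Agent.Lib.Helper80.Contrib
open Cfsg.Agent.Lib.Helper4 Cfsg.Agent.Lib.Helper21 Cfsg.Agent.Lib.Helper22
open Cfsg.Agent.Lib.Helper80.K2 Cfsg.Agent.Lib.Helper80.Major Cfsg.Agent.Lib.Helper81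
open Cfsg.Agent.Lib.Helper33.BF
open scoped ComplexConjugate

section

variable {G : Type*} [Group G] [Fintype G]

theorem not_dvd_orderOf_pow_of_sing (p : ℕ) [Fact p.Prime] (y : G) (hy : p ∣ orderOf y) (c : ℕ)
    (hc : ¬ p ∣ c) : p ∣ orderOf (y ^ c) := by
  have hp : p.Prime := Fact.out
  rw [orderOf_pow]
  have h1 : orderOf y = orderOf y / Nat.gcd (orderOf y) c * Nat.gcd (orderOf y) c :=
    (Nat.div_mul_cancel (Nat.gcd_dvd_left _ _)).symm
  rw [h1] at hy
  rcases (Nat.Prime.dvd_mul hp).mp hy with h | h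
  · exact h
  · exact absurd (dvd_trans h (Nat.gcd_dvd_right _ _)) hc

open scoped Classical in
theorem local_struct [Fintype (IrrCharacter G)] (p : ℕ) [Fact p.Prime] (M : Ideal AlgInt)
    (hM : IsPModular p M) (P : Sylow p G) (hP : Nat.card P = p)
    (B : Set (IrrCharacter G)) (hB : IsPBlock M B) (hBP : IsDefectGroup p M B P)
    (b : Set (IrrCharacter (Subgroup.centralizer ((P : Subgroup G) : Set G))))
    (hind : IsInducedBlock M (Subgroup.centralizer ((P : Subgroup G) : Set G)) b B)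
    (θ : IrrCharacter (Subgroup.centralizer ((P : Subgroup G) : Set G))) (hθ : θ ∈ b)
    (hθP : ∀ x : Subgroup.centralizer ((P : Subgroup G) : Set G),
      (x : G) ∈ (P : Subgroup G) → θ.1 x = θ.1 1)
    (T : Subgroup G)
    (hT : ∀ g : G, g ∈ T ↔ (g ∈ Subgroup.normalizer ((P : Subgroup G) : Set G) ∧
      ∀ c c' : Subgroup.centralizer ((P : Subgroup G) : Set G), (c' : G) = g * c * g⁻¹ →
        θ.1 c' = θ.1 c))
    (z : G) (hz : z ∈ (P : Subgroup G)) (hz1 : z ≠ 1) (ζ : ℂ) (hζ : IsPrimitiveRoot ζ p)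
    (κ : G → ZMod p)
    (hκ : ∀ n ∈ Subgroup.normalizer ((P : Subgroup G) : Set G), n⁻¹ * z * n = z ^ (κ n).val) :
    ∃ (v : ZMod p → IrrCharacter G → ℤ) (D : ZMod p → IrrCharacter G → ℂ),
      (∀ a χ, χ ∉ B → v a χ = 0) ∧
      (∀ t χ, D t χ = ∑ a : ZMod p, (v a χ : ℂ) * ζ ^ (a * t).val) ∧
      (∀ t t' : ZMod p, t ≠ 0 → t' ≠ 0 → D t = D t' ∨ ∑ χ, D t χ * conj (D t' χ) = 0) ∧
      (∀ t : ZMod p, t ≠ 0 → ∑ χ, D t χ * conj (D t χ) = (p : ℂ)) ∧
      (∀ χ ∈ B, D 1 χ ≠ 0) ∧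
      (∀ s : (ZMod p)ˣ, D (s : ZMod p) = D 1 ↔
        ∃ g ∈ T, g * z * g⁻¹ = z ^ (s : ZMod p).val) ∧
      (∀ g : G, ¬ p ∣ orderOf g → ∀ t : ZMod p, t ≠ 0 →
        ∑ χ : IrrCharacter G, (χ : G → ℂ) g * D t χ = 0) ∧
      (∀ χ ∈ B, ∀ t : ZMod p, t ≠ 0 →
        ∀ s : Subgroup.centralizer ((P : Subgroup G) : Set G), ¬ p ∣ orderOf s →
          (Nat.card T : ℂ) * χ.1 (z ^ t.val * (s : G)) =
            ∑ n : G, if n ∈ Subgroup.normalizer ((P : Subgroup G) : Set G) then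
              D (κ n * t) χ * extendByZero (Subgroup.centralizer ((P : Subgroup G) : Set G))
                θ.1 (n⁻¹ * (s : G) * n) else 0) := by
  have hp : p.Prime := Fact.out
  haveI : Fact (1 < p) := ⟨hp.one_lt⟩
  haveI : NeZero p := ⟨hp.ne_zero⟩
  have hzo : orderOf z = p := Cfsg.Agent.Lib.Helper92.DO.cf_order p P hP z hz hz1
  have hPz : (P : Subgroup G) = Subgroup.zpowers z :=
    Cfsg.Agent.Lib.Helper92.DO.cf_zpowers p P hP z hz hz1
  have hPp : IsPGroup p (P : Subgroup G) := P.isPGroup'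
  obtain ⟨v, hsupp, hKDv, hH3, hH4, hOS, huniq'⟩ :=
    Cfsg.Agent.Lib.Helper33.TGC.gd_exists hM P hP B hB hBP b hind θ hθ hθP z hz hz1 ζ hζ
  obtain ⟨D, hD⟩ : ∃ D : ZMod p → IrrCharacter G → ℂ,
      ∀ t χ, D t χ = ∑ a : ZMod p, (v a χ : ℂ) * ζ ^ (a * t).val := ⟨_, fun _ _ => rfl⟩
  have hKD' : ∀ (t : ZMod p) (χ : IrrCharacter G), χ ∈ B →
      ∀ s : Subgroup.centralizer ((P : Subgroup G) : Set G), ¬ p ∣ orderOf s →
        blockPart b (fun x : Subgroup.centralizer ((P : Subgroup G) : Set G) =>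
          χ.1 (z ^ t.val * (x : G))) s = D t χ * θ.1 s := by
    intro t χ hχ s hs
    rw [hD]
    exact hKDv t χ hχ s hs
  have hDsupp : ∀ t χ, χ ∉ B → D t χ = 0 := by
    intro t χ hχ
    rw [hD]
    refine Finset.sum_eq_zero fun a _ => ?_
    rw [hsupp a χ hχ, Int.cast_zero, zero_mul]
  have hpair : IsBrauerPairOf p M B (P : Subgroup G) b :=
    (isBrauerPairOf_iff_isInducedBlock hM (P : Subgroup G) hPp b B).mpr hind
  have hmax : IsMaximalBrauerPair p M B (P : Subgroup G) b :=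
    isMaximalBrauerPair_of_defectGroup hM B (P : Subgroup G) b hpair hBP
  have hstab : ∀ g : G, conjPair g (⟨(P : Subgroup G), b⟩ : BrauerPairIdx G) =
      ⟨(P : Subgroup G), b⟩ ↔ g ∈ T := by
    intro g
    rw [Cfsg.Agent.Lib.Helper75.DG.stab_iff hM (P : Subgroup G) b hind.1 θ hθ hθP huniq' g, hT g]
  have H3 : ∀ t : ZMod p, t ≠ 0 → ∑ χ : IrrCharacter G, D t χ * conj (D t χ) = (p : ℂ) := by
    intro t ht
    have h2 := hH3 t ht
    rw [← h2]
    refine Finset.sum_congr rfl fun χ _ => ?_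
    rw [hD]
  have H4 : ∀ χ ∈ B, D 1 χ ≠ 0 := by
    intro χ hχ
    rw [hD]
    exact hH4 χ hχ
  have hpC : (p : ℂ) ≠ 0 := Nat.cast_ne_zero.mpr hp.ne_zero
  refine ⟨v, D, hsupp, hD, ?_, H3, H4, ?_, ?_, ?_⟩
  · -- H2
    intro t t' ht ht'
    obtain ⟨h1, h2⟩ := Cfsg.Agent.Lib.Helper66.DG.h2_refined hM B (P : Subgroup G) b hmax hP z hz hz1 θ D hKD' hDsupp
      t t' ht ht'
    by_cases hex : ∃ g : G, g * z ^ t'.val * g⁻¹ = z ^ t.val ∧
        conjPair g (⟨(P : Subgroup G), b⟩ : BrauerPairIdx G) = ⟨(P : Subgroup G), b⟩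
    · exact Or.inl (h1 hex)
    · exact Or.inr (h2 hex)
  · -- fusion
    intro s
    have hs0 : (s : ZMod p) ≠ 0 := Units.ne_zero s
    obtain ⟨h1, h2⟩ := Cfsg.Agent.Lib.Helper66.DG.h2_refined hM B (P : Subgroup G) b hmax hP z hz hz1 θ D hKD' hDsupp
      (s : ZMod p) 1 hs0 one_ne_zero
    rw [ZMod.val_one, pow_one] at h1 h2
    constructor
    · intro hs
      by_contra hcon
      have h3 := h2 (by
        rintro ⟨g, hg, hgst⟩
        exact hcon ⟨g, (hstab g).mp hgst, hg⟩)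
      rw [hs, H3 1 one_ne_zero] at h3
      exact hpC h3
    · rintro ⟨g, hgT, hg⟩
      exact h1 ⟨g, hg, (hstab g).mpr hgT⟩
  · -- p-regular columns
    intro g hg t ht
    have h1 := hOS
      (fun χ => if χ ∈ B then (χ : G → ℂ) g else 0) (fun χ hχ => if_neg hχ) (by
        intro k hk
        have hk' : p ∣ orderOf k⁻¹ := by rwa [orderOf_inv]
        have h2 := Cfsg.Agent.Lib.Helper82.strong_block_orth hM B hB g k⁻¹ (by
          intro c h hc heq
          have h3 := not_dvd_orderOf_pow_of_sing p k⁻¹ hk' c hc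
          rw [heq] at h3
          have h4 : orderOf (h⁻¹ * g ^ c * h) = orderOf (g ^ c) := by
            have := (MulAut.conj h⁻¹).orderOf_eq (g ^ c)
            rwa [MulAut.conj_apply, inv_inv] at this
          rw [h4] at h3
          exact hg (dvd_trans h3 (orderOf_pow_dvd c)))
        rw [Cfsg.Agent.Lib.Helper22.DOne.finsum_mem_eq_sum_ite] at h2
        refine Eq.trans (Finset.sum_congr rfl fun χ _ => ?_) h2
        by_cases hχ : χ ∈ B
        · rw [if_pos hχ, if_pos hχ, Cfsg.Agent.Lib.Helper82.irr_inv, Complex.conj_conj]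
        · rw [if_neg hχ, if_neg hχ, zero_mul]) t ht
    refine Eq.trans (Finset.sum_congr rfl fun χ _ => ?_) h1
    by_cases hχ : χ ∈ B
    · rw [if_pos hχ, hD]
    · rw [if_neg hχ, hDsupp t χ hχ, mul_zero, zero_mul]
  · -- SMT expansion
    intro χ hχ t ht s hs
    have h1 := Cfsg.Agent.Lib.Helper6.DG.smt_expand hM B (P : Subgroup G) b hmax hP z hz hz1 θ D hKD' κ hκ χ hχ t ht s hs
    rw [← h1]
    congr 2
    exact Nat.card_congr (Equiv.subtypeEquivRight fun g => (hstab g).symm)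

end

end Cfsg.Agent.Lib.Helper79.DG
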