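import Mathlib
import Cfsg.Agent.Lib.Helper79.DGLoc
import Cfsg.Agent.Lib.Helper29.DGFUS
import Cfsg.Agent.Lib.Helper29.DGFCE2
import Cfsg.Agent.Lib.Helper88.DGKSUB
import Cfsg.Agent.Lib.Helper4.DGKIRR
import Cfsg.Agent.Lib.Helper63.DGORB

/-!
# General blocks of defect one: the Fourier package (helper79)

`TGStmt`: the statement of helper22's general Thompson lattice theorem `thompson_gen`.
`thompson_block`: its consequence for the generalized decomposition numbers of a block.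
`pack_gen`: the Fourier package of a block of defect one.
-/

set_option autoImplicit false
set_option linter.style.haveILetI false
set_option maxHeartbeats 1600000

namespace Cfsg.Agent.Lib.Helper79.DG

open Cfsg Cfsg.Agent.Lib.Helper4 Cfsg.Agent.Lib.Helper21 Cfsg.Agent.Lib.Helper22
open Cfsg.Agent.Lib.Helper81
open scoped ComplexConjugate

universe u

/-- helper22's interface theorem `thompson_gen`, as a proposition -/
def TGStmt : Prop :=
  ∀ (G : Type u) [Group G] [Fintype G] (p : ℕ) [Fact p.Prime]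
    (M : Ideal AlgInt) (_ : IsPModular p M)
    (z : G) (_ : orderOf z = p) (_ : ¬ p ^ 2 ∣ Nat.card G)
    (K : Subgroup G) (_ : ∀ y : G, y ∈ K ↔ (y * z = z * y ∧ ¬ p ∣ orderOf y))
    (θ : IrrCharacter K) (χ : IrrCharacter G)
    (_ : ∀ t ∈ Finset.Ico 1 p, ∃ a : G → ℂ,
      (∀ n, n ∉ Subgroup.normalizer ((Subgroup.zpowers z : Subgroup G) : Set G) → a n = 0) ∧
      ∀ y : K, (χ : G → ℂ) (z ^ t * (y : G)) =
        ∑ n : G, a n * Cfsg.Agent.Lib.Helper22.TG.cj K (θ : K → ℂ) n y)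
    (s : ℤ) (_ : (s : ℂ) = ∑ t ∈ Finset.Ico 1 p, (χ : G → ℂ) (z ^ t)) (_ : s ≠ 0),
    s ∣ ((p : ℤ) - 1) *
      ((Nat.card (Cfsg.Agent.Lib.Helper22.TG.orb K (θ : K → ℂ)
        (Subgroup.normalizer ((Subgroup.zpowers z : Subgroup G) : Set G))) *
          charDegree (θ : K → ℂ) : ℕ) : ℤ)

theorem sum_ne_zero_mul (p : ℕ) [Fact p.Prime] (F : ZMod p → ℂ) (k : ZMod p) (hk : k ≠ 0) :
    ∑ t ∈ Finset.univ.filter (fun t : ZMod p => t ≠ 0), F (k * t) =
      ∑ t ∈ Finset.univ.filter (fun t : ZMod p => t ≠ 0), F t := by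
  classical
  refine Finset.sum_nbij' (fun t => k * t) (fun t => k⁻¹ * t) ?_ ?_ ?_ ?_ ?_
  · intro t ht
    rw [Finset.mem_filter] at ht ⊢
    exact ⟨Finset.mem_univ _, mul_ne_zero hk ht.2⟩
  · intro t ht
    rw [Finset.mem_filter] at ht ⊢
    exact ⟨Finset.mem_univ _, mul_ne_zero (inv_ne_zero hk) ht.2⟩
  · intro t _
    rw [← mul_assoc, inv_mul_cancel₀ hk, one_mul]
  · intro t _
    rw [← mul_assoc, mul_inv_cancel₀ hk, one_mul]
  · intro t _; rfl

section

variable {G : Type u} [Group G] [Fintype G]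

open scoped Classical in
theorem sum_mem_const (N : Subgroup G) (c : ℂ) :
    ∑ n : G, (if n ∈ N then c else 0) = (Nat.card N : ℂ) * c := by
  rw [← Finset.sum_filter, Finset.sum_const, nsmul_eq_mul]
  congr 2
  rw [Nat.card_eq_fintype_card, Fintype.card_subtype]

theorem card_eq_card_mul_relIndex (T N : Subgroup G) (hTN : T ≤ N) :
    Nat.card N = Nat.card T * T.relIndex N := by
  have h1 := Subgroup.card_mul_index (T.subgroupOf N)
  rw [Nat.card_congr (Subgroup.subgroupOfEquivOfLe hTN).toEquiv] at h1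
  exact h1.symm

theorem kappa_ne_zero (p : ℕ) [Fact p.Prime] (z : G) (hz1 : z ≠ 1) (n : G) (k : ZMod p)
    (h : n⁻¹ * z * n = z ^ k.val) : k ≠ 0 := by
  intro hk
  rw [hk, ZMod.val_zero, pow_zero] at h
  apply hz1
  have h2 : z = n * (n⁻¹ * z * n) * n⁻¹ := by group
  rw [h2, h, mul_one, mul_inv_cancel]

open scoped Classical in
theorem thompson_block (hTG : TGStmt.{u}) (p : ℕ) [Fact p.Prime] (M : Ideal AlgInt)
    (hM : IsPModular p M) (P : Sylow p G) (hP : Nat.card P = p)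
    (θ : IrrCharacter (Subgroup.centralizer ((P : Subgroup G) : Set G)))
    (hθP : ∀ x : Subgroup.centralizer ((P : Subgroup G) : Set G),
      (x : G) ∈ (P : Subgroup G) → θ.1 x = θ.1 1)
    (T : Subgroup G)
    (hT : ∀ g : G, g ∈ T ↔ (g ∈ Subgroup.normalizer ((P : Subgroup G) : Set G) ∧
      ∀ c c' : Subgroup.centralizer ((P : Subgroup G) : Set G), (c' : G) = g * c * g⁻¹ →
        θ.1 c' = θ.1 c))
    (z : G) (hz : z ∈ (P : Subgroup G)) (hz1 : z ≠ 1)
    (κ : G → ZMod p)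
    (hκ : ∀ n ∈ Subgroup.normalizer ((P : Subgroup G) : Set G), n⁻¹ * z * n = z ^ (κ n).val)
    (χ : IrrCharacter G) (Dχ : ZMod p → ℂ)
    (hsmt : ∀ t : ZMod p, t ≠ 0 →
      ∀ s : Subgroup.centralizer ((P : Subgroup G) : Set G), ¬ p ∣ orderOf s →
        (Nat.card T : ℂ) * χ.1 (z ^ t.val * (s : G)) =
          ∑ n : G, if n ∈ Subgroup.normalizer ((P : Subgroup G) : Set G) then
            Dχ (κ n * t) * extendByZero (Subgroup.centralizer ((P : Subgroup G) : Set G))
              θ.1 (n⁻¹ * (s : G) * n) else 0)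
    (S : ℤ) (hS : (S : ℂ) = ∑ t ∈ Finset.univ.filter (fun t : ZMod p => t ≠ 0), Dχ t)
    (hS0 : S ≠ 0) : S ∣ (p : ℤ) - 1 := by
  have hp : p.Prime := Fact.out
  haveI : NeZero p := ⟨hp.ne_zero⟩
  have hzo : orderOf z = p := Cfsg.Agent.Lib.Helper92.DO.cf_order p P hP z hz hz1
  have hPz : (P : Subgroup G) = Subgroup.zpowers z :=
    Cfsg.Agent.Lib.Helper92.DO.cf_zpowers p P hP z hz hz1
  have hp2 : ¬ p ^ 2 ∣ Nat.card G := by
    intro h
    have h1 := P.card_eq_multiplicity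
    rw [hP] at h1
    have h2 : (Nat.card G).factorization p = 1 := by
      apply Nat.pow_right_injective hp.two_le
      show p ^ _ = p ^ 1
      rw [pow_one]; exact h1.symm
    have h3 : 2 ≤ (Nat.card G).factorization p :=
      (hp.pow_dvd_iff_le_factorization (Nat.card_pos.ne')).1 h
    omega
  have hTN : T ≤ Subgroup.normalizer ((P : Subgroup G) : Set G) := fun g hg => ((hT g).mp hg).1
  obtain ⟨K, hK⟩ := Cfsg.Agent.Lib.Helper88.DG.exists_K p P hP z hz hz1
  obtain ⟨θK, hθK⟩ := Cfsg.Agent.Lib.Helper4.DG.exists_thetaK p P hP z hz hz1 K hK θ hθP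
  have horb := Cfsg.Agent.Lib.Helper63.DG.card_orb p P hP z hz hz1 K hK θ hθP θK hθK T hT
  have hcomm : ∀ y ∈ K, ∀ x ∈ (P : Subgroup G), x * y = y * x := by
    intro y hy x hx
    rw [hPz] at hx
    obtain ⟨i, rfl⟩ := Subgroup.mem_zpowers_iff.mp hx
    have h1 : Commute z y := ((hK y).mp hy).1.symm
    exact (h1.zpow_left i).eq
  have hKC : ∀ y ∈ K, y ∈ Subgroup.centralizer ((P : Subgroup G) : Set G) := by
    intro y hy
    rw [Subgroup.mem_centralizer_iff]
    intro x hx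
    exact hcomm y hy x hx
  have hKN : ∀ n ∈ Subgroup.normalizer ((P : Subgroup G) : Set G), ∀ y ∈ K,
      n⁻¹ * y * n ∈ K := by
    intro n hn y hy
    rw [hK]
    constructor
    · have h1 : n * z * n⁻¹ ∈ (P : Subgroup G) := (Subgroup.mem_normalizer_iff.mp hn z).mp hz
      have h2 := hcomm y hy _ h1
      calc n⁻¹ * y * n * z = n⁻¹ * (y * (n * z * n⁻¹)) * n := by group
        _ = n⁻¹ * ((n * z * n⁻¹) * y) * n := by rw [h2]
        _ = z * (n⁻¹ * y * n) := by group
    · have h1 : orderOf (n⁻¹ * y * n) = orderOf y := by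
        have := (MulAut.conj n⁻¹).orderOf_eq y
        rwa [MulAut.conj_apply, inv_inv] at this
      rw [h1]
      exact ((hK y).mp hy).2
  have hT0 : (Nat.card T : ℂ) ≠ 0 := by
    exact_mod_cast (Nat.card_pos (α := T)).ne'
  have h1reg : ¬ p ∣ orderOf (1 : Subgroup.centralizer ((P : Subgroup G) : Set G)) := by
    rw [orderOf_one]; exact hp.not_dvd_one
  -- the hypothesis of the lattice theorem
  have hsmt' : ∀ t ∈ Finset.Ico 1 p, ∃ a : G → ℂ,
      (∀ n, n ∉ Subgroup.normalizer ((Subgroup.zpowers z : Subgroup G) : Set G) → a n = 0) ∧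
      ∀ y : K, (χ : G → ℂ) (z ^ t * (y : G)) =
        ∑ n : G, a n * Cfsg.Agent.Lib.Helper22.TG.cj K (θK : K → ℂ) n y := by
    intro t ht
    rw [Finset.mem_Ico] at ht
    have ht0 : (t : ZMod p) ≠ 0 := by
      intro h0
      have := (ZMod.natCast_eq_zero_iff t p).1 h0
      exact absurd (Nat.le_of_dvd (by omega) this) (by omega)
    have htv : (t : ZMod p).val = t := ZMod.val_natCast_of_lt ht.2
    refine ⟨fun n => if n ∈ Subgroup.normalizer ((P : Subgroup G) : Set G) then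
      Dχ (κ n * (t : ZMod p)) / (Nat.card T : ℂ) else 0, ?_, ?_⟩
    · intro n hn
      rw [← hPz] at hn
      exact if_neg hn
    · intro y
      have hyC := hKC y y.2
      have hyreg : ¬ p ∣ orderOf (⟨(y : G), hyC⟩ :
          Subgroup.centralizer ((P : Subgroup G) : Set G)) := by
        rw [← Subgroup.orderOf_coe]
        exact ((hK y).mp y.2).2
      have h1 := hsmt (t : ZMod p) ht0 ⟨(y : G), hyC⟩ hyreg
      rw [htv] at h1
      apply mul_left_cancel₀ hT0
      rw [h1, Finset.mul_sum]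
      refine Finset.sum_congr rfl fun n _ => ?_
      dsimp only
      by_cases hn : n ∈ Subgroup.normalizer ((P : Subgroup G) : Set G)
      · have hmem := hKN n hn y y.2
        rw [if_pos hn, if_pos hn, Cfsg.Agent.Lib.Helper22.TG.cj_apply K θK.1 n y hmem,
          hθK ⟨_, hmem⟩ (hKC _ hmem), extendByZero_apply_mem' _ _ (hKC _ hmem)]
        field_simp
      · rw [if_neg hn, if_neg hn, zero_mul, mul_zero]
  -- the sum over the powers of z
  have hsum : (Nat.card T : ℂ) * ∑ t ∈ Finset.Ico 1 p, (χ : G → ℂ) (z ^ t) =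
      (Nat.card (Subgroup.normalizer ((P : Subgroup G) : Set G)) : ℂ) * (θ.1 1 * (S : ℂ)) := by
    have e1 : ∑ t ∈ Finset.Ico 1 p, (χ : G → ℂ) (z ^ t) =
        ∑ t ∈ Finset.univ.filter (fun t : ZMod p => t ≠ 0), (χ : G → ℂ) (z ^ t.val) := by
      rw [← Cfsg.Agent.Lib.Helper22.DOne.sum_zmod_ne_zero p (fun t => (χ : G → ℂ) (z ^ t.val))]
      refine Finset.sum_congr rfl fun t ht => ?_
      rw [Finset.mem_Ico] at ht
      rw [ZMod.val_natCast_of_lt ht.2]
    have e2 : ∀ t ∈ Finset.univ.filter (fun t : ZMod p => t ≠ 0),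
        (Nat.card T : ℂ) * (χ : G → ℂ) (z ^ t.val) =
          ∑ n : G, if n ∈ Subgroup.normalizer ((P : Subgroup G) : Set G) then
            Dχ (κ n * t) * θ.1 1 else 0 := by
      intro t ht
      rw [Finset.mem_filter] at ht
      have h1 := hsmt t ht.2 1 h1reg
      rw [Subgroup.coe_one, mul_one] at h1
      rw [h1]
      refine Finset.sum_congr rfl fun n _ => ?_
      have h2 : n⁻¹ * (1 : G) * n = ((1 : Subgroup.centralizer ((P : Subgroup G) : Set G)) : G) := by
        rw [Subgroup.coe_one]; group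
      rw [h2, extendByZero_apply_mem]
    rw [e1, Finset.mul_sum, Finset.sum_congr rfl e2, Finset.sum_comm, ← sum_mem_const]
    refine Finset.sum_congr rfl fun n _ => ?_
    by_cases hn : n ∈ Subgroup.normalizer ((P : Subgroup G) : Set G)
    · rw [if_pos hn]
      rw [Finset.sum_congr rfl (fun t _ => if_pos hn), ← Finset.sum_mul,
        sum_ne_zero_mul p Dχ (κ n) (kappa_ne_zero p z hz1 n _ (hκ n hn)), ← hS]
      ring
    · rw [if_neg hn]
      exact Finset.sum_eq_zero fun t _ => if_neg hn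
  obtain ⟨hdeg1, hdeg2⟩ := Cfsg.Agent.Lib.Helper82.irr_charDegree θ
  set r := T.relIndex (Subgroup.normalizer ((P : Subgroup G) : Set G)) with hr
  have hcardN := card_eq_card_mul_relIndex T _ hTN
  rw [← hr] at hcardN
  have hr0 : r ≠ 0 := by
    intro h0
    rw [h0, mul_zero] at hcardN
    exact (Nat.card_pos (α := Subgroup.normalizer ((P : Subgroup G) : Set G))).ne' hcardN
  have hs : ((((r * charDegree (θ : Subgroup.centralizer ((P : Subgroup G) : Set G) → ℂ) : ℕ) : ℤ)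
      * S : ℤ) : ℂ) = ∑ t ∈ Finset.Ico 1 p, (χ : G → ℂ) (z ^ t) := by
    apply mul_left_cancel₀ hT0
    rw [hsum, hcardN]
    push_cast
    rw [hdeg1]
    ring
  have hk0 : ((r * charDegree (θ : Subgroup.centralizer ((P : Subgroup G) : Set G) → ℂ) : ℕ) : ℤ)
      ≠ 0 := by
    exact_mod_cast Nat.mul_ne_zero hr0 hdeg2
  have hdvd := hTG G p M hM z hzo hp2 K hK θK χ hsmt' _ hs (mul_ne_zero hk0 hS0)
  have hdegK : charDegree (θK : K → ℂ) =
      charDegree (θ : Subgroup.centralizer ((P : Subgroup G) : Set G) → ℂ) := by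
    unfold charDegree
    have h1 := hθK 1 (Subgroup.one_mem _)
    have h2 : (⟨((1 : K) : G), Subgroup.one_mem _⟩ :
        Subgroup.centralizer ((P : Subgroup G) : Set G)) = 1 := rfl
    rw [h2] at h1
    rw [h1]
  rw [← hPz, horb, hdegK, mul_comm ((p : ℤ) - 1)] at hdvd
  exact (mul_dvd_mul_iff_left hk0).mp hdvd

open scoped Classical in
theorem pack_gen [Fintype (IrrCharacter G)] (hTG : TGStmt.{u}) (p : ℕ) [Fact p.Prime]
    (M : Ideal AlgInt) (hM : IsPModular p M) (P : Sylow p G) (hP : Nat.card P = p)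
    (B : Set (IrrCharacter G)) (hB : IsPBlock M B) (hBP : IsDefectGroup p M B P)
    (b : Set (IrrCharacter (Subgroup.centralizer ((P : Subgroup G) : Set G))))
    (hind : IsInducedBlock M (Subgroup.centralizer ((P : Subgroup G) : Set G)) b B)
    (θ : IrrCharacter (Subgroup.centralizer ((P : Subgroup G) : Set G))) (hθ : θ ∈ b)
    (hθP : ∀ x : Subgroup.centralizer ((P : Subgroup G) : Set G),
      (x : G) ∈ (P : Subgroup G) → θ.1 x = θ.1 1)
    (T : Subgroup G)
    (hT : ∀ g : G, g ∈ T ↔ (g ∈ Subgroup.normalizer ((P : Subgroup G) : Set G) ∧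
      ∀ c c' : Subgroup.centralizer ((P : Subgroup G) : Set G), (c' : G) = g * c * g⁻¹ →
        θ.1 c' = θ.1 c))
    (z : G) (hz : z ∈ (P : Subgroup G)) (hz1 : z ≠ 1) (ζ : ℂ) (hζ : IsPrimitiveRoot ζ p) :
    ∃ (m e : ℕ) (Θ : Fin m → IrrCharacter G → ℤ) (η : Fin m → ZMod p → ℂ)
      (D : ZMod p → IrrCharacter G → ℂ) (κ : G → ZMod p) (v : ZMod p → IrrCharacter G → ℤ),
      1 ≤ m ∧ 1 ≤ e ∧ p = 1 + e * m ∧
      (∀ i χ, χ ∉ B → Θ i χ = 0) ∧
      (∀ i j, ∑ χ, Θ i χ * Θ j χ = (if i = j then 1 else 0) + (e : ℤ)) ∧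
      (∀ χ ∈ B, ∃ i, Θ i χ ≠ 0) ∧
      (∀ g : G, ¬ p ∣ orderOf g → ∀ i, ∑ χ : IrrCharacter G, (Θ i χ : ℂ) * (χ : G → ℂ) g = 0) ∧
      (e = (Subgroup.centralizer ((P : Subgroup G) : Set G)).relIndex T) ∧
      (∀ χ ∈ B, (e : ℤ) * ∑ i, Θ i χ ≠ 0 → (e : ℤ) * ∑ i, Θ i χ ∣ (p : ℤ) - 1) ∧
      (∀ χ ∈ B, (∀ i j, Θ i χ = Θ j χ) → ∀ (i : Fin m) (t : ZMod p), t ≠ 0 →
        ∀ s : Subgroup.centralizer ((P : Subgroup G) : Set G), ¬ p ∣ orderOf s →
          (Nat.card T : ℂ) * χ.1 (z ^ t.val * (s : G)) = -(Θ i χ : ℂ) *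
            ∑ n : G, if n ∈ Subgroup.normalizer ((P : Subgroup G) : Set G) then
              extendByZero (Subgroup.centralizer ((P : Subgroup G) : Set G))
                θ.1 (n⁻¹ * (s : G) * n) else 0) ∧
      (∀ χ ∈ B, (∀ i j, Θ i χ = Θ j χ) → ∀ i : Fin m,
        (charDegree (χ : G → ℂ) : ℤ) ≡ -(Θ i χ) *
          ((T.relIndex (Subgroup.normalizer ((P : Subgroup G) : Set G)) *
            charDegree (θ : Subgroup.centralizer ((P : Subgroup G) : Set G) → ℂ) : ℕ) : ℤ)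
          [ZMOD p]) ∧
      (∀ n ∈ Subgroup.normalizer ((P : Subgroup G) : Set G), n⁻¹ * z * n = z ^ (κ n).val) ∧
      (∀ t χ, D t χ = ∑ a : ZMod p, (v a χ : ℂ) * ζ ^ (a * t).val) ∧
      (∀ χ ∈ B, ∀ t : ZMod p, t ≠ 0 →
        ∀ s : Subgroup.centralizer ((P : Subgroup G) : Set G), ¬ p ∣ orderOf s →
          (Nat.card T : ℂ) * χ.1 (z ^ t.val * (s : G)) =
            ∑ n : G, if n ∈ Subgroup.normalizer ((P : Subgroup G) : Set G) then
              D (κ n * t) χ * extendByZero (Subgroup.centralizer ((P : Subgroup G) : Set G))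
                θ.1 (n⁻¹ * (s : G) * n) else 0) ∧
      (∀ χ (t : ZMod p), t ≠ 0 → D t χ = ∑ i, (Θ i χ : ℂ) * η i t) ∧
      (∀ t : ZMod p, t ≠ 0 → ∑ i, η i t = -1) ∧
      (∀ i j, ∃ k : (ZMod p)ˣ, ∀ t : ZMod p, η i ((k : ZMod p) * t) = η j t) := by
  have hp : p.Prime := Fact.out
  haveI : Fact (1 < p) := ⟨hp.one_lt⟩
  haveI : NeZero p := ⟨hp.ne_zero⟩
  have hzo : orderOf z = p := Cfsg.Agent.Lib.Helper92.DO.cf_order p P hP z hz hz1
  have hzp : z ^ p = 1 := by rw [← hzo]; exact pow_orderOf_eq_one z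
  have hPz : (P : Subgroup G) = Subgroup.zpowers z :=
    Cfsg.Agent.Lib.Helper92.DO.cf_zpowers p P hP z hz hz1
  have hTN : T ≤ Subgroup.normalizer ((P : Subgroup G) : Set G) := fun g hg => ((hT g).mp hg).1
  have hCT : Subgroup.centralizer ((P : Subgroup G) : Set G) ≤ T := by
    intro g hg
    rw [hT]
    refine ⟨?_, ?_⟩
    · exact Subgroup.centralizer_le_normalizer _ hg
    · intro c c' hcc
      have h1 : c' = (⟨g, hg⟩ : Subgroup.centralizer ((P : Subgroup G) : Set G)) * c *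
          (⟨g, hg⟩ : Subgroup.centralizer ((P : Subgroup G) : Set G))⁻¹ := by
        apply Subtype.ext
        rw [hcc]; rfl
      rw [h1]
      exact Cfsg.Agent.Lib.Helper82.irr_isClassFunction θ c _
  -- the exponents
  have hκex : ∀ n : G, ∃ k : ZMod p,
      n ∈ Subgroup.normalizer ((P : Subgroup G) : Set G) → n⁻¹ * z * n = z ^ k.val := by
    intro n
    by_cases hn : n ∈ Subgroup.normalizer ((P : Subgroup G) : Set G)
    · have h1 : n⁻¹ * z * n ∈ Subgroup.zpowers z := by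
        rw [← hPz]
        have := (Subgroup.mem_normalizer_iff.mp (Subgroup.inv_mem _ hn) z).mp hz
        rwa [inv_inv] at this
      have h2 : n⁻¹ * z * n ≠ 1 := by
        intro h
        apply hz1
        have h3 : z = n * (n⁻¹ * z * n) * n⁻¹ := by group
        rw [h3, h, mul_one, mul_inv_cancel]
      obtain ⟨s, hs⟩ := Cfsg.Agent.Lib.Helper92.DO.cf_exists p z hzo _ h1 h2
      exact ⟨s, fun _ => hs⟩
    · exact ⟨0, fun h => absurd h hn⟩
  choose κ hκ using hκex
  have hκ0 : ∀ n ∈ Subgroup.normalizer ((P : Subgroup G) : Set G), κ n ≠ 0 :=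
    fun n hn => kappa_ne_zero p z hz1 n _ (hκ n hn)
  obtain ⟨v, D, hsupp, hD, H2, H3, H4, Hfus, Hreg, Hsmt⟩ :=
    local_struct p M hM P hP B hB hBP b hind θ hθ hθP T hT z hz hz1 ζ hζ κ hκ
  obtain ⟨m, e, Θ, η, hm, he, hpem, hΘsupp, hgram, hne, horth, hN1, hN2, hN3, hη1, hη2, hη3⟩ :=
    Cfsg.Agent.Lib.Helper29.DG.fourier_core_ext2 p ζ hζ B v hsupp D hD H2 H3 H4
  have hT0 : (Nat.card T : ℂ) ≠ 0 := by
    exact_mod_cast (Nat.card_pos (α := T)).ne'
  have h1reg : ¬ p ∣ orderOf (1 : Subgroup.centralizer ((P : Subgroup G) : Set G)) := by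
    rw [orderOf_one]; exact hp.not_dvd_one
  have hreg1 : ¬ p ∣ orderOf (1 : G) := by
    rw [orderOf_one]; exact hp.not_dvd_one
  have hVAL : ∀ χ ∈ B, (∀ i j, Θ i χ = Θ j χ) → ∀ (i : Fin m) (t : ZMod p), t ≠ 0 →
      ∀ s : Subgroup.centralizer ((P : Subgroup G) : Set G), ¬ p ∣ orderOf s →
        (Nat.card T : ℂ) * χ.1 (z ^ t.val * (s : G)) = -(Θ i χ : ℂ) *
          ∑ n : G, if n ∈ Subgroup.normalizer ((P : Subgroup G) : Set G) then
            extendByZero (Subgroup.centralizer ((P : Subgroup G) : Set G))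
              θ.1 (n⁻¹ * (s : G) * n) else 0 := by
    intro χ hχ hconst i t ht s hs
    rw [Hsmt χ hχ t ht s hs, Finset.mul_sum]
    refine Finset.sum_congr rfl fun n _ => ?_
    by_cases hn : n ∈ Subgroup.normalizer ((P : Subgroup G) : Set G)
    · rw [if_pos hn, if_pos hn, hN3 χ hconst i (κ n * t) (mul_ne_zero (hκ0 n hn) ht)]
    · rw [if_neg hn, if_neg hn, mul_zero]
  refine ⟨m, e, Θ, η, D, κ, v, hm, he, hpem, hΘsupp, hgram, hne, ?_, ?_, ?_, hVAL, ?_, hκ, hD,
    Hsmt, hη1, hη2, hη3⟩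
  · intro g hg i
    have h1 := (horth (fun χ => (χ : G → ℂ) g)).2 (fun t ht => Hreg g hg t ht) i
    rw [← h1]
    refine Finset.sum_congr rfl fun χ _ => ?_
    rw [mul_comm]
  · rw [← hN1, ← Cfsg.Agent.Lib.Helper29.DG.card_fusion_T p P hP z hz hz1 T hCT hTN]
    apply Nat.card_congr
    apply Equiv.subtypeEquivRight
    intro s
    exact Hfus s
  · intro χ hχ hne0
    have h1 := thompson_block hTG p M hM P hP θ hθP T hT z hz hz1 κ hκ χ (fun t => D t χ)
      (fun t ht s hs => Hsmt χ hχ t ht s hs) (-((e : ℤ) * ∑ i, Θ i χ)) (by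
        rw [hN2 χ]
        push_cast
        rfl) (neg_ne_zero.mpr hne0)
    exact (neg_dvd).mp h1
  · intro χ hχ hconst i
    have h1 := hVAL χ hχ hconst i 1 one_ne_zero 1 h1reg
    rw [ZMod.val_one, pow_one, Subgroup.coe_one, mul_one] at h1
    have h2 : ∀ n : G, (if n ∈ Subgroup.normalizer ((P : Subgroup G) : Set G) then
        extendByZero (Subgroup.centralizer ((P : Subgroup G) : Set G))
          θ.1 (n⁻¹ * (1 : G) * n) else 0) =
        if n ∈ Subgroup.normalizer ((P : Subgroup G) : Set G) then θ.1 1 else 0 := by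
      intro n
      have h3 : n⁻¹ * (1 : G) * n =
          ((1 : Subgroup.centralizer ((P : Subgroup G) : Set G)) : G) := by
        rw [Subgroup.coe_one]; group
      rw [h3, extendByZero_apply_mem]
    rw [Finset.sum_congr rfl (fun n _ => h2 n), sum_mem_const,
      card_eq_card_mul_relIndex T _ hTN] at h1
    obtain ⟨hdeg1, -⟩ := Cfsg.Agent.Lib.Helper82.irr_charDegree θ
    obtain ⟨hdeg3, -⟩ := Cfsg.Agent.Lib.Helper82.irr_charDegree χ
    have h4 : (χ : G → ℂ) z = ((-(Θ i χ) *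
        ((T.relIndex (Subgroup.normalizer ((P : Subgroup G) : Set G)) *
          charDegree (θ : Subgroup.centralizer ((P : Subgroup G) : Set G) → ℂ) : ℕ) : ℤ) : ℤ) : ℂ) := by
      apply mul_left_cancel₀ hT0
      rw [h1]
      push_cast
      rw [hdeg1]
      ring
    have h5 := Cfsg.Agent.Lib.Helper22.char_ppart_mul_congr hM χ z 1 (Commute.one_right z) 1
      (by rw [pow_one]; exact hzp) hreg1
    rw [mul_one, h4, ← hdeg3] at h5
    have h6 : MemLocalIdeal M (((-(Θ i χ) *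
        ((T.relIndex (Subgroup.normalizer ((P : Subgroup G) : Set G)) *
          charDegree (θ : Subgroup.centralizer ((P : Subgroup G) : Set G) → ℂ) : ℕ) : ℤ) -
          (charDegree (χ : G → ℂ) : ℤ) : ℤ)) : ℂ) := by
      push_cast
      push_cast at h5
      exact h5
    have h7 := (Cfsg.Agent.Lib.Helper22.memLocalIdeal_intCast_iff hM _).1 h6
    exact (Int.modEq_iff_dvd).2 h7

end

end Cfsg.Agent.Lib.Helper79.DG
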