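import Mathlib
import Cfsg.Agent.Lib.Helper79.DGPack
import Cfsg.Agent.Lib.Helper43.BFLat

/-!
# General blocks of defect one: the structure theorem (helper79)

`core_gen`: the analogue of `Cfsg.Agent.Lib.Helper22.DOne.core` for an arbitrary block with a
defect group of order `p` which is a Sylow subgroup, given the general Thompson lattice theorem.
-/

set_option autoImplicit false
set_option linter.style.haveILetI false
set_option maxHeartbeats 3200000

namespace Cfsg.Agent.Lib.Helper79.DG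

open Cfsg Cfsg.Agent.Lib.Helper22.DOne
open scoped ComplexConjugate

universe u

section

variable {G : Type u} [Group G] [Fintype G]

open scoped Classical in
theorem core_gen [Fintype (IrrCharacter G)] (hTG : TGStmt.{u}) (p : ℕ) [Fact p.Prime]
    (M : Ideal AlgInt) (hM : IsPModular p M) (P : Sylow p G) (hP : Nat.card P = p)
    (B : Set (IrrCharacter G)) (hB : IsPBlock M B) (hBP : IsDefectGroup p M B P)
    (b : Set (IrrCharacter (Subgroup.centralizer ((P : Subgroup G) : Set G))))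
    (hind : IsInducedBlock M (Subgroup.centralizer ((P : Subgroup G) : Set G)) b B)
    (θ : IrrCharacter (Subgroup.centralizer ((P : Subgroup G) : Set G))) (hθ : θ ∈ b)
    (hθP : ∀ x : Subgroup.centralizer ((P : Subgroup G) : Set G),
      (x : G) ∈ (P : Subgroup G) → θ.1 x = θ.1 1)
    (T : Subgroup G)
    (hT : ∀ g : G, g ∈ T ↔ (g ∈ Subgroup.normalizer ((P : Subgroup G) : Set G) ∧
      ∀ c c' : Subgroup.centralizer ((P : Subgroup G) : Set G), (c' : G) = g * c * g⁻¹ →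
        θ.1 c' = θ.1 c))
    (e : ℕ) (he : (Subgroup.centralizer ((P : Subgroup G) : Set G)).relIndex T = e)
    (z : G) (hz : z ∈ (P : Subgroup G)) (hz1 : z ≠ 1) (ζ : ℂ) (hζ : IsPrimitiveRoot ζ p) :
    ∃ X Y : Set (IrrCharacter G), B = X ∪ Y ∧ Disjoint X Y ∧
      Nat.card X = e ∧ Nat.card Y = (p - 1) / e ∧ e ∣ p - 1 ∧ 1 ≤ e ∧
      ∃ (εX : IrrCharacter G → ℤ) (ε : ℤ) (D : ZMod p → IrrCharacter G → ℂ) (κ : G → ZMod p)
        (v : ZMod p → IrrCharacter G → ℤ),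
        (∀ χ ∈ X, (εX χ = 1 ∨ εX χ = -1) ∧
          (charDegree (χ : G → ℂ) : ℤ) ≡ εX χ *
            ((T.relIndex (Subgroup.normalizer ((P : Subgroup G) : Set G)) *
              charDegree (θ : Subgroup.centralizer ((P : Subgroup G) : Set G) → ℂ) : ℕ) : ℤ)
            [ZMOD p] ∧
          ∀ t : ZMod p, t ≠ 0 → D t χ = (εX χ : ℂ)) ∧
        (ε = 1 ∨ ε = -1) ∧
        (∀ ψ ∈ Y, (charDegree (ψ : G → ℂ) : ℤ) ≡ ε *
            ((e * (T.relIndex (Subgroup.normalizer ((P : Subgroup G) : Set G)) *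
              charDegree (θ : Subgroup.centralizer ((P : Subgroup G) : Set G) → ℂ)) : ℕ) : ℤ)
            [ZMOD p]) ∧
        (∀ ψ ∈ Y, ∀ ψ' ∈ Y, ∀ g : G, ¬ p ∣ orderOf g → (ψ : G → ℂ) g = (ψ' : G → ℂ) g) ∧
        (∀ ψ ∈ Y, ∀ g : G, ¬ p ∣ orderOf g →
          (ε : ℂ) * (ψ : G → ℂ) g = ∑ᶠ χ ∈ X, (εX χ : ℂ) * (χ : G → ℂ) g) ∧
        (∀ n ∈ Subgroup.normalizer ((P : Subgroup G) : Set G), n⁻¹ * z * n = z ^ (κ n).val) ∧
        (∀ t χ, D t χ = ∑ a : ZMod p, (v a χ : ℂ) * ζ ^ (a * t).val) ∧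
        (∀ χ ∈ B, ∀ t : ZMod p, t ≠ 0 →
          ∀ s : Subgroup.centralizer ((P : Subgroup G) : Set G), ¬ p ∣ orderOf s →
            (Nat.card T : ℂ) * χ.1 (z ^ t.val * (s : G)) =
              ∑ n : G, if n ∈ Subgroup.normalizer ((P : Subgroup G) : Set G) then
                D (κ n * t) χ * extendByZero (Subgroup.centralizer ((P : Subgroup G) : Set G))
                  θ.1 (n⁻¹ * (s : G) * n) else 0) ∧
        (∀ ψ ∈ Y, ∀ ψ' ∈ Y, ∃ k : (ZMod p)ˣ, ∀ t : ZMod p, t ≠ 0 →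
          D ((k : ZMod p) * t) ψ = D t ψ') := by
  have hp := (Fact.out : p.Prime)
  obtain ⟨m, e', Θ, η, D, κ, v, hm, he', hpem, hsupp, hgram, hne, hreg, hee, hTB, hVAL, hDEG,
    hκ, hD, Hsmt, hη1, hη2, hη3⟩ :=
    pack_gen hTG p M hM P hP B hB hBP b hind θ hθ hθP T hT z hz hz1 ζ hζ
  obtain rfl : e' = e := hee.trans he
  obtain ⟨Δ, a, ε, hε, hΘ, hainj, haB, hnz⟩ := Cfsg.Agent.Lib.BF.lat_structure
    B m (e' : ℤ) hm (by positivity) Θ hsupp hgram
  set rd : ℕ := T.relIndex (Subgroup.normalizer ((P : Subgroup G) : Set G)) *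
    charDegree (θ : Subgroup.centralizer ((P : Subgroup G) : Set G) → ℂ) with hrd
  let i0 : Fin m := ⟨0, hm⟩
  have hεsq : ∀ i, ε i * ε i = 1 := by
    intro i
    rcases hε i with h | h <;> rw [h] <;> norm_num
  -- (F1) Δ vanishes outside the block
  have hΔ0 : ∀ θ, θ ∉ B → Δ θ = 0 := by
    intro θ hθ
    have h1 := hΘ i0 θ
    rw [hsupp i0 θ hθ, if_neg (fun h : θ = a i0 => hθ (by rw [h]; exact haB i0))] at h1
    linarith
  have hp1 : (1 : ℤ) < p := by exact_mod_cast hp.one_lt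
  have hpm : (p : ℤ) - 1 = (e' : ℤ) * m := by
    rw [hpem]; push_cast; ring
  have he0 : (e' : ℤ) ≠ 0 := by
    have : e' ≠ 0 := by omega
    exact_mod_cast this
  have hm0 : (m : ℤ) ≠ 0 := by
    have : m ≠ 0 := by omega
    exact_mod_cast this
  -- (F2) the non-exceptional characters
  have hX : ∀ θ ∈ B, θ ∉ Set.range a → (Δ θ = 1 ∨ Δ θ = -1) ∧ ∀ i, Θ i θ = Δ θ := by
    intro θ hθ hθa
    have hΘθ : ∀ i, Θ i θ = Δ θ := by
      intro i
      rw [hΘ i θ, if_neg (fun h => hθa ⟨i, h.symm⟩), add_zero]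
    have hΔne : Δ θ ≠ 0 := by
      obtain ⟨i, hi⟩ := hne θ hθ
      rwa [hΘθ i] at hi
    refine ⟨?_, hΘθ⟩
    have hsum : ∑ i, Θ i θ = (m : ℤ) * Δ θ := by
      rw [Finset.sum_congr rfl (fun i _ => hΘθ i), Finset.sum_const, Finset.card_univ,
        Fintype.card_fin, nsmul_eq_mul]
    have hdvd := hTB θ hθ (by
      rw [hsum]
      exact mul_ne_zero he0 (mul_ne_zero hm0 hΔne))
    rw [hsum, hpm] at hdvd
    obtain ⟨q, hq⟩ := hdvd
    have h2 : Δ θ * q = 1 := by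
      have : (e' : ℤ) * (m : ℤ) * (Δ θ * q) = (e' : ℤ) * (m : ℤ) * 1 := by linarith
      exact mul_left_cancel₀ (mul_ne_zero he0 hm0) this
    have h3 : IsUnit (Δ θ) := IsUnit.of_mul_eq_one q h2
    exact Int.isUnit_iff.1 h3
  -- (F3) the exceptional characters
  have hsumΘ : ∀ i, ∑ j, Θ j (a i) = ε i * ((m : ℤ) * (ε i * Δ (a i)) + 1) := by
    intro i
    have h1 : ∀ j, Θ j (a i) = Δ (a i) + if j = i then ε j else 0 := by
      intro j
      rw [hΘ j (a i)]
      congr 1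
      by_cases hji : j = i
      · rw [if_pos hji, if_pos (by rw [hji])]
      · rw [if_neg hji, if_neg (fun h => hji (hainj h).symm)]
    rw [Finset.sum_congr rfl (fun j _ => h1 j), Finset.sum_add_distrib, Finset.sum_const,
      Finset.card_univ, Fintype.card_fin, Finset.sum_ite_eq' Finset.univ i ε, if_pos (Finset.mem_univ _),
      nsmul_eq_mul]
    have := hεsq i
    linear_combination (-(m : ℤ) * Δ (a i)) * this
  have hY : ∀ i, (m : ℤ) * (ε i * Δ (a i)) + 1 = 1 ∨ (m : ℤ) * (ε i * Δ (a i)) + 1 = -1 := by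
    intro i
    set n := (m : ℤ) * (ε i * Δ (a i)) + 1 with hn
    have hεne : ε i ≠ 0 := by
      rcases hε i with h | h <;> rw [h] <;> norm_num
    have hdvd := hTB (a i) (haB i) (by
      rw [hsumΘ i]
      exact mul_ne_zero he0 (mul_ne_zero hεne (hnz i)))
    rw [hsumΘ i, hpm] at hdvd
    obtain ⟨q, hq⟩ := hdvd
    have h2 : (m : ℤ) = n * (ε i * q) := by
      have : (e' : ℤ) * (m : ℤ) = (e' : ℤ) * (n * (ε i * q)) := by
        linear_combination hq
      exact mul_left_cancel₀ he0 this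
    have h3 : IsUnit n := by
      apply IsUnit.of_mul_eq_one (1 - (ε i * q) * (ε i * Δ (a i)))
      have : n = (m : ℤ) * (ε i * Δ (a i)) + 1 := hn
      linear_combination (ε i * Δ (a i)) * h2 + this
    exact Int.isUnit_iff.1 h3
  -- (F4) the diagonal Gram relations
  set Q : ℤ := ∑ θ, Δ θ ^ 2 with hQ
  have hdiag : ∀ i, Q + 2 * (ε i * Δ (a i)) = e' := by
    intro i
    have h1 := hgram i i
    rw [if_pos rfl] at h1
    have h2 : ∀ θ, Θ i θ * Θ i θ =
        Δ θ ^ 2 + (if θ = a i then 2 * ε i * Δ θ + ε i * ε i else 0) := by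
      intro θ
      rw [hΘ i θ]
      split_ifs <;> ring
    rw [Finset.sum_congr rfl (fun θ _ => h2 θ), Finset.sum_add_distrib,
      Finset.sum_ite_eq' Finset.univ (a i) (fun θ => 2 * ε i * Δ θ + ε i * ε i),
      if_pos (Finset.mem_univ _), hεsq i] at h1
    linarith
  set x : ℤ := ε i0 * Δ (a i0) with hx
  have hxi : ∀ i, ε i * Δ (a i) = x := by
    intro i
    have h1 := hdiag i
    have h2 := hdiag i0
    linarith
  have hn : (m : ℤ) * x + 1 = 1 ∨ (m : ℤ) * x + 1 = -1 := hY i0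
  have hnsq : ((m : ℤ) * x + 1) * ((m : ℤ) * x + 1) = 1 := by
    rcases hn with h | h <;> rw [h] <;> norm_num
  -- the two sets
  set X : Set (IrrCharacter G) := {θ | θ ∈ B ∧ θ ∉ Set.range a} with hXdef
  set Xf : Finset (IrrCharacter G) :=
    Finset.univ.filter (fun θ => θ ∈ B ∧ θ ∉ Set.range a) with hXf
  have hXfmem : ∀ θ, θ ∈ Xf ↔ θ ∈ B ∧ θ ∉ Set.range a := by
    intro θ
    rw [hXf, Finset.mem_filter]
    exact ⟨fun h => h.2, fun h => ⟨Finset.mem_univ _, h⟩⟩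
  -- (F5), (F6) the number of non-exceptional characters
  have hQsplit : Q = (m : ℤ) * x ^ 2 + (Xf.card : ℤ) := by
    rw [hQ, sum_split a hainj B (fun θ => Δ θ ^ 2) (fun θ hθ => by rw [hΔ0 θ hθ]; ring)]
    congr 1
    · have h1 : ∀ i ∈ (Finset.univ : Finset (Fin m)), Δ (a i) ^ 2 = x ^ 2 := by
        intro i _
        rw [← hxi i]
        have := hεsq i
        linear_combination (-(Δ (a i)) ^ 2) * this
      rw [Finset.sum_congr rfl h1, Finset.sum_const, Finset.card_univ, Fintype.card_fin,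
        nsmul_eq_mul]
    · have h1 : ∀ θ ∈ Xf, Δ θ ^ 2 = 1 := by
        intro θ hθ
        rw [hXfmem] at hθ
        rcases (hX θ hθ.1 hθ.2).1 with h | h <;> rw [h] <;> norm_num
      rw [Finset.sum_congr rfl h1, Finset.sum_const, nsmul_eq_mul, mul_one]
  have hcardX : Xf.card = e' := by
    have h1 := hdiag i0
    rw [← hx] at h1
    have h2 : (m : ℤ) * (Xf.card : ℤ) = (m : ℤ) * (e' : ℤ) := by
      linear_combination (m : ℤ) * h1 - (m : ℤ) * hQsplit - hnsq
    exact_mod_cast mul_left_cancel₀ hm0 h2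
  -- (F7) the relations on p-regular elements
  have hR : ∀ g : G, ¬ p ∣ orderOf g → ∀ i,
      (∑ θ, (Δ θ : ℂ) * (θ : G → ℂ) g) + (ε i : ℂ) * ((a i : IrrCharacter G) : G → ℂ) g = 0 := by
    intro g hg i
    have h1 := hreg g hg i
    have h2 : ∀ θ : IrrCharacter G, (Θ i θ : ℂ) * (θ : G → ℂ) g = (Δ θ : ℂ) * (θ : G → ℂ) g +
        (if θ = a i then (ε i : ℂ) * (θ : G → ℂ) g else 0) := by
      intro θ
      rw [hΘ i θ]
      split_ifs <;> push_cast <;> ring
    rw [Finset.sum_congr rfl (fun θ _ => h2 θ), Finset.sum_add_distrib,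
      Finset.sum_ite_eq' Finset.univ (a i) (fun θ => (ε i : ℂ) * (θ : G → ℂ) g),
      if_pos (Finset.mem_univ _)] at h1
    exact h1
  have hreg1 : ¬ p ∣ orderOf (1 : G) := by
    rw [orderOf_one]
    intro h
    exact hp.one_lt.ne' (Nat.dvd_one.1 h)
  have hdeg : ∀ θ : IrrCharacter G, (θ : G → ℂ) 1 = ((charDegree (θ : G → ℂ) : ℤ) : ℂ) ∧
      (0 : ℤ) < (charDegree (θ : G → ℂ) : ℤ) := by
    intro θ
    obtain ⟨h1, h2⟩ := Cfsg.Agent.Lib.Helper82.irr_charDegree θ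
    refine ⟨by rw [← h1]; push_cast; rfl, ?_⟩
    exact_mod_cast Nat.pos_of_ne_zero h2
  have hεeq : ∀ i, ε i = ε i0 := by
    intro i
    have h1 := hR 1 hreg1 i
    have h2 := hR 1 hreg1 i0
    rw [(hdeg (a i)).1] at h1
    rw [(hdeg (a i0)).1] at h2
    have h3 : ((ε i * (charDegree ((a i : IrrCharacter G) : G → ℂ) : ℤ) : ℤ) : ℂ) =
        ((ε i0 * (charDegree ((a i0 : IrrCharacter G) : G → ℂ) : ℤ) : ℤ) : ℂ) := by
      push_cast
      linear_combination h1 - h2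
    have h4 := Int.cast_injective h3
    have h5 := (hdeg (a i)).2
    have h6 := (hdeg (a i0)).2
    rcases hε i with hi | hi <;> rcases hε i0 with hj | hj <;> rw [hi, hj] at h4 ⊢ <;>
      first | rfl | (exfalso; linarith)
  have hε0ne : (ε i0 : ℂ) ≠ 0 := by
    rcases hε i0 with h | h <;> rw [h] <;> norm_num
  have hagree : ∀ i j, ∀ g : G, ¬ p ∣ orderOf g →
      ((a i : IrrCharacter G) : G → ℂ) g = ((a j : IrrCharacter G) : G → ℂ) g := by
    intro i j g hg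
    have h1 := hR g hg i
    have h2 := hR g hg j
    rw [hεeq i] at h1
    rw [hεeq j] at h2
    apply mul_left_cancel₀ hε0ne
    linear_combination h1 - h2
  have hΔa : ∀ i, Δ (a i) = ε i0 * x := by
    intro i
    rw [← hxi i, hεeq i, ← mul_assoc, ← hεeq i, hεsq i, one_mul]
  have hformula : ∀ k, ∀ g : G, ¬ p ∣ orderOf g →
      ((ε i0 * ((m : ℤ) * x + 1) : ℤ) : ℂ) * ((a k : IrrCharacter G) : G → ℂ) g =
        ∑ χ ∈ Xf, ((-Δ χ : ℤ) : ℂ) * (χ : G → ℂ) g := by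
    intro k g hg
    have h1 := hR g hg k
    rw [sum_split a hainj B (fun θ => (Δ θ : ℂ) * (θ : G → ℂ) g)
      (fun θ hθ => by rw [hΔ0 θ hθ]; push_cast; ring), hεeq k] at h1
    have h2 : ∀ i ∈ (Finset.univ : Finset (Fin m)),
        (Δ (a i) : ℂ) * ((a i : IrrCharacter G) : G → ℂ) g =
          ((ε i0 * x : ℤ) : ℂ) * ((a k : IrrCharacter G) : G → ℂ) g := by
      intro i _
      rw [hΔa i, hagree i k g hg]
    rw [Finset.sum_congr rfl h2, Finset.sum_const, Finset.card_univ, Fintype.card_fin,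
      nsmul_eq_mul] at h1
    have h3 : ∑ χ ∈ Xf, ((-Δ χ : ℤ) : ℂ) * (χ : G → ℂ) g =
        -∑ χ ∈ Xf, (Δ χ : ℂ) * (χ : G → ℂ) g := by
      rw [← Finset.sum_neg_distrib]
      apply Finset.sum_congr rfl
      intro χ _
      push_cast
      ring
    rw [h3]
    push_cast at h1 ⊢
    linear_combination h1
  -- (F8) degrees
  have hdegX : ∀ χ ∈ B, χ ∉ Set.range a →
      (charDegree (χ : G → ℂ) : ℤ) ≡ -Δ χ * (rd : ℤ) [ZMOD p] := by
    intro χ hχ hχa
    have h1 := hDEG χ hχ (fun i j => by rw [(hX χ hχ hχa).2 i, (hX χ hχ hχa).2 j]) i0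
    rw [(hX χ hχ hχa).2 i0] at h1
    exact h1
  have hεn : (ε i0 * ((m : ℤ) * x + 1)) * (ε i0 * ((m : ℤ) * x + 1)) = 1 := by
    have := hεsq i0
    linear_combination (((m : ℤ) * x + 1) * ((m : ℤ) * x + 1)) * this + hnsq
  have hdegY : ∀ k, (charDegree ((a k : IrrCharacter G) : G → ℂ) : ℤ) ≡
      (ε i0 * ((m : ℤ) * x + 1)) * (((e' * rd : ℕ) : ℤ)) [ZMOD p] := by
    intro k
    have h1 := hformula k 1 hreg1
    rw [(hdeg (a k)).1] at h1
    have h2 : (ε i0 * ((m : ℤ) * x + 1)) * (charDegree ((a k : IrrCharacter G) : G → ℂ) : ℤ) =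
        ∑ χ ∈ Xf, (-Δ χ) * (charDegree (χ : G → ℂ) : ℤ) := by
      apply Int.cast_injective (α := ℂ)
      rw [Int.cast_mul, h1, Int.cast_sum]
      apply Finset.sum_congr rfl
      intro χ _
      rw [(hdeg χ).1, Int.cast_mul]
    have h3 : (p : ℤ) ∣ (∑ χ ∈ Xf, (-Δ χ) * (charDegree (χ : G → ℂ) : ℤ)) -
        (Xf.card : ℤ) * (rd : ℤ) := by
      have h4 : (Xf.card : ℤ) * (rd : ℤ) = ∑ χ ∈ Xf, (-Δ χ) * (-Δ χ * (rd : ℤ)) := by
        have h5 : ∀ χ ∈ Xf, (-Δ χ) * (-Δ χ * (rd : ℤ)) = (rd : ℤ) := by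
          intro χ hχ
          rw [hXfmem] at hχ
          rcases (hX χ hχ.1 hχ.2).1 with h | h <;> rw [h] <;> norm_num
        rw [Finset.sum_congr rfl h5, Finset.sum_const, nsmul_eq_mul]
      rw [h4, ← Finset.sum_sub_distrib]
      apply Finset.dvd_sum
      intro χ hχ
      rw [hXfmem] at hχ
      rw [← mul_sub]
      apply Dvd.dvd.mul_left
      exact (Int.modEq_iff_dvd.1 (hdegX χ hχ.1 hχ.2).symm)
    rw [Int.modEq_iff_dvd]
    have h4 : (ε i0 * ((m : ℤ) * x + 1)) * (((e' * rd : ℕ) : ℤ)) -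
        (charDegree ((a k : IrrCharacter G) : G → ℂ) : ℤ) =
        -(ε i0 * ((m : ℤ) * x + 1)) *
          ((∑ χ ∈ Xf, (-Δ χ) * (charDegree (χ : G → ℂ) : ℤ)) - (Xf.card : ℤ) * (rd : ℤ)) := by
      rw [← h2, hcardX]
      push_cast
      linear_combination (charDegree ((a k : IrrCharacter G) : G → ℂ) : ℤ) * hεn
    rw [h4]
    exact Dvd.dvd.mul_left h3 _
  -- packaging
  have hcardX' : Nat.card X = e' := by
    rw [← hcardX, Nat.card_eq_fintype_card, Fintype.card_subtype]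
    apply congrArg
    ext θ
    rw [Finset.mem_filter, hXfmem]
    simp only [hXdef, Set.mem_setOf_eq, Finset.mem_univ, true_and]
  have hDX : ∀ χ ∈ B, χ ∉ Set.range a → ∀ t : ZMod p, t ≠ 0 → D t χ = ((-Δ χ : ℤ) : ℂ) := by
    intro χ hχ hχa t ht
    rw [hη1 χ t ht, Finset.sum_congr rfl (fun i _ => by rw [(hX χ hχ hχa).2 i]),
      ← Finset.mul_sum, hη2 t ht]
    push_cast
    ring
  have hDY : ∀ i, ∀ t : ZMod p, t ≠ 0 →
      D t (a i) = -((ε i0 * x : ℤ) : ℂ) + (ε i0 : ℂ) * η i t := by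
    intro i t ht
    have h1 : ∀ l ∈ (Finset.univ : Finset (Fin m)), (Θ l (a i) : ℂ) * η l t =
        ((ε i0 * x : ℤ) : ℂ) * η l t + (if l = i then (ε i0 : ℂ) * η l t else 0) := by
      intro l _
      rw [hΘ l (a i), hΔa i]
      by_cases hli : l = i
      · rw [if_pos (by rw [hli]), if_pos hli, hεeq l]
        push_cast
        ring
      · rw [if_neg (fun h => hli (hainj h).symm), if_neg hli]
        push_cast
        ring
    rw [hη1 (a i) t ht, Finset.sum_congr rfl h1, Finset.sum_add_distrib, ← Finset.mul_sum,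
      hη2 t ht, Finset.sum_ite_eq' Finset.univ i (fun l => (ε i0 : ℂ) * η l t),
      if_pos (Finset.mem_univ _)]
    ring
  refine ⟨X, Set.range a, ?_, ?_, hcardX', ?_, ?_, he', fun χ => -Δ χ,
    ε i0 * ((m : ℤ) * x + 1), D, κ, v, ?_, ?_, ?_, ?_, ?_, hκ, hD, Hsmt, ?_⟩
  · ext θ
    simp only [hXdef, Set.mem_union, Set.mem_setOf_eq]
    constructor
    · intro h
      by_cases hθ : θ ∈ Set.range a
      · exact Or.inr hθ
      · exact Or.inl ⟨h, hθ⟩
    · rintro (h | ⟨i, rfl⟩)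
      · exact h.1
      · exact haB i
  · rw [Set.disjoint_left]
    intro θ h1 h2
    exact h1.2 h2
  · rw [Nat.card_congr (Equiv.ofInjective a hainj).symm, Nat.card_fin, hpem,
      Nat.add_sub_cancel_left, Nat.mul_div_cancel_left m (by omega : 0 < e')]
  · rw [hpem, Nat.add_sub_cancel_left]
    exact Dvd.intro m rfl
  · intro χ hχ
    obtain ⟨hχB, hχa⟩ := hχ
    refine ⟨?_, hdegX χ hχB hχa, hDX χ hχB hχa⟩
    rcases (hX χ hχB hχa).1 with h | h
    · right; show -Δ χ = -1; rw [h]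
    · left; show -Δ χ = 1; rw [h]; norm_num
  · rcases hε i0 with h | h <;> rcases hn with h' | h' <;> rw [h, h'] <;> norm_num
  · rintro θ ⟨k, rfl⟩
    exact hdegY k
  · rintro θ ⟨i, rfl⟩ θ' ⟨j, rfl⟩ g hg
    exact hagree i j g hg
  · rintro θ ⟨k, rfl⟩ g hg
    rw [hformula k g hg, finsum_mem_eq_sum_ite X, hXf, Finset.sum_filter]
    apply Finset.sum_congr rfl
    intro χ _
    simp only [hXdef, Set.mem_setOf_eq]
  · rintro ψ ⟨i, rfl⟩ ψ' ⟨j, rfl⟩
    obtain ⟨k, hk⟩ := hη3 i j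
    refine ⟨k, fun t ht => ?_⟩
    rw [hDY i _ (mul_ne_zero (Units.ne_zero k) ht), hDY j t ht, hk t]

end

end Cfsg.Agent.Lib.Helper79.DG
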