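import Mathlib
import Cfsg.Agent.Lib.Helper79.Klein6
import Cfsg.Agent.Lib.Helper79.Kuls

/-!
# Principal 2-block with Klein four Sylow subgroup: Frobenius–Schur argument (helper79)
-/

set_option autoImplicit false

namespace Cfsg.Agent.Lib.Helper79

open Cfsg Cfsg.Agent.Lib.Helper4 Cfsg.Agent.Lib.Helper21 Cfsg.Agent.Lib.Helper22
open Subgroup
open scoped ComplexConjugate Pointwise

section FSodd

variable {G : Type*} [Group G] [Fintype G]

/-- A real irreducible character of odd degree has Frobenius–Schur indicator `1`. -/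
theorem fsInd_ne_neg_one_of_odd (χ : IrrCharacter G) (hodd : Odd (charDegree (χ : G → ℂ))) :
    fsInd (χ : G → ℂ) ≠ -1 := by
  intro hneg
  obtain ⟨n, ρ, hρ, hχ⟩ := χ.2
  haveI := hρ
  have hreal : ∀ g : G, (ρ.character g).im = 0 := by
    by_contra hnr
    have h0 := (fsInd_trichotomy ρ).2 hnr
    rw [hχ, hneg] at h0
    norm_num at h0
  obtain ⟨M₀, hM₀, hinv₀⟩ := exists_invariant_of_real ρ hreal
  have hT := (transpose_eq_fsInd_smul ρ hreal).2 M₀ hinv₀
  rw [hχ, hneg] at hT
  have hu := isUnit_det_of_invariant ρ M₀ hinv₀ hM₀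
  have hdeg : charDegree (χ : G → ℂ) = n := by
    have h1 : (χ : G → ℂ) 1 = (n : ℂ) := by
      rw [← hχ, Representation.char_one]
      simp
    rw [charDegree, h1]
    simp
  rw [hdeg] at hodd
  have hdet : M₀.det = - M₀.det := by
    have h2 : M₀.transpose = -M₀ := by rw [hT]; simp
    have h3 := congrArg Matrix.det h2
    rw [Matrix.det_transpose, Matrix.det_neg, Fintype.card_fin, Odd.neg_one_pow hodd] at h3
    linear_combination h3
  have hzero : M₀.det = 0 := by
    have : 2 * M₀.det = 0 := by linear_combination hdet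
    rcases mul_eq_zero.mp this with h | h
    · norm_num at h
    · exact h
  rw [hzero] at hu
  exact not_isUnit_zero hu

end FSodd

section

variable {G : Type*} [Group G] [Finite G] {M : Ideal AlgInt}

/-- In a group of order `4 g₀` without normal 2-complement, no element squares into
`J O(C(J))`. -/
theorem no_sqrt_in_coset (g₀ : ℕ) (hg₀ : Odd g₀) (hG : Nat.card G = 4 * g₀)
    (hnc : ¬ ∃ N : Subgroup G, N.Normal ∧ Nat.card N = g₀) (P : Sylow 2 G) {J : G}
    (hJ : J ∈ (P : Subgroup G)) (hJ2 : orderOf J = 2) (h : G)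
    (c : centralizer ({J} : Set G)) (hc : c ∈ pPrimeCore 2 (centralizer ({J} : Set G))) :
    h * h ≠ J * (c : G) := by
  haveI : Fact (Nat.Prime 2) := ⟨Nat.prime_two⟩
  intro hh
  have hP := card_sylow_two_of_card g₀ hg₀ hG P
  obtain ⟨J₂, hJ₂P, hJ₂2, hJ₂ne, -, -⟩ := exists_fusion g₀ hg₀ hG hnc P hJ hJ2
  have hK : Odd (Nat.card (pPrimeCore 2 (centralizer ({J} : Set G)))) :=
    Nat.coprime_two_right.mp
      (Cfsg.Agent.Lib.Helper81.pPrimeCore_coprime (G := centralizer ({J} : Set G)) 2)
  have hcodd : Odd (orderOf (c : G)) := by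
    rw [Subgroup.orderOf_coe]
    exact Odd.of_dvd_nat hK (Subgroup.orderOf_dvd_natCard _ hc)
  have hcJ : Commute J (c : G) := commute_of_mem_centralizer_singleton c.2
  obtain ⟨r, hr⟩ := hcodd
  have hJm : J ^ orderOf (c : G) = J := by
    rw [hr, pow_succ, pow_mul, pow_two, sq_eq_one_of_orderOf_two hJ2, one_pow, one_mul]
  -- s = h ^ m squares to J
  have hs : h ^ orderOf (c : G) * h ^ orderOf (c : G) = J := by
    rw [← (Commute.refl h).mul_pow, hh, hcJ.mul_pow, pow_orderOf_eq_one, mul_one, hJm]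
  set s := h ^ orderOf (c : G) with hsdef
  have hs4 : s ^ 4 = 1 := by
    have : s ^ 4 = (s * s) * (s * s) := by
      simp only [pow_succ, pow_zero, one_mul, mul_assoc]
    rw [this, hs, sq_eq_one_of_orderOf_two hJ2]
  have hpg : IsPGroup 2 (zpowers s) := by
    have hdvd : orderOf s ∣ 2 ^ 2 := by
      apply orderOf_dvd_of_pow_eq_one
      norm_num
      exact hs4
    obtain ⟨k, -, hk⟩ := (Nat.dvd_prime_pow Nat.prime_two).mp hdvd
    exact IsPGroup.of_card (n := k) (by rw [Nat.card_zpowers, hk])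
  obtain ⟨Q, hQ⟩ := hpg.exists_le_sylow
  obtain ⟨g, hg⟩ := MulAction.exists_smul_eq G P Q
  have hsQ : s ∈ (Q : Subgroup G) := hQ (mem_zpowers s)
  rw [← hg, Sylow.smul_def, Sylow.pointwise_smul_def,
    Subgroup.mem_pointwise_smul_iff_inv_smul_mem] at hsQ
  have hsq : ∀ x ∈ (P : Subgroup G), x * x = 1 := by
    intro x hx
    rcases enum_four (X := G) J hJ2 (P : Subgroup G) hP hJ J₂ hJ₂P hJ₂2 hJ₂ne hx with
      h | h | h | h <;> rw [h]
    · simp
    · exact sq_eq_one_of_orderOf_two hJ2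
    · exact sq_eq_one_of_orderOf_two hJ₂2
    · have hcomm : J * J₂ = J₂ * J := sylow_four_comm P hP hJ hJ₂P
      calc (J * J₂) * (J * J₂) = J * (J₂ * J) * J₂ := by group
        _ = J * (J * J₂) * J₂ := by rw [hcomm]
        _ = (J * J) * (J₂ * J₂) := by group
        _ = 1 := by rw [sq_eq_one_of_orderOf_two hJ2, sq_eq_one_of_orderOf_two hJ₂2, one_mul]
  have h1 := hsq _ hsQ
  rw [MulAut.smul_def, ← map_mul, hs] at h1
  have h2 : J = 1 := by
    have := (MulEquiv.map_eq_one_iff (MulAut.conj g)⁻¹).mp h1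
    exact this
  exact ne_one_of_orderOf_two hJ2 h2

end

section FSsum

variable {G : Type*} [Group G] [Fintype G] {M : Ideal AlgInt}

/-- The Frobenius–Schur indicators of the principal 2-block, weighted by the values at `J`,
sum to zero. -/
theorem fs_principal_sum (hM : IsPModular 2 M) (g₀ : ℕ) (hg₀ : Odd g₀)
    (hG : Nat.card G = 4 * g₀)
    (hnc : ¬ ∃ N : Subgroup G, N.Normal ∧ Nat.card N = g₀) (P : Sylow 2 G) {J : G}
    (hJ : J ∈ (P : Subgroup G)) (hJ2 : orderOf J = 2) :
    ∑ᶠ χ ∈ principalBlock M G, (χ : G → ℂ) J * fsInd (χ : G → ℂ) = 0 := by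
  classical
  haveI : Fact (Nat.Prime 2) := ⟨Nat.prime_two⟩
  haveI := irr_finite (G := G)
  letI := Fintype.ofFinite (IrrCharacter G)
  letI : Fintype (centralizer ({J} : Set G)) := Fintype.ofFinite _
  have hP := card_sylow_two_of_card g₀ hg₀ hG P
  have hKi := index_pPrimeCore_centralizer P hP hJ hJ2
  have hKi' : (pPrimeCore 2 (centralizer ({J} : Set G))).index = 2 ^ 2 := by rw [hKi]; norm_num
  set θ : centralizer ({J} : Set G) → ℂ := fun c => ∑ χ : IrrCharacter G,
    (χ : G → ℂ) (J * (c : G)) * fsInd (χ : G → ℂ) with hθ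
  have hθ0 : ∀ x : centralizer ({J} : Set G),
      x ∈ pPrimeCore 2 (centralizer ({J} : Set G)) → θ x = 0 := by
    intro x hx
    have h0 := card_sqrt_eq (G := G) (J * (x : G))
    have h1 : θ x = ∑ χ : IrrCharacter G, fsInd (χ : G → ℂ) * (χ : G → ℂ) (J * (x : G)) := by
      simp only [hθ]
      refine Finset.sum_congr rfl fun χ _ => ?_
      ring
    rw [h1, ← h0]
    have h2 : Finset.univ.filter (fun h : G => h * h = J * (x : G)) = ∅ := by
      rw [Finset.filter_eq_empty_iff]
      intro h _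
      exact no_sqrt_in_coset g₀ hg₀ hG hnc P hJ hJ2 h x hx
    rw [h2, Finset.card_empty, Nat.cast_zero]
  have h1reg : ¬ 2 ∣ orderOf (1 : centralizer ({J} : Set G)) := by
    rw [orderOf_one]; norm_num
  have hJp : ∃ k : ℕ, orderOf J = 2 ^ k := ⟨1, by rw [hJ2, pow_one]⟩
  have h1 : blockPart (principalBlock M (centralizer ({J} : Set G))) θ 1 =
      ∑ χ : IrrCharacter G, blockPart (principalBlock M (centralizer ({J} : Set G)))
        (fun c : centralizer ({J} : Set G) => (χ : G → ℂ) (J * (c : G))) 1 *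
          fsInd (χ : G → ℂ) :=
    blockPart_sum Finset.univ (principalBlock M (centralizer ({J} : Set G)))
      (fun χ : IrrCharacter G => fsInd (χ : G → ℂ))
      (fun χ c => (χ : G → ℂ) (J * (c : G))) 1
  have h2 : ∑ χ : IrrCharacter G, blockPart (principalBlock M (centralizer ({J} : Set G)))
        (fun c : centralizer ({J} : Set G) => (χ : G → ℂ) (J * (c : G))) 1 *
          fsInd (χ : G → ℂ) =
      ∑ χ : IrrCharacter G, (if χ ∈ principalBlock M G then
        (χ : G → ℂ) J * fsInd (χ : G → ℂ) else 0) := by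
    refine Finset.sum_congr rfl fun χ _ => ?_
    by_cases hχ : χ ∈ principalBlock M G
    · rw [if_pos hχ, ← twist_eq_blockPart_principal hM J hJp χ hχ 1 h1reg]
      have : ((1 : centralizer ({J} : Set G)) : G) = 1 := rfl
      rw [this, mul_one]
    · rw [if_neg hχ, blockPart_principal_eq_zero hM J hJp χ hχ 1 h1reg, zero_mul]
  have h3 := blockPart_principal_one_of_index hM 2 hKi' θ
  have h4 : ∑ᶠ x ∈ ((pPrimeCore 2 (centralizer ({J} : Set G)) :
      Subgroup (centralizer ({J} : Set G))) : Set (centralizer ({J} : Set G))), θ x = 0 := by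
    have h5 : ∑ᶠ x ∈ ((pPrimeCore 2 (centralizer ({J} : Set G)) :
        Subgroup (centralizer ({J} : Set G))) : Set (centralizer ({J} : Set G))), θ x =
        ∑ᶠ x ∈ ((pPrimeCore 2 (centralizer ({J} : Set G)) :
        Subgroup (centralizer ({J} : Set G))) : Set (centralizer ({J} : Set G))), (0 : ℂ) :=
      finsum_mem_congr rfl (fun x hx => hθ0 x hx)
    rw [h5]
    simp
  rw [h1, h2, h4, mul_zero, mul_zero] at h3
  rw [finsum_mem_eq_sum_filter_univ, Finset.sum_filter]
  exact h3

/-- A character of the principal 2-block with value `1` at the involution `J` has odd degree. -/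
theorem odd_degree_of_principal (hM : IsPModular 2 M) (g₀ : ℕ) (hg₀ : Odd g₀)
    (hG : Nat.card G = 4 * g₀) (P : Sylow 2 G) {J : G}
    (hJ : J ∈ (P : Subgroup G)) (χ : IrrCharacter G) (hχ : χ ∈ principalBlock M G)
    (hval : (χ : G → ℂ) J = 1) : Odd (charDegree (χ : G → ℂ)) := by
  have hP := card_sylow_two_of_card g₀ hg₀ hG P
  have hPC := sylow_le_centralizer P hP hJ
  have hx := irr_one_eq_charDegree χ
  have hxpos := charDegree_pos χ
  have hs := hχ J
  unfold centralChar at hs
  rw [hval, hx] at hs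
  have h1 := locIdeal_mul_left hM (locRing_natCast hM (charDegree (χ : G → ℂ))) hs
  have hxne : (charDegree (χ : G → ℂ) : ℂ) ≠ 0 := by exact_mod_cast hxpos.ne'
  have h2 : (charDegree (χ : G → ℂ) : ℂ) *
      (((centralizer ({J} : Set G)).index : ℂ) * 1 / 1 -
        ((centralizer ({J} : Set G)).index : ℂ) * 1 / (charDegree (χ : G → ℂ) : ℂ)) =
      (((centralizer ({J} : Set G)).index * (charDegree (χ : G → ℂ) - 1) : ℕ) : ℂ) := by
    rw [Nat.cast_mul, Nat.cast_sub hxpos]
    field_simp
    push_cast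
    ring
  rw [h2, locIdeal_natCast_iff hM] at h1
  have hidx : Odd (centralizer ({J} : Set G)).index := by
    have h3 := Subgroup.card_mul_index (centralizer ({J} : Set G))
    have h4 : 4 ∣ Nat.card (centralizer ({J} : Set G)) := by
      rw [← hP]; exact Subgroup.card_dvd_of_le hPC
    obtain ⟨k, hk⟩ := h4
    rw [hk, hG] at h3
    have h5 : (centralizer ({J} : Set G)).index ∣ g₀ := ⟨k, by nlinarith⟩
    exact Odd.of_dvd_nat hg₀ h5
  have h6 : 2 ∣ charDegree (χ : G → ℂ) - 1 := by
    rcases (Nat.Prime.dvd_mul Nat.prime_two).mp h1 with h | h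
    · exact absurd (even_iff_two_dvd.mpr h) (Nat.not_even_iff_odd.mpr hidx)
    · exact h
  obtain ⟨k, hk⟩ := h6
  exact ⟨k, by omega⟩

end FSsum

end Cfsg.Agent.Lib.Helper79
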