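import Mathlib
import Cfsg.Agent.Lib.Helper79.Klein7

/-!
# Principal 2-block `{1, χ₁, χ₂, χ₃}` with values `1, 1, -1` at the involution: `χ₁(1) = χ₂(1)`
(helper79)
-/

set_option autoImplicit false

namespace Cfsg.Agent.Lib.Helper79

open Cfsg Cfsg.Agent.Lib.Helper4 Cfsg.Agent.Lib.Helper21 Cfsg.Agent.Lib.Helper22
open Subgroup
open scoped ComplexConjugate

section

variable {G : Type*} [Group G] [Fintype G] {M : Ideal AlgInt}

theorem charDegree_irrConj (χ : IrrCharacter G) :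
    charDegree (irrConj χ : G → ℂ) = charDegree (χ : G → ℂ) := by
  unfold charDegree
  rw [irrConj_apply, Complex.conj_re]

/-- If the principal 2-block is `{1, χ₁, χ₂, χ₃}` with `χ₁(J) = χ₂(J) = 1` and `χ₃(J) = -1`, then
`χ₁` and `χ₂` have the same degree (they are complex conjugate). -/
theorem klein_degrees_eq (hM : IsPModular 2 M) (g₀ : ℕ) (hg₀ : Odd g₀)
    (hG : Nat.card G = 4 * g₀) (hnc : ¬ ∃ N : Subgroup G, N.Normal ∧ Nat.card N = g₀)
    (P : Sylow 2 G) (J : G) (hJ : J ∈ (P : Subgroup G)) (hJ2 : orderOf J = 2)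
    (χ₁ χ₂ χ₃ : IrrCharacter G)
    (hB : principalBlock M G = {χ : IrrCharacter G | (χ : G → ℂ) = (fun _ => 1) ∨ χ = χ₁ ∨
      χ = χ₂ ∨ χ = χ₃})
    (hdist : (χ₁ : G → ℂ) ≠ (fun _ => 1) ∧ (χ₂ : G → ℂ) ≠ (fun _ => 1) ∧
      (χ₃ : G → ℂ) ≠ (fun _ => 1) ∧ χ₁ ≠ χ₂ ∧ χ₁ ≠ χ₃ ∧ χ₂ ≠ χ₃)
    (hv₁ : (χ₁ : G → ℂ) J = 1) (hv₂ : (χ₂ : G → ℂ) J = 1) (hv₃ : (χ₃ : G → ℂ) J = -1) :
    charDegree (χ₁ : G → ℂ) = charDegree (χ₂ : G → ℂ) := by
  classical
  haveI : Fact (Nat.Prime 2) := ⟨Nat.prime_two⟩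
  have hmem : ∀ χ : IrrCharacter G, χ ∈ principalBlock M G ↔
      ((χ : G → ℂ) = (fun _ => 1) ∨ χ = χ₁ ∨ χ = χ₂ ∨ χ = χ₃) := by
    intro χ; rw [hB]; rfl
  have h₁ : χ₁ ∈ principalBlock M G := (hmem χ₁).mpr (Or.inr (Or.inl rfl))
  have h₂ : χ₂ ∈ principalBlock M G := (hmem χ₂).mpr (Or.inr (Or.inr (Or.inl rfl)))
  by_contra hne
  have htriv : ∀ χ : IrrCharacter G, (irrConj χ : G → ℂ) = (fun _ => 1) →
      (χ : G → ℂ) = (fun _ => 1) := by
    intro χ h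
    funext g
    have h1 := congrFun h g
    rw [irrConj_apply] at h1
    have h2 := congrArg conj h1
    rw [Complex.conj_conj, map_one] at h2
    exact h2
  have hc₁ : irrConj χ₁ = χ₁ := by
    rcases (hmem _).mp ((principal_real hM χ₁).mpr h₁) with h | h | h | h
    · exact absurd (htriv χ₁ h) hdist.1
    · exact h
    · exfalso
      apply hne
      rw [← charDegree_irrConj χ₁, h]
    · exfalso
      have h1 := congrArg (fun χ : IrrCharacter G => (χ : G → ℂ) J) h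
      simp only [irrConj_apply, hv₁, hv₃, map_one] at h1
      norm_num at h1
  have hc₂ : irrConj χ₂ = χ₂ := by
    rcases (hmem _).mp ((principal_real hM χ₂).mpr h₂) with h | h | h | h
    · exact absurd (htriv χ₂ h) hdist.2.1
    · exfalso
      apply hne
      rw [← charDegree_irrConj χ₂, h]
    · exact h
    · exfalso
      have h1 := congrArg (fun χ : IrrCharacter G => (χ : G → ℂ) J) h
      simp only [irrConj_apply, hv₂, hv₃, map_one] at h1
      norm_num at h1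
  have hf₁ : fsInd (χ₁ : G → ℂ) = 1 := by
    rcases (fsInd_irr χ₁).1 ((irrConj_eq_self_iff χ₁).mp hc₁) with h | h
    · exact h
    · exact absurd h (fsInd_ne_neg_one_of_odd χ₁
        (odd_degree_of_principal hM g₀ hg₀ hG P hJ χ₁ h₁ hv₁))
  have hf₂ : fsInd (χ₂ : G → ℂ) = 1 := by
    rcases (fsInd_irr χ₂).1 ((irrConj_eq_self_iff χ₂).mp hc₂) with h | h
    · exact h
    · exact absurd h (fsInd_ne_neg_one_of_odd χ₂
        (odd_degree_of_principal hM g₀ hg₀ hG P hJ χ₂ h₂ hv₂))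
  have hf₀ : fsInd ((Cfsg.Agent.Lib.Helper83.trivIrr G : IrrCharacter G) : G → ℂ) = 1 := by
    have h1 := fsSign_spec (oneIrr G)
    rw [fsSign_oneIrr] at h1
    have h2 : fsInd ((Cfsg.Agent.Lib.Helper83.trivIrr G : IrrCharacter G) : G → ℂ) =
        fsInd (oneIrr G : G → ℂ) := rfl
    rw [h2, h1]
    norm_num
  have hfs := fs_principal_sum hM g₀ hg₀ hG hnc P hJ hJ2
  rw [four_sum χ₁ χ₂ χ₃ hB hdist] at hfs
  rw [Cfsg.Agent.Lib.Helper83.trivIrr_apply, hf₀, hf₁, hf₂, hv₁, hv₂, hv₃] at hfs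
  have h3 : fsInd (χ₃ : G → ℂ) = 3 := by linear_combination -hfs
  rw [fsSign_spec χ₃] at h3
  rcases fsSign_cases χ₃ with h | h | h <;> rw [h] at h3 <;> norm_num at h3

end

end Cfsg.Agent.Lib.Helper79
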