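import Mathlib
import Cfsg.Prelude.Def_GeometricClasses
import Cfsg.Prelude.Def_LieClassical
import Cfsg.Agent.Lib.Helper52.GeoOmega
import Cfsg.Agent.Lib.Helper52.SiegelTrans

/-! Project OMP (helper71), piece NO1: `Ω` of a non-degenerate quadratic form in dimension at
least 5 stabilises no non-zero proper subspace.  Proof: a stable subspace `W ≠ ⊥` contains a
non-zero singular vector (move a non-singular `x ∈ W` by an Eichler element), `Ω` is transitive
on singular points (`Helper52.exists_mem_commutator_map_singular`), and the singular vectors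
span the whole space. -/

set_option autoImplicit false

namespace Cfsg.Agent.Lib.Helper79.OMPNO1

open Matrix Cfsg.Geo QuadraticMap
open Cfsg.Agent.Lib.Helper52

variable {F : Type*} [Field F] [Fintype F]
variable {κ : Type} [Fintype κ] [DecidableEq κ]

/-- NO1 -/
theorem NO1 (Q : (κ → F) → F) (hQ : IsNondegenerateQuadraticForm Q)
    (hodd : Odd (Fintype.card F)) (hk : 5 ≤ Fintype.card κ) (W : Submodule F (κ → F))
    (h0 : W ≠ ⊥) (h1 : W ≠ ⊤) : ¬ omegaGL Q ≤ subspaceStabilizer W := by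
  classical
  obtain ⟨Q', rfl, hnd⟩ := exists_quadraticForm_of_nondeg Q hQ
  intro hle
  have hstab : ∀ g : ↥(Cfsg.isometryGroup F ⇑Q'), g ∈ commutator ↥(Cfsg.isometryGroup F ⇑Q') →
      ∀ v ∈ W, ((g : Matrix.GeneralLinearGroup κ F) : Matrix κ κ F).mulVec v ∈ W := by
    intro g hg v hv
    have h := hle (coe_mem_omegaGL Q' hg)
    exact ((mem_subspaceStabilizer_iff W _).mp h v).mp hv
  obtain ⟨x, hxW, hx0⟩ := (Submodule.ne_bot_iff W).mp h0
  -- a non-zero singular vector in `W`
  have hsing : ∃ w ∈ W, w ≠ 0 ∧ Q' w = 0 := by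
    by_cases hQx : Q' x = 0
    · exact ⟨x, hxW, hx0, hQx⟩
    · obtain ⟨d₀, hd₀, hQd₀, horth⟩ := exists_singular_orth Q' hnd {x}
        (by rw [Finset.card_singleton]; omega)
      have hx_notin : x ∉ Submodule.span F ({d₀} : Set (κ → F)) := by
        intro hmem
        obtain ⟨c, rfl⟩ := Submodule.mem_span_singleton.mp hmem
        apply hQx
        rw [QuadraticMap.map_smul, hQd₀, smul_zero]
      obtain ⟨u, hQu, hd₀u, hxu⟩ :=
        exists_singular_orth_not_orth Q' hnd hk d₀ x hd₀ hx_notin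
      obtain ⟨w, hw0, hQw, horth2⟩ := exists_singular_orth Q' hnd {x, u}
        (by have := Finset.card_le_two (a := x) (b := u); omega)
      have hxw : polar ⇑Q' x w = 0 := horth2 x (by simp)
      have huw : polar ⇑Q' u w = 0 := horth2 u (by simp)
      have hmem := hstab (eich Q' u w hQu huw) (eich_mem_commutator Q' hnd hk u w hQu huw) x hxW
      rw [coe_eich, eichMat_mulVec, polar_comm ⇑Q' w x, hxw, hQw] at hmem
      have h2 : polar ⇑Q' u x • w ∈ W := by
        have h3 := W.sub_mem hxW hmem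
        have e : x - (x + (0 : F) • u - polar ⇑Q' u x • w - ((0 : F) * polar ⇑Q' u x) • u)
            = polar ⇑Q' u x • w := by
          module
        rw [e] at h3
        exact h3
      have hux : polar ⇑Q' u x ≠ 0 := by rw [polar_comm]; exact hxu
      refine ⟨w, ?_, hw0, hQw⟩
      have h4 := W.smul_mem (polar ⇑Q' u x)⁻¹ h2
      rwa [smul_smul, inv_mul_cancel₀ hux, one_smul] at h4
  obtain ⟨w₁, hw₁W, hw₁0, hQw₁⟩ := hsing
  -- all singular vectors lie in `W`
  have hall : ∀ v, Q' v = 0 → v ∈ W := by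
    intro v hv
    by_cases hv0 : v = 0
    · rw [hv0]; exact W.zero_mem
    · obtain ⟨g, hg, c, hc, hmap⟩ :=
        exists_mem_commutator_map_singular Q' hnd hk w₁ v hw₁0 hQw₁ hv0 hv
      have h2 := hstab g hg w₁ hw₁W
      rw [hmap] at h2
      have h4 := W.smul_mem c⁻¹ h2
      rwa [smul_smul, inv_mul_cancel₀ hc, one_smul] at h4
  -- the singular vectors span the space
  apply h1
  rw [eq_top_iff]
  intro y _
  obtain ⟨y₀, hy₀⟩ := exists_polar_ne_zero Q' hnd w₁ hw₁0
  obtain ⟨f, hf⟩ : ∃ f, f = y₀ - (Q' y₀ / polar ⇑Q' w₁ y₀) • w₁ := ⟨_, rfl⟩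
  have hQf : Q' f = 0 := by
    rw [hf, Q_sub_smul', hQw₁]
    field_simp
    ring
  have hef : polar ⇑Q' w₁ f ≠ 0 := by
    rw [hf, polar_sub_right, polar_smul_right, Cfsg.Agent.Lib.Helper51.polar_self, hQw₁]
    simpa using hy₀
  have hfW := hall f hQf
  by_cases hye : polar ⇑Q' y w₁ = 0
  · obtain ⟨a, ha⟩ : ∃ a, a = (- Q' y - polar ⇑Q' y f) / polar ⇑Q' w₁ f := ⟨_, rfl⟩
    have hQy' : Q' (y + a • w₁ + (1 : F) • f) = 0 := by
      rw [Q_add_smul_add_smul, hQw₁, hQf, hye, ha]
      field_simp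
      ring
    have h5 := hall _ hQy'
    have e : y = (y + a • w₁ + (1 : F) • f) - a • w₁ - f := by module
    rw [e]
    exact W.sub_mem (W.sub_mem h5 (W.smul_mem _ hw₁W)) hfW
  · obtain ⟨a, ha⟩ : ∃ a, a = - Q' y / polar ⇑Q' y w₁ := ⟨_, rfl⟩
    have hQy' : Q' (y + a • w₁) = 0 := by
      rw [Q_add_smul, hQw₁, ha]
      field_simp
      ring
    have h5 := hall _ hQy'
    have e : y = (y + a • w₁) - a • w₁ := by module
    rw [e]
    exact W.sub_mem h5 (W.smul_mem _ hw₁W)

end Cfsg.Agent.Lib.Helper79.OMPNO1
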