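import Mathlib
import Cfsg.Prelude.Def_GeometricClasses
import Cfsg.Prelude.Def_LieClassical
import Cfsg.Agent.Lib.Helper52.GeoOmega
import Cfsg.Agent.Lib.Helper52.SiegelGeom

/-! Project OMP (helper71), piece NO2: `Ω` of a non-degenerate quadratic form in dimension at
least 5 (odd characteristic) does not permute the members of an orthogonal frame of
non-degenerate lines.  Proof: let `d` span the first line and `s ≠ 0` be singular and orthogonal
to `d`; then `d + s` has the norm of `d` and is not proportional to `d`, so an Eichler element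
(in `Ω`) maps `d` to `d + s` (`Helper52.exists_eich_map`); but `d + s` lies in no member of the
frame (it is neither in the line of `d` nor orthogonal to `d`). -/

set_option autoImplicit false

namespace Cfsg.Agent.Lib.Helper79.OMPNO2

open Matrix Cfsg.Geo QuadraticMap
open Cfsg.Agent.Lib.Helper52

variable {F : Type*} [Field F] [Fintype F]
variable {κ : Type} [Fintype κ] [DecidableEq κ]

/-- NO2 -/
theorem NO2 (Q : (κ → F) → F) (hQ : IsNondegenerateQuadraticForm Q)
    (hodd : Odd (Fintype.card F)) (hk : 5 ≤ Fintype.card κ) {t : ℕ}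
    (D : Fin t → Submodule F (κ → F))
    (hD : IsNondegenerateMDecomposition (QuadraticMap.polar Q) 1 D) :
    ¬ omegaGL Q ≤ decompositionStabilizer D := by
  classical
  obtain ⟨Q', rfl, hnd⟩ := exists_quadraticForm_of_nondeg Q hQ
  intro hle
  have h2 : (2 : F) ≠ 0 := by
    intro h
    have hch : ringChar F ∣ 2 := (ringChar.spec F 2).mp (by exact_mod_cast h)
    have hdc : ringChar F ∣ Fintype.card F := by
      have := (ringChar.spec F (Fintype.card F)).mp (by simp)
      exact this
    have hpr : (ringChar F).Prime := CharP.char_is_prime F (ringChar F)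
    have h2' : ringChar F = 2 := (Nat.prime_dvd_prime_iff_eq hpr Nat.prime_two).mp hch
    rw [h2'] at hdc
    exact (Nat.not_even_iff_odd.mpr hodd) (even_iff_two_dvd.mpr hdc)
  have ht : 2 ≤ t := hD.decomp.two_le
  obtain ⟨i0, hi0⟩ : ∃ i0 : Fin t, i0 = ⟨0, by omega⟩ := ⟨_, rfl⟩
  have hfr := hD.decomp.finrank_eq i0
  obtain ⟨d, hdD, hd0⟩ : ∃ d ∈ D i0, d ≠ 0 := by
    have hne : D i0 ≠ ⊥ := by
      intro h
      rw [h, finrank_bot] at hfr
      omega
    exact (Submodule.ne_bot_iff _).mp hne
  have hspan : ∀ x ∈ D i0, ∃ c : F, x = c • d := by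
    intro x hx
    have hd0' : (⟨d, hdD⟩ : D i0) ≠ 0 := by
      intro h
      exact hd0 (congrArg Subtype.val h)
    obtain ⟨c, hc⟩ := (finrank_eq_one_iff_of_nonzero' (⟨d, hdD⟩ : D i0) hd0').mp hfr ⟨x, hx⟩
    exact ⟨c, (congrArg Subtype.val hc).symm⟩
  have hQd : Q' d ≠ 0 := by
    intro h
    obtain ⟨⟨x, hx, hx2⟩, -⟩ := hD.nondegenerate i0 d hdD hd0
    obtain ⟨c, rfl⟩ := hspan x hx
    apply hx2
    rw [polar_smul_left, Cfsg.Agent.Lib.Helper51.polar_self, h]
    simp
  obtain ⟨s, hs0, hQs, horth⟩ := exists_singular_orth Q' hnd {d}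
    (by rw [Finset.card_singleton]; omega)
  have hds : polar ⇑Q' d s = 0 := horth d (by simp)
  have hQa' : Q' d = Q' (d + s) := by
    have h3 := Q_add_smul Q' d s 1
    rw [one_smul] at h3
    rw [h3, hQs, hds]
    ring
  have hne : d + s ∉ Submodule.span F ({d} : Set (κ → F)) := by
    intro hmem
    obtain ⟨c, hc⟩ := Submodule.mem_span_singleton.mp hmem
    have hs : s = (c - 1) • d := by
      rw [sub_smul, one_smul, hc]
      abel
    rw [hs, QuadraticMap.map_smul, smul_eq_mul] at hQs
    have hc1 : c - 1 = 0 := by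
      rcases mul_eq_zero.mp hQs with h | h
      · exact mul_self_eq_zero.mp h
      · exact absurd h hQd
    apply hs0
    rw [hs, hc1, zero_smul]
  obtain ⟨p, w, hp, hpw, hmap⟩ := exists_eich_map Q' hnd hk d (d + s) hQd hQa' hne
  have hmemΩ := coe_mem_omegaGL Q' (eich_mem_commutator Q' hnd hk p w hp hpw)
  obtain ⟨σ, hσ⟩ := hle hmemΩ
  have hmem : d + s ∈ D (σ i0) := by
    rw [← hσ i0]
    refine ⟨d, hdD, ?_⟩
    rw [Matrix.toLin'_apply, coe_eich]
    exact hmap
  by_cases hj : σ i0 = i0
  · rw [hj] at hmem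
    obtain ⟨c, hc⟩ := hspan _ hmem
    exact hne (Submodule.mem_span_singleton.mpr ⟨c, hc.symm⟩)
  · have h5 := hD.orthogonal i0 (σ i0) (Ne.symm hj) d hdD (d + s) hmem
    rw [polar_add_right, Cfsg.Agent.Lib.Helper51.polar_self, hds, add_zero] at h5
    exact hQd ((mul_eq_zero.mp h5).resolve_left h2)

end Cfsg.Agent.Lib.Helper79.OMPNO2
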