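import Mathlib
import Cfsg.Prelude.Def_GeometricClasses
import Cfsg.Prelude.Def_LieClassical
import Cfsg.Agent.Lib.Helper93.SUPair
import Cfsg.Agent.Lib.Helper18.UnitaryFr
import Cfsg.Agent.Lib.Helper18.UnitaryGenB

/-! Project SUP (helper71), piece NU5: `SU_n` is not contained in a subfield group. -/

set_option autoImplicit false

namespace Cfsg.Agent.Lib.Helper79.SUPNU5

open Matrix Cfsg.Geo
open scoped Pointwise

variable {n : ℕ} {F : Type*} [Field F] [Fintype F] {q : ℕ}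

/-- unpacking membership in a subfield group -/
theorem nu5_unpack (F₀ : Subfield F) (P g : GL (Fin n) F) (hg : g ∈ subfieldSubgroup F₀ P) :
    ∃ (l : F) (b : Matrix (Fin n) (Fin n) F), l ≠ 0 ∧ (∀ i j, b i j ∈ F₀) ∧
      (P⁻¹ : GL (Fin n) F).1 * g.1 * P.1 = l • b := by
  unfold subfieldSubgroup at hg
  rw [Subgroup.mem_map] at hg
  obtain ⟨y, hy, hyg⟩ := hg
  have hy' : y ∈ (((Matrix.GeneralLinearGroup.map (F₀.subtype : F₀ →+* F)).range :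
      Subgroup (GL (Fin n) F)) : Set (GL (Fin n) F)) *
      (scalars (Fin n) F : Set (GL (Fin n) F)) := by
    rw [← Subgroup.mul_normal]
    exact hy
  obtain ⟨b, hb, s, hs, hbs⟩ := Set.mem_mul.mp hy'
  obtain ⟨b₀, hb₀⟩ := hb
  have hs' : s ∈ scalars (Fin n) F := hs
  rw [mem_scalars_iff] at hs'
  obtain ⟨l, hl⟩ := hs'
  have hbentry : ∀ i j, b.1 i j ∈ F₀ := by
    intro i j
    rw [← hb₀]
    have := Matrix.GeneralLinearGroup.map_apply (F₀.subtype : F₀ →+* F) i j b₀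
    rw [show (Matrix.GeneralLinearGroup.map (F₀.subtype : F₀ →+* F) b₀).1 i j
      = (F₀.subtype : F₀ →+* F) (b₀.1 i j) from this]
    exact (b₀.1 i j).2
  refine ⟨(l : F), b.1, l.ne_zero, hbentry, ?_⟩
  have h1 : g = P * y * P⁻¹ := hyg.symm
  have e1 : (P⁻¹ : GL (Fin n) F).1 * P.1 = 1 := Units.inv_mul P
  have h2 : (P⁻¹ : GL (Fin n) F).1 * g.1 * P.1 = y.1 := by
    rw [h1]
    simp only [Units.val_mul]
    calc (P⁻¹ : GL (Fin n) F).1 * (P.1 * y.1 * (P⁻¹ : GL (Fin n) F).1) * P.1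
        = ((P⁻¹ : GL (Fin n) F).1 * P.1) * y.1 * ((P⁻¹ : GL (Fin n) F).1 * P.1) := by
          simp only [Matrix.mul_assoc]
      _ = y.1 := by rw [e1, Matrix.one_mul, Matrix.mul_one]
  rw [h2, ← hbs, Units.val_mul, hl, Matrix.mul_smul, Matrix.mul_one]

/-- a rational multiple of a matrix `1 + a cᵀ` with `cᵀ a = 0`: the rank one part is rational -/
theorem nu5_rank_one (F₀ : Subfield F) (hn : 3 ≤ n) (a c : Fin n → F) (l : F) (hl : l ≠ 0)
    (b : Matrix (Fin n) (Fin n) F) (hb : ∀ i j, b i j ∈ F₀) (h : 1 + vecMulVec a c = l • b)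
    (ha : a ≠ 0) (hc : c ≠ 0) (hac : c ⬝ᵥ a = 0) : ∀ i j, a i * c j ∈ F₀ := by
  have hent : ∀ i j, (if i = j then (1 : F) else 0) + a i * c j = l * b i j := by
    intro i j
    have h1 := congrFun (congrFun h i) j
    rw [Matrix.add_apply, Matrix.one_apply, vecMulVec_apply, Matrix.smul_apply, smul_eq_mul] at h1
    exact h1
  obtain ⟨j, k, hjk, hne⟩ : ∃ j k, j ≠ k ∧ a j * c k ≠ 0 := by
    by_contra hcon
    push Not at hcon
    obtain ⟨j₀, hj₀⟩ : ∃ j₀, a j₀ ≠ 0 := by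
      by_contra h'
      push Not at h'
      exact ha (funext h')
    have hck : ∀ k, k ≠ j₀ → c k = 0 := by
      intro k hk
      have h1 := hcon j₀ k (Ne.symm hk)
      rcases mul_eq_zero.mp h1 with h2 | h2
      · exact absurd h2 hj₀
      · exact h2
    have hcj : c j₀ ≠ 0 := by
      intro h0
      apply hc
      funext k
      by_cases hk : k = j₀
      · rw [hk]
        exact h0
      · exact hck k hk
    have h3 : c ⬝ᵥ a = c j₀ * a j₀ := by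
      rw [dotProduct, Finset.sum_eq_single j₀]
      · intro k _ hk
        rw [hck k hk, zero_mul]
      · intro h
        exact absurd (Finset.mem_univ _) h
    rw [h3] at hac
    exact (mul_ne_zero hcj hj₀) hac
  obtain ⟨i, hij, hik⟩ : ∃ i : Fin n, i ≠ j ∧ i ≠ k := by
    by_contra hcon
    push Not at hcon
    have h0 := hcon ⟨0, by omega⟩
    have h1 := hcon ⟨1, by omega⟩
    have h2 := hcon ⟨2, by omega⟩
    by_cases c0 : (⟨0, by omega⟩ : Fin n) = j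
    · by_cases c1 : (⟨1, by omega⟩ : Fin n) = j
      · have := c0.trans c1.symm
        simp [Fin.ext_iff] at this
      · by_cases c2 : (⟨2, by omega⟩ : Fin n) = j
        · have := c0.trans c2.symm
          simp [Fin.ext_iff] at this
        · have := (h1 c1).trans (h2 c2).symm
          simp [Fin.ext_iff] at this
    · by_cases c1 : (⟨1, by omega⟩ : Fin n) = j
      · by_cases c2 : (⟨2, by omega⟩ : Fin n) = j
        · have := c1.trans c2.symm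
          simp [Fin.ext_iff] at this
        · have := (h0 c0).trans (h2 c2).symm
          simp [Fin.ext_iff] at this
      · have := (h0 c0).trans (h1 c1).symm
        simp [Fin.ext_iff] at this
  have e_jk : l * b j k = a j * c k := by
    have h1 := hent j k
    rw [if_neg hjk, zero_add] at h1
    exact h1.symm
  have e_ii : l * b i i = 1 + a i * c i := by
    have h1 := hent i i
    rw [if_pos rfl] at h1
    exact h1.symm
  have e_ik : l * b i k = a i * c k := by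
    have h1 := hent i k
    rw [if_neg hik, zero_add] at h1
    exact h1.symm
  have e_ji : l * b j i = a j * c i := by
    have h1 := hent j i
    rw [if_neg (Ne.symm hij), zero_add] at h1
    exact h1.symm
  have key : l * (b j k * b i i - b i k * b j i) = b j k := by
    have h1 : l * (l * (b j k * b i i - b i k * b j i)) = l * b j k := by
      have h2 : l * (l * (b j k * b i i - b i k * b j i)) =
          (l * b j k) * (l * b i i) - (l * b i k) * (l * b j i) := by ring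
      rw [h2, e_jk, e_ii, e_ik, e_ji]
      ring
    exact mul_left_cancel₀ hl h1
  have hbjk : b j k ≠ 0 := by
    intro h0
    rw [h0, mul_zero] at e_jk
    exact hne e_jk.symm
  have hD : b j k * b i i - b i k * b j i ≠ 0 := by
    intro h0
    rw [h0, mul_zero] at key
    exact hbjk key.symm
  have hlF : l ∈ F₀ := by
    have h1 : l = b j k * (b j k * b i i - b i k * b j i)⁻¹ :=
      (eq_mul_inv_iff_mul_eq₀ hD).mpr key
    rw [h1]
    exact F₀.mul_mem (hb j k) (F₀.inv_mem (F₀.sub_mem (F₀.mul_mem (hb j k) (hb i i))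
      (F₀.mul_mem (hb i k) (hb j i))))
  intro i' j'
  have h1 : a i' * c j' = l * b i' j' - (if i' = j' then (1 : F) else 0) := by
    rw [← hent i' j']
    ring
  rw [h1]
  refine F₀.sub_mem (F₀.mul_mem hlF (hb i' j')) ?_
  split_ifs
  · exact F₀.one_mem
  · exact F₀.zero_mem

/-- every non-zero isotropic vector has a non-zero multiple with rational `P`-coordinates -/
theorem nu5_B (hF : Fintype.card F = q ^ 2) (hn : 3 ≤ n) (F₀ : Subfield F) (P : GL (Fin n) F)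
    (hle : (Cfsg.GU n F q ⊓ specialLinear (Fin n) F) ≤ subfieldSubgroup F₀ P)
    (v : Fin n → F) (hv : v ≠ 0) (hvv : Cfsg.hermForm n F q v v = 0) :
    ∃ lam : F, lam ≠ 0 ∧ ∀ k, lam * ((P⁻¹ : GL (Fin n) F).1 *ᵥ v) k ∈ F₀ := by
  obtain ⟨μ, hμ0, hμ⟩ := Cfsg.Agent.Lib.Helper18.exists_trace_zero hF
  obtain ⟨t, ht, htS⟩ := Cfsg.Agent.Lib.Helper93.exists_gl_of_pres
    (Cfsg.Agent.Lib.Helper18.transvection_preserves hF n v μ hvv hμ)
    (Cfsg.Agent.Lib.Helper18.transvection_det n v μ hvv)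
  obtain ⟨l, b, hl, hb, hlb⟩ := nu5_unpack F₀ P t (hle htS)
  have e1 : (P⁻¹ : GL (Fin n) F).1 * P.1 = 1 := Units.inv_mul P
  have e2 : P.1 * (P⁻¹ : GL (Fin n) F).1 = 1 := Units.mul_inv P
  have hform : (P⁻¹ : GL (Fin n) F).1 * t.1 * P.1 =
      1 + vecMulVec ((P⁻¹ : GL (Fin n) F).1 *ᵥ v) (μ • ((fun j => v j ^ q) ᵥ* P.1)) := by
    rw [ht]
    unfold Cfsg.unitaryTransvection
    rw [Matrix.mul_add, Matrix.add_mul, Matrix.mul_one, e1, Matrix.mul_smul, Matrix.smul_mul,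
      mul_vecMulVec, vecMulVec_mul, vecMulVec_smul]
  rw [hform] at hlb
  have ha : (P⁻¹ : GL (Fin n) F).1 *ᵥ v ≠ 0 := by
    intro h0
    apply hv
    have h1 : P.1 *ᵥ ((P⁻¹ : GL (Fin n) F).1 *ᵥ v) = v := by
      rw [Matrix.mulVec_mulVec, e2, Matrix.one_mulVec]
    rw [← h1, h0, Matrix.mulVec_zero]
  have hw : (fun j => v j ^ q) ≠ 0 := by
    intro h0
    apply hv
    funext j
    have h1 := congrFun h0 j
    exact (pow_eq_zero_iff (Cfsg.Agent.Lib.Helper7.herm_q_ne_zero hF)).mp h1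
  have hc : μ • ((fun j => v j ^ q) ᵥ* P.1) ≠ 0 := by
    intro h0
    apply hw
    have h1 : (fun j => v j ^ q) ᵥ* P.1 = 0 := by
      rcases smul_eq_zero.mp h0 with h | h
      · exact absurd h hμ0
      · exact h
    have h2 : ((fun j => v j ^ q) ᵥ* P.1) ᵥ* (P⁻¹ : GL (Fin n) F).1 = (fun j => v j ^ q) := by
      rw [Matrix.vecMul_vecMul, e2, Matrix.vecMul_one]
    rw [← h2, h1, Matrix.zero_vecMul]
  have hac : (μ • ((fun j => v j ^ q) ᵥ* P.1)) ⬝ᵥ ((P⁻¹ : GL (Fin n) F).1 *ᵥ v) = 0 := by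
    rw [smul_dotProduct, ← dotProduct_mulVec, Matrix.mulVec_mulVec, e2, Matrix.one_mulVec]
    have h1 : (fun j => v j ^ q) ⬝ᵥ v = Cfsg.hermForm n F q v v := by
      unfold Cfsg.hermForm dotProduct
      exact Finset.sum_congr rfl (fun i _ => mul_comm _ _)
    rw [h1, hvv, smul_zero]
  have hrat := nu5_rank_one F₀ hn _ _ l hl b hb hlb ha hc hac
  obtain ⟨j, hj⟩ : ∃ j, (μ • ((fun j => v j ^ q) ᵥ* P.1)) j ≠ 0 := by
    by_contra h'
    push Not at h'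
    exact hc (funext h')
  exact ⟨_, hj, fun k => by rw [mul_comm]; exact hrat k j⟩

/-- NU5 -/
theorem NU5 (hF : Fintype.card F = q ^ 2) (hn : 4 ≤ n) (F₀ : Subfield F) (hF₀ : F₀ ≠ ⊤)
    (P : GL (Fin n) F) :
    ¬ (Cfsg.GU n F q ⊓ specialLinear (Fin n) F) ≤ subfieldSubgroup F₀ P := by
  intro hle
  have hn3 : 3 ≤ n := by omega
  obtain ⟨cc, hcc⟩ : ∃ c : F, c ∉ F₀ := by
    by_contra h
    exact hF₀ (eq_top_iff.mpr fun x _ => by
      by_contra hx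
      exact h ⟨x, hx⟩)
  obtain ⟨ω, hω0, hω⟩ := Cfsg.Agent.Lib.Helper18.exists_omega hF
  obtain ⟨i0, i1, i2, i3, h01, h02, h03, h12, h13, h23⟩ : ∃ i0 i1 i2 i3 : Fin n,
      i0 ≠ i1 ∧ i0 ≠ i2 ∧ i0 ≠ i3 ∧ i1 ≠ i2 ∧ i1 ≠ i3 ∧ i2 ≠ i3 :=
    ⟨⟨0, by omega⟩, ⟨1, by omega⟩, ⟨2, by omega⟩, ⟨3, by omega⟩, by simp [Fin.ext_iff],
      by simp [Fin.ext_iff], by simp [Fin.ext_iff], by simp [Fin.ext_iff], by simp [Fin.ext_iff],
      by simp [Fin.ext_iff]⟩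
  have hv₁ : Cfsg.hermForm n F q (Cfsg.Agent.Lib.Helper18.pv ω i0 i1)
      (Cfsg.Agent.Lib.Helper18.pv ω i0 i1) = 0 := Cfsg.Agent.Lib.Helper18.pv_iso ω hω h01
  have hv₂ : Cfsg.hermForm n F q (Cfsg.Agent.Lib.Helper18.pv ω i2 i3)
      (Cfsg.Agent.Lib.Helper18.pv ω i2 i3) = 0 := Cfsg.Agent.Lib.Helper18.pv_iso ω hω h23
  have h12' : Cfsg.hermForm n F q (Cfsg.Agent.Lib.Helper18.pv ω i0 i1)
      (Cfsg.Agent.Lib.Helper18.pv ω i2 i3) = 0 :=
    Cfsg.Agent.Lib.Helper18.pv_orth hF ω h02 h03 h12 h13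
  have h21' : Cfsg.hermForm n F q (Cfsg.Agent.Lib.Helper18.pv ω i2 i3)
      (Cfsg.Agent.Lib.Helper18.pv ω i0 i1) = 0 :=
    Cfsg.Agent.Lib.Helper18.pv_orth hF ω h02.symm h12.symm h03.symm h13.symm
  obtain ⟨l₁, hl₁, hr₁⟩ := nu5_B hF hn3 F₀ P hle _ (Cfsg.Agent.Lib.Helper18.pv_ne_zero ω h01) hv₁
  obtain ⟨l₂, hl₂, hr₂⟩ := nu5_B hF hn3 F₀ P hle _ (Cfsg.Agent.Lib.Helper18.pv_ne_zero ω h23) hv₂
  have hvc_iso : Cfsg.hermForm n F q
      (l₁ • Cfsg.Agent.Lib.Helper18.pv ω i0 i1 + (cc * l₂) • Cfsg.Agent.Lib.Helper18.pv ω i2 i3)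
      (l₁ • Cfsg.Agent.Lib.Helper18.pv ω i0 i1 + (cc * l₂) • Cfsg.Agent.Lib.Helper18.pv ω i2 i3)
      = 0 := by
    simp only [Cfsg.Agent.Lib.Helper7.hf_add_left, Cfsg.Agent.Lib.Helper7.hf_add_right hF,
      Cfsg.Agent.Lib.Helper7.hf_smul_left, Cfsg.Agent.Lib.Helper7.hf_smul_right, hv₁, hv₂, h12',
      h21', mul_zero, add_zero]
  have hvc_ne : l₁ • Cfsg.Agent.Lib.Helper18.pv ω i0 i1 +
      (cc * l₂) • Cfsg.Agent.Lib.Helper18.pv ω i2 i3 ≠ 0 := by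
    intro h
    have h1 := congrFun h i0
    rw [Pi.add_apply, Pi.smul_apply, Pi.smul_apply, Cfsg.Agent.Lib.Helper18.pv_apply_left ω h01,
      Cfsg.Agent.Lib.Helper18.pv_apply_ne ω h02 h03, smul_eq_mul, smul_eq_mul, mul_one, mul_zero,
      add_zero, Pi.zero_apply] at h1
    exact hl₁ h1
  obtain ⟨lc, hlc, hrc⟩ := nu5_B hF hn3 F₀ P hle _ hvc_ne hvc_iso
  obtain ⟨a₁, ha₁⟩ : ∃ a₁, a₁ = (P⁻¹ : GL (Fin n) F).1 *ᵥ Cfsg.Agent.Lib.Helper18.pv ω i0 i1 :=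
    ⟨_, rfl⟩
  obtain ⟨a₂, ha₂⟩ : ∃ a₂, a₂ = (P⁻¹ : GL (Fin n) F).1 *ᵥ Cfsg.Agent.Lib.Helper18.pv ω i2 i3 :=
    ⟨_, rfl⟩
  rw [← ha₁] at hr₁
  rw [← ha₂] at hr₂
  have hrc' : ∀ k, lc * (l₁ * a₁ k + cc * (l₂ * a₂ k)) ∈ F₀ := by
    intro k
    have h1 := hrc k
    rw [Matrix.mulVec_add, Matrix.mulVec_smul, Matrix.mulVec_smul, ← ha₁, ← ha₂] at h1
    simp only [Pi.add_apply, Pi.smul_apply, smul_eq_mul] at h1
    have h2 : lc * (l₁ * a₁ k + cc * l₂ * a₂ k) = lc * (l₁ * a₁ k + cc * (l₂ * a₂ k)) := by ring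
    rw [← h2]
    exact h1
  have e2 : P.1 * (P⁻¹ : GL (Fin n) F).1 = 1 := Units.mul_inv P
  have hinj : ∀ x : Fin n → F, (P⁻¹ : GL (Fin n) F).1 *ᵥ x = 0 → x = 0 := by
    intro x hx
    have h1 : P.1 *ᵥ ((P⁻¹ : GL (Fin n) F).1 *ᵥ x) = x := by
      rw [Matrix.mulVec_mulVec, e2, Matrix.one_mulVec]
    rw [← h1, hx, Matrix.mulVec_zero]
  obtain ⟨i, j, hD⟩ : ∃ i j, (l₁ * a₁ i) * (l₂ * a₂ j) - (l₁ * a₁ j) * (l₂ * a₂ i) ≠ 0 := by
    by_contra hcon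
    push Not at hcon
    have ha₂0 : a₂ ≠ 0 := by
      intro h0
      rw [ha₂] at h0
      exact Cfsg.Agent.Lib.Helper18.pv_ne_zero ω h23 (hinj _ h0)
    obtain ⟨j₀, hj₀⟩ : ∃ j₀, a₂ j₀ ≠ 0 := by
      by_contra h'
      push Not at h'
      exact ha₂0 (funext h')
    have hx : (P⁻¹ : GL (Fin n) F).1 *ᵥ ((l₂ * a₂ j₀ * l₁) • Cfsg.Agent.Lib.Helper18.pv ω i0 i1 -
        (l₁ * a₁ j₀ * l₂) • Cfsg.Agent.Lib.Helper18.pv ω i2 i3) = 0 := by
      rw [Matrix.mulVec_sub, Matrix.mulVec_smul, Matrix.mulVec_smul, ← ha₁, ← ha₂]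
      funext i
      have h1 := hcon i j₀
      simp only [Pi.sub_apply, Pi.smul_apply, smul_eq_mul, Pi.zero_apply]
      linear_combination h1
    have hx0 := hinj _ hx
    have h1 := congrFun hx0 i0
    rw [Pi.sub_apply, Pi.smul_apply, Pi.smul_apply, Cfsg.Agent.Lib.Helper18.pv_apply_left ω h01,
      Cfsg.Agent.Lib.Helper18.pv_apply_ne ω h02 h03, smul_eq_mul, smul_eq_mul, mul_one, mul_zero,
      sub_zero, Pi.zero_apply] at h1
    exact (mul_ne_zero (mul_ne_zero hl₂ hj₀) hl₁) h1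
  have hX : lc * ((l₁ * a₁ i) * (l₂ * a₂ j) - (l₁ * a₁ j) * (l₂ * a₂ i)) ∈ F₀ := by
    have h1 : lc * ((l₁ * a₁ i) * (l₂ * a₂ j) - (l₁ * a₁ j) * (l₂ * a₂ i)) =
        (lc * (l₁ * a₁ i + cc * (l₂ * a₂ i))) * (l₂ * a₂ j) -
          (lc * (l₁ * a₁ j + cc * (l₂ * a₂ j))) * (l₂ * a₂ i) := by ring
    rw [h1]
    exact F₀.sub_mem (F₀.mul_mem (hrc' i) (hr₂ j)) (F₀.mul_mem (hrc' j) (hr₂ i))
  have hY : lc * cc * ((l₁ * a₁ i) * (l₂ * a₂ j) - (l₁ * a₁ j) * (l₂ * a₂ i)) ∈ F₀ := by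
    have h1 : lc * cc * ((l₁ * a₁ i) * (l₂ * a₂ j) - (l₁ * a₁ j) * (l₂ * a₂ i)) =
        (lc * (l₁ * a₁ j + cc * (l₂ * a₂ j))) * (l₁ * a₁ i) -
          (lc * (l₁ * a₁ i + cc * (l₂ * a₂ i))) * (l₁ * a₁ j) := by ring
    rw [h1]
    exact F₀.sub_mem (F₀.mul_mem (hrc' j) (hr₁ i)) (F₀.mul_mem (hrc' i) (hr₁ j))
  apply hcc
  have hX0 : lc * ((l₁ * a₁ i) * (l₂ * a₂ j) - (l₁ * a₁ j) * (l₂ * a₂ i)) ≠ 0 :=
    mul_ne_zero hlc hD
  have h3 : cc = (lc * cc * ((l₁ * a₁ i) * (l₂ * a₂ j) - (l₁ * a₁ j) * (l₂ * a₂ i))) *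
      (lc * ((l₁ * a₁ i) * (l₂ * a₂ j) - (l₁ * a₁ j) * (l₂ * a₂ i)))⁻¹ := by
    rw [eq_mul_inv_iff_mul_eq₀ hX0]
    ring
  rw [h3]
  exact F₀.mul_mem hY (F₀.inv_mem hX)

end Cfsg.Agent.Lib.Helper79.SUPNU5
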