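import Mathlib
import Cfsg.Prelude.Def_GeometricClasses
import Cfsg.Prelude.Def_LieClassical
import Cfsg.Agent.Lib.Helper71.Asch0
import Cfsg.Agent.Lib.Helper71.Asch5
import Cfsg.Agent.Lib.Helper71.SUP0
import Cfsg.Agent.Lib.Helper65.FR5Defs
import Cfsg.Agent.Lib.Helper65.FR5AI
import Cfsg.Agent.Lib.Helper65.FR5COMM
import Cfsg.Agent.Lib.Helper65.FR5CENTa
import Cfsg.Agent.Lib.Helper65.FR5CHPhi
import Cfsg.Agent.Lib.Helper65.FR5T1b

/-! Project SU4 (helper50, S5784), piece Q3MON (copy c, helper79): the Pauli group of an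
orthonormal frame of the unitary space `F_9^4`. -/

set_option autoImplicit false

namespace Cfsg.Agent.Lib.Helper79.SU4Q3MON

open Matrix Cfsg.Geo Cfsg.Agent.Lib.Helper71.Asch Cfsg.Agent.Lib.Helper65.FR5
open scoped Kronecker

variable {n : ℕ} {F : Type*} [Field F] [Fintype F] {q : ℕ}

theorem su4q3c_three (hF : Fintype.card F = 9) : (3 : F) = 0 := by
  have h := Nat.cast_card_eq_zero F
  rw [hF] at h
  have h9 : (3 : F) * 3 = 0 := by
    have e : ((9 : ℕ) : F) = 3 * 3 := by norm_num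
    rw [← e]
    exact h
  exact mul_self_eq_zero.mp h9

theorem su4q3c_two (hF : Fintype.card F = 9) : (2 : F) ≠ 0 := by
  intro h
  have h3 := su4q3c_three hF
  have : (1 : F) = 0 := by linear_combination h3 - h
  exact one_ne_zero this

theorem su4q3c_exists_i (hF : Fintype.card F = 9) : ∃ i : F, i * i = -1 := by
  have h := (FiniteField.isSquare_neg_one_iff (F := F)).2 (by rw [hF]; norm_num)
  obtain ⟨r, hr⟩ := h
  exact ⟨r, hr.symm⟩

omit [Fintype F] in
theorem su4q3c_chi4 (a j : Fin 4) : (chi a j : F) ^ 4 = 1 := by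
  have h := chi_sq (F := F) a j
  calc (chi a j : F) ^ 4 = (chi a j ^ 2) ^ 2 := by ring
    _ = 1 := by rw [h]; ring

omit [Fintype F] in
theorem su4q3c_mono_mem_GU (σ : Equiv.Perm (Fin 4)) (c : Fin 4 → F) (hc : ∀ j, c j ^ 4 = 1)
    (g : GL (Fin 4) F) (hg : g.1 = mono σ c) : g ∈ Cfsg.GU 4 F 3 := by
  intro u v
  show Cfsg.hermForm 4 F 3 (g.1 *ᵥ u) (g.1 *ᵥ v) = Cfsg.hermForm 4 F 3 u v
  unfold Cfsg.hermForm
  rw [hg]
  simp only [mono_mulVec]
  rw [← Equiv.sum_comp σ⁻¹ (fun k => u k * v k ^ 3)]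
  apply Finset.sum_congr rfl
  intro k _
  have h := hc (σ⁻¹ k)
  linear_combination (u (σ⁻¹ k) * v (σ⁻¹ k) ^ 3) * h

omit [Fintype F] in
theorem su4q3c_GU_mono (σ : Equiv.Perm (Fin 4)) (c : Fin 4 → F) (g : GL (Fin 4) F)
    (hg : g.1 = mono σ c) (hgU : g ∈ Cfsg.GU 4 F 3) (j : Fin 4) : c j ^ 4 = 1 := by
  classical
  have h : Cfsg.hermForm 4 F 3 (g.1 *ᵥ Pi.single j 1) (g.1 *ᵥ Pi.single j 1) =
      Cfsg.hermForm 4 F 3 (Pi.single j 1) (Pi.single j 1) := hgU _ _
  rw [hg, mono_mulVec_single] at h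
  unfold Cfsg.hermForm at h
  rw [Finset.sum_eq_single (σ j), Finset.sum_eq_single j] at h
  · simp only [Pi.smul_apply, Pi.single_eq_same, smul_eq_mul, mul_one, one_pow] at h
    linear_combination h
  · intro k _ hk
    rw [Pi.single_eq_of_ne hk, zero_mul]
  · intro hk
    exact absurd (Finset.mem_univ _) hk
  · intro k _ hk
    rw [Pi.smul_apply, Pi.single_eq_of_ne hk, smul_zero, zero_mul]
  · intro hk
    exact absurd (Finset.mem_univ _) hk

omit [Fintype F] in
theorem su4q3c_nf (h2 : (2 : F) ≠ 0) {g : GL (Fin 4) F} (hg : g ∈ R0 F ⊓ Cfsg.GU 4 F 3) :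
    ∃ (a b : Fin 4) (c : F), c ^ 4 = 1 ∧ g.1 = mono (tr b) (fun j => c * chi a j) := by
  obtain ⟨a, b, c, hc, hx⟩ := exists_nf h2 hg.1
  refine ⟨a, b, c, ?_, hx⟩
  have h := su4q3c_GU_mono (tr b) _ g hx hg.2 0
  rw [chi_zero', mul_one] at h
  exact h

omit [Fintype F] in
theorem su4q3c_mem (g : GL (Fin 4) F) (a b : Fin 4) (c : F) (hc : c ^ 4 = 1)
    (hg : g.1 = mono (tr b) (fun j => c * chi a j)) : g ∈ R0 F ⊓ Cfsg.GU 4 F 3 := by
  have hc0 : c ≠ 0 := by
    rintro rfl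
    simp at hc
  refine ⟨mem_R0_of_nf g a b c hc0 hg, su4q3c_mono_mem_GU (tr b) _ (fun j => ?_) g hg⟩
  rw [mul_pow, hc, one_mul, su4q3c_chi4]

omit [Fintype F] in
theorem su4q3c_N1 (h2 : (2 : F) ≠ 0) (c : Fin 4 → F) (hc4 : ∀ j, c j ^ 4 = 1)
    (hprod : (∏ j, c j) ^ 2 = 1) (b : Fin 4) :
    ∃ w : F, w ≠ 0 ∧ w ^ 2 = 1 ∧ ∀ k, c (tr b k) ^ 2 = w * c k ^ 2 := by
  obtain ⟨a, ha⟩ := nf h2 (fun j => c j ^ 2) 1 one_ne_zero
    (fun j => by
      show (c j ^ 2) ^ 2 = 1
      rw [← pow_mul]; exact hc4 j)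
    (by rw [Finset.prod_pow, hprod, one_pow])
  refine ⟨chi a b, chi_ne_zero a b, chi_sq a b, fun k => ?_⟩
  have h1 := ha (tr b k)
  have h2 := ha k
  rw [h1, h2, tr_apply, chi_xor]
  ring

omit [Fintype F] in
theorem su4q3c_N2 (h2 : (2 : F) ≠ 0) (g : GL (Fin 4) F) (σ : Equiv.Perm (Fin 4))
    (c : Fin 4 → F) (hc4 : ∀ j, c j ^ 4 = 1) (hg : g.1 = mono σ c) (hprod : (∏ j, c j) ^ 2 = 1)
    (x : GL (Fin 4) F) (hx : x ∈ R0 F) : g * x * g⁻¹ ∈ R0 F := by
  have hc : ∀ j, c j ≠ 0 := by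
    intro j h
    have := hc4 j
    rw [h] at this
    simp at this
  obtain ⟨b, d, s, hs, h1, hp, hxv⟩ := hx
  obtain ⟨b', hb'⟩ := tr_conj σ b
  obtain ⟨w, hw0, hw2, hw⟩ := su4q3c_N1 h2 c hc4 hprod b
  have hP0 : ∏ j, c j ≠ 0 := by
    intro h
    rw [h] at hprod
    norm_num at hprod
  refine ⟨b', fun j => c (tr b (σ⁻¹ j)) * d (σ⁻¹ j) * (c (σ⁻¹ j))⁻¹, s * w,
    mul_ne_zero hs hw0, ?_, ?_, ?_⟩
  · intro j
    have hcj' : c (σ⁻¹ j) ≠ 0 := hc _
    have hcj : c (σ⁻¹ j) ^ 2 ≠ 0 := pow_ne_zero 2 (hc _)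
    rw [mul_pow, mul_pow, inv_pow, hw, h1]
    field_simp
  · rw [Equiv.prod_comp σ⁻¹ (fun k => c (tr b k) * d k * (c k)⁻¹), Finset.prod_mul_distrib,
      Finset.prod_mul_distrib, Finset.prod_inv_distrib, Equiv.prod_comp (tr b) c, hp, mul_pow, hw2]
    field_simp
  · rw [Units.val_mul, Units.val_mul, hg, hxv, inv_val_of_mono hc hg, mono_mul, mono_mul, hb']

theorem su4q3c_norm_mono (h2 : (2 : F) ≠ 0) (g : GL (Fin 4) F) (σ : Equiv.Perm (Fin 4))
    (c : Fin 4 → F) (hc4 : ∀ j, c j ^ 4 = 1) (hg : g.1 = mono σ c) (hprod : (∏ j, c j) ^ 2 = 1) :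
    g ∈ Subgroup.normalizer
      ((R0 F ⊓ Cfsg.GU 4 F 3 : Subgroup (GL (Fin 4) F)) : Set (GL (Fin 4) F)) := by
  apply Subgroup.mem_normalizer_fintype
  intro x hx
  have hgU := su4q3c_mono_mem_GU σ c hc4 g hg
  exact ⟨su4q3c_N2 h2 g σ c hc4 hg hprod x hx.1,
    (Cfsg.GU 4 F 3).mul_mem ((Cfsg.GU 4 F 3).mul_mem hgU hx.2) ((Cfsg.GU 4 F 3).inv_mem hgU)⟩

theorem su4q3c_exists_Phi (hF : Fintype.card F = 9) : ∃ Φ : GL (Fin 4) F, Φ.1 = CHPhi_M F := by
  have h3 := su4q3c_three hF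
  have h4 : (4 : F) = 1 := by linear_combination h3
  exact ⟨⟨CHPhi_M F, CHPhi_M F, by rw [CHPhi_sq, h4, one_smul], by rw [CHPhi_sq, h4, one_smul]⟩, rfl⟩

theorem su4q3c_norm_Phi (h2 : (2 : F) ≠ 0) (Φ : GL (Fin 4) F) (hΦ : Φ.1 = CHPhi_M F) :
    Φ ∈ Subgroup.normalizer
      ((R0 F ⊓ Cfsg.GU 4 F 3 : Subgroup (GL (Fin 4) F)) : Set (GL (Fin 4) F)) := by
  apply Subgroup.mem_normalizer_fintype
  intro x hx
  obtain ⟨a, b, c, hc, hxv⟩ := su4q3c_nf h2 hx
  have h := CHPhi_conj Φ hΦ x a b c hxv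
  refine su4q3c_mem _ b a (c * chi b a) ?_ h
  rw [mul_pow, hc, one_mul, su4q3c_chi4]

omit [Fintype F] in
theorem su4q3c_chiZ_prod3 : ∀ j : Fin 4, chiZ 1 j * chiZ 2 j * chiZ 3 j = 1 := by decide

theorem su4q3c_min (hF : Fintype.card F = 9) (L : Subgroup (GL (Fin 4) F))
    (hL : L ≤ R0 F ⊓ Cfsg.GU 4 F 3)
    (hN : ∀ h ∈ Subgroup.normalizer
      ((R0 F ⊓ Cfsg.GU 4 F 3 : Subgroup (GL (Fin 4) F)) : Set (GL (Fin 4) F)),
        ∀ x ∈ L, h * x * h⁻¹ ∈ L)
    (hns : ¬ L ≤ scalars (Fin 4) F) : L = R0 F ⊓ Cfsg.GU 4 F 3 := by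
  classical
  have h2 := su4q3c_two hF
  obtain ⟨i, hi⟩ := su4q3c_exists_i hF
  have hi0 : i ≠ 0 := by
    rintro rfl
    simp at hi
  have hi4 : i ^ 4 = 1 := by linear_combination (i * i - 1) * hi
  have hiinv : i⁻¹ = -i := (eq_inv_of_mul_eq_one_left (by linear_combination -hi)).symm
  have hni0 : -i ≠ 0 := neg_ne_zero.mpr hi0
  obtain ⟨Φ, hΦ⟩ := su4q3c_exists_Phi hF
  have hΦN := su4q3c_norm_Phi h2 Φ hΦ
  -- (F1) diagonal elements from an element with a non-trivial translation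
  have hF1 : ∀ (b a : Fin 4) (x : GL (Fin 4) F) (d : Fin 4 → F), x ∈ L → (∀ j, d j ≠ 0) →
      x.1 = mono (tr b) d → chiZ a b = -1 →
      ∀ y : GL (Fin 4) F, y.1 = mono 1 (fun j => (-i) * chi a j) → y ∈ L := by
    intro b a x d hxL hd hx hab y hy
    obtain ⟨c₀, hc₀⟩ : ∃ c₀ : Fin 4 → F, c₀ = fun j => if chiZ a j = 1 then 1 else i := ⟨_, rfl⟩
    have hc₀j : ∀ j, c₀ j = if chiZ a j = 1 then 1 else i := fun j => by rw [hc₀]
    have hc₀0 : ∀ j, c₀ j ≠ 0 := by
      intro j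
      rw [hc₀j]
      split_ifs
      · exact one_ne_zero
      · exact hi0
    have hc₀4 : ∀ j, c₀ j ^ 4 = 1 := by
      intro j
      rw [hc₀j]
      split_ifs
      · exact one_pow 4
      · exact hi4
    have hc₀2 : ∀ j, c₀ j ^ 2 = chi a j := by
      intro j
      rw [hc₀j]
      unfold chi
      rcases chiZ_eq a j with h | h
      · rw [if_pos h, h]
        norm_num
      · rw [if_neg (by rw [h]; norm_num), h]
        push_cast
        linear_combination hi
    have hprod : (∏ j, c₀ j) ^ 2 = 1 := by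
      rw [← Finset.prod_pow, Finset.prod_congr rfl (fun j _ => hc₀2 j), chi_prod]
    have hT := su4q3c_norm_mono h2 (monoU 1 c₀ hc₀0) 1 c₀ hc₀4 (monoU_val 1 c₀ hc₀0) hprod
    have h1 := hN _ hT x hxL
    have hyx : y * x = monoU 1 c₀ hc₀0 * x * (monoU 1 c₀ hc₀0)⁻¹ := by
      apply Units.ext
      rw [Units.val_mul, Units.val_mul, Units.val_mul, hy, hx, monoU_val,
        inv_val_of_mono hc₀0 (monoU_val 1 c₀ hc₀0), mono_mul, mono_mul, mono_mul]
      congr 1
      funext j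
      simp only [inv_one, Equiv.Perm.coe_one, id_eq]
      rw [tr_apply]
      have hx' : chiZ a (j ^^^ b) = chiZ a j * chiZ a b := chiZ_xor a j b
      rw [hab] at hx'
      rcases chiZ_eq a j with h | h
      · have e1 : chiZ a (j ^^^ b) = -1 := by rw [hx', h]; norm_num
        have e2 : c₀ j = 1 := by rw [hc₀j, if_pos h]
        have e3 : c₀ (j ^^^ b) = i := by rw [hc₀j, if_neg (by rw [e1]; norm_num)]
        have e4 : (chi a (j ^^^ b) : F) = -1 := by unfold chi; rw [e1]; norm_num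
        rw [e2, e3, e4, inv_one]
        ring
      · have e1 : chiZ a (j ^^^ b) = 1 := by rw [hx', h]; norm_num
        have e2 : c₀ j = i := by rw [hc₀j, if_neg (by rw [h]; norm_num)]
        have e3 : c₀ (j ^^^ b) = 1 := by rw [hc₀j, if_pos e1]
        have e4 : (chi a (j ^^^ b) : F) = 1 := by unfold chi; rw [e1]; norm_num
        rw [e2, e3, e4, hiinv]
        ring
    have hy' : y = monoU 1 c₀ hc₀0 * x * (monoU 1 c₀ hc₀0)⁻¹ * x⁻¹ := by
      rw [← hyx]
      group
    rw [hy']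
    exact L.mul_mem h1 (L.inv_mem hxL)
  -- (F2) conjugation by Φ
  have hF2 : ∀ (a : Fin 4) (c : F) (x : GL (Fin 4) F), x ∈ L →
      x.1 = mono 1 (fun j => c * chi a j) →
      ∀ y : GL (Fin 4) F, y.1 = mono (tr a) (fun _ => c) → y ∈ L := by
    intro a c x hxL hx y hy
    have hx' : x.1 = mono (tr 0) (fun j => c * chi a j) := by rw [tr_zero]; exact hx
    have h1 := CHPhi_conj Φ hΦ x a 0 c hx'
    have h2' := hN _ hΦN x hxL
    have : y = Φ * x * Φ⁻¹ := by
      apply Units.ext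
      rw [hy, h1]
      congr 1
      funext j
      rw [chi_zero, chi_zero, mul_one, mul_one]
    rw [this]
    exact h2'
  -- the set of translations occurring in `L`
  obtain ⟨B, hB⟩ : ∃ B : Fin 4 → Prop, B = fun b => ∃ x ∈ L, ∃ d : Fin 4 → F,
      (∀ j, d j ≠ 0) ∧ x.1 = mono (tr b) d := ⟨_, rfl⟩
  have hE : ∀ a b : Fin 4, B b → chiZ a b = -1 →
      monoU 1 (fun j => (-i) * chi a j) (fun j => mul_ne_zero hni0 (chi_ne_zero a j)) ∈ L := by
    intro a b hBb hab
    rw [hB] at hBb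
    obtain ⟨x, hxL, d, hd, hx⟩ := hBb
    exact hF1 b a x d hxL hd hx hab _ rfl
  have hstep : ∀ a b : Fin 4, B b → chiZ a b = -1 → B a := by
    intro a b hBb hab
    have h1 := hE a b hBb hab
    have h2' := hF2 a (-i) _ h1 rfl (monoU (tr a) (fun _ => -i) (fun _ => hni0)) rfl
    rw [hB]
    exact ⟨_, h2', fun _ => -i, fun _ => hni0, rfl⟩
  -- a first element
  obtain ⟨x, hxL, hxs⟩ := SetLike.not_le_iff_exists.mp hns
  obtain ⟨a, b, c, hc4, hxv⟩ := su4q3c_nf h2 (hL hxL)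
  have hc0 : c ≠ 0 := by
    rintro rfl
    simp at hc4
  have hB0 : ∃ b₀ : Fin 4, b₀ ≠ 0 ∧ B b₀ := by
    by_cases hb : b = 0
    · subst hb
      have ha : a ≠ 0 := by
        rintro rfl
        apply hxs
        rw [mem_scalars_iff]
        refine ⟨Units.mk0 c hc0, ?_⟩
        rw [hxv, tr_zero, Units.val_mk0, ← mono_one, mono_smul]
        congr 1
        funext j
        rw [chi_zero]
      rw [tr_zero] at hxv
      have h1 := hF2 a c x hxL hxv (monoU (tr a) (fun _ => c) (fun _ => hc0)) rfl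
      refine ⟨a, ha, ?_⟩
      rw [hB]
      exact ⟨_, h1, fun _ => c, fun _ => hc0, rfl⟩
    · refine ⟨b, hb, ?_⟩
      rw [hB]
      exact ⟨x, hxL, _, fun j => mul_ne_zero hc0 (chi_ne_zero a j), hxv⟩
  have hB123 : B 1 ∧ B 2 ∧ B 3 := by
    obtain ⟨b₀, hb₀, hBb₀⟩ := hB0
    fin_cases b₀
    · exact absurd rfl hb₀
    · have h1 : B 1 := hBb₀
      have h3 : B 3 := hstep 3 1 h1 (by decide)
      have h2' : B 2 := hstep 2 3 h3 (by decide)
      exact ⟨h1, h2', h3⟩
    · have h2' : B 2 := hBb₀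
      have h3 : B 3 := hstep 3 2 h2' (by decide)
      have h1 : B 1 := hstep 1 3 h3 (by decide)
      exact ⟨h1, h2', h3⟩
    · have h3 : B 3 := hBb₀
      have h1 : B 1 := hstep 1 3 h3 (by decide)
      have h2' : B 2 := hstep 2 3 h3 (by decide)
      exact ⟨h1, h2', h3⟩
  obtain ⟨hB1, hB2, hB3⟩ := hB123
  have hE1 := hE 1 1 hB1 (by decide)
  have hE2 := hE 2 2 hB2 (by decide)
  have hE3 := hE 3 1 hB1 (by decide)
  -- the scalar `i`
  have hI : monoU 1 (fun _ : Fin 4 => i) (fun _ => hi0) ∈ L := by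
    have h := L.mul_mem (L.mul_mem hE1 hE2) hE3
    have e : monoU 1 (fun _ : Fin 4 => i) (fun _ => hi0) =
        monoU 1 (fun j => (-i) * chi 1 j) (fun j => mul_ne_zero hni0 (chi_ne_zero 1 j)) *
        monoU 1 (fun j => (-i) * chi 2 j) (fun j => mul_ne_zero hni0 (chi_ne_zero 2 j)) *
        monoU 1 (fun j => (-i) * chi 3 j) (fun j => mul_ne_zero hni0 (chi_ne_zero 3 j)) := by
      apply Units.ext
      rw [Units.val_mul, Units.val_mul, monoU_val, monoU_val, monoU_val, monoU_val, mono_mul,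
        mono_mul]
      congr 1
      funext j
      simp only [Equiv.Perm.coe_one, id_eq]
      have h3 : (chi 1 j : F) * chi 2 j * chi 3 j = 1 := by
        unfold chi
        rw [← Int.cast_mul, ← Int.cast_mul, su4q3c_chiZ_prod3, Int.cast_one]
      linear_combination i ^ 3 * h3 + i * hi
    rw [e]
    exact h
  -- the diagonal elements
  have hD : ∀ a : Fin 4, monoU 1 (fun j => (1 : F) * chi a j) (AI_hc a) ∈ L := by
    have key : ∀ a b : Fin 4, B b → chiZ a b = -1 →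
        monoU 1 (fun j => (1 : F) * chi a j) (AI_hc a) ∈ L := by
      intro a b hBb hab
      have h := L.mul_mem hI (hE a b hBb hab)
      have e : monoU 1 (fun j => (1 : F) * chi a j) (AI_hc a) =
          monoU 1 (fun _ : Fin 4 => i) (fun _ => hi0) *
          monoU 1 (fun j => (-i) * chi a j) (fun j => mul_ne_zero hni0 (chi_ne_zero a j)) := by
        apply Units.ext
        rw [Units.val_mul, monoU_val, monoU_val, monoU_val, mono_mul]
        congr 1
        funext j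
        linear_combination (chi a j : F) * hi
      rw [e]
      exact h
    intro a
    fin_cases a
    · have e : monoU 1 (fun j => (1 : F) * chi (0 : Fin 4) j) (AI_hc 0) = 1 := by
        apply Units.ext
        rw [monoU_val, Units.val_one, ← mono_one]
        congr 1
        funext j
        rw [chi_zero, mul_one]
      show monoU 1 (fun j => (1 : F) * chi (0 : Fin 4) j) (AI_hc 0) ∈ L
      rw [e]
      exact L.one_mem
    · exact key 1 1 hB1 (by decide)
    · exact key 2 2 hB2 (by decide)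
    · exact key 3 1 hB1 (by decide)
  -- the translations
  have hP : ∀ b : Fin 4, monoU (tr b) (fun _ => (1 : F)) (fun _ => one_ne_zero) ∈ L :=
    fun b => hF2 b 1 _ (hD b) rfl _ rfl
  -- the scalars
  have hS : ∀ c : F, c ^ 4 = 1 → ∀ hc : c ≠ 0, monoU 1 (fun _ : Fin 4 => c) (fun _ => hc) ∈ L := by
    intro c hc4 hc
    have hfac : (c - 1) * (c + 1) * ((c - i) * (c + i)) = 0 := by
      linear_combination hc4 - (c ^ 2 - 1) * hi
    have hII : monoU 1 (fun _ : Fin 4 => i) (fun _ => hi0) *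
        monoU 1 (fun _ : Fin 4 => i) (fun _ => hi0) ∈ L := L.mul_mem hI hI
    rcases mul_eq_zero.mp hfac with h | h
    · rcases mul_eq_zero.mp h with h | h
      · have e : monoU 1 (fun _ : Fin 4 => c) (fun _ => hc) = 1 := by
          apply Units.ext
          rw [monoU_val, Units.val_one, ← mono_one]
          congr 1
          funext j
          linear_combination h
        rw [e]
        exact L.one_mem
      · have e : monoU 1 (fun _ : Fin 4 => c) (fun _ => hc) =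
            monoU 1 (fun _ : Fin 4 => i) (fun _ => hi0) *
            monoU 1 (fun _ : Fin 4 => i) (fun _ => hi0) := by
          apply Units.ext
          rw [Units.val_mul, monoU_val, monoU_val, mono_mul]
          congr 1
          funext j
          linear_combination h - hi
        rw [e]
        exact hII
    · rcases mul_eq_zero.mp h with h | h
      · have e : monoU 1 (fun _ : Fin 4 => c) (fun _ => hc) =
            monoU 1 (fun _ : Fin 4 => i) (fun _ => hi0) := by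
          apply Units.ext
          rw [monoU_val, monoU_val]
          congr 1
          funext j
          linear_combination h
        rw [e]
        exact hI
      · have e : monoU 1 (fun _ : Fin 4 => c) (fun _ => hc) =
            monoU 1 (fun _ : Fin 4 => i) (fun _ => hi0) *
            monoU 1 (fun _ : Fin 4 => i) (fun _ => hi0) *
            monoU 1 (fun _ : Fin 4 => i) (fun _ => hi0) := by
          apply Units.ext
          rw [Units.val_mul, Units.val_mul, monoU_val, monoU_val, mono_mul, mono_mul]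
          congr 1
          funext j
          linear_combination h - i * hi
        rw [e]
        exact L.mul_mem hII hI
  -- conclusion
  apply le_antisymm hL
  intro y hy
  obtain ⟨a', b', c', hc'4, hyv⟩ := su4q3c_nf h2 hy
  have hc'0 : c' ≠ 0 := by
    rintro rfl
    simp at hc'4
  have h := L.mul_mem (L.mul_mem (hS c' hc'4 hc'0) (hP b')) (hD a')
  have e : y = monoU 1 (fun _ : Fin 4 => c') (fun _ => hc'0) *
      monoU (tr b') (fun _ => (1 : F)) (fun _ => one_ne_zero) *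
      monoU 1 (fun j => (1 : F) * chi a' j) (AI_hc a') := by
    apply Units.ext
    rw [Units.val_mul, Units.val_mul, monoU_val, monoU_val, monoU_val, mono_mul, mono_mul, hyv]
    congr 1
    funext j
    ring
  rw [e]
  exact h

omit [Fintype F] in
theorem su4q3c_abs (h2 : (2 : F) ≠ 0) :
    ActsAbsolutelyIrreducibly (matrixSet (R0 F ⊓ Cfsg.GU 4 F 3)) := by
  have key : ∀ s ∈ matrixSet (R0 F), ∃ c : F, ∃ s' ∈ matrixSet (R0 F ⊓ Cfsg.GU 4 F 3),
      s = c • s' := by
    rintro _ ⟨g, hg, rfl⟩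
    obtain ⟨a, b, c, hc, hx⟩ := exists_nf h2 hg
    refine ⟨c, mono (tr b) (fun j => (1 : F) * chi a j),
      ⟨monoU (tr b) (fun j => (1 : F) * chi a j) (AI_hc a),
        su4q3c_mem _ a b 1 (one_pow 4) rfl, rfl⟩, ?_⟩
    show g.1 = _
    rw [hx, mono_smul]
    congr 1
    funext j
    ring
  obtain ⟨hirr, hcomm⟩ := AI (F := F) h2
  constructor
  · intro W hW
    apply hirr W
    intro s hs
    obtain ⟨c, s', hs', rfl⟩ := key s hs
    rintro _ ⟨v, hv, rfl⟩
    have h1 := hW s' hs' (Submodule.mem_map_of_mem hv)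
    rw [Matrix.toLin'_apply] at h1 ⊢
    rw [Matrix.smul_mulVec]
    exact W.smul_mem c h1
  · intro M hM
    apply hcomm M
    intro s hs
    obtain ⟨c, s', hs', rfl⟩ := key s hs
    rw [Matrix.mul_smul, Matrix.smul_mul, hM s' hs']

omit [Fintype F] in
theorem su4q3c_comm (h2 : (2 : F) ≠ 0) :
    ⁅R0 F ⊓ Cfsg.GU 4 F 3, R0 F ⊓ Cfsg.GU 4 F 3⁆ ≤ scalars (Fin 4) F := by
  rw [Subgroup.commutator_le]
  intro x hx y hy
  have h := COMM h2 ⟨x, hx.1⟩ ⟨y, hy.1⟩
  have h' := (CENTa h2 _).1 h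
  rw [commutatorElement_def]
  exact h'

omit [Fintype F] in
theorem su4q3c_scalar_conj (P z : GL (Fin 4) F) (hz : z ∈ scalars (Fin 4) F) :
    P * z * P⁻¹ = z := by
  rw [mem_scalars_iff] at hz
  obtain ⟨c, hc⟩ := hz
  apply Units.ext
  rw [Units.val_mul, Units.val_mul, hc, Matrix.mul_smul, Matrix.smul_mul, Matrix.mul_one,
    ← Units.val_mul, mul_inv_cancel, Units.val_one]

omit [Fintype F] in
theorem su4q3c_conj_norm (Rs : Subgroup (GL (Fin 4) F)) (P m : GL (Fin 4) F)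
    (hm : m ∈ Subgroup.normalizer (Rs : Set (GL (Fin 4) F))) :
    P * m * P⁻¹ ∈ Subgroup.normalizer
      ((Rs.map (MulAut.conj P).toMonoidHom : Subgroup (GL (Fin 4) F)) : Set (GL (Fin 4) F)) := by
  rw [← Subgroup.map_equiv_normalizer_eq]
  exact ⟨m, hm, rfl⟩

theorem su4q3c_symT (hF : Fintype.card F = 9) (P : GL (Fin 4) F) :
    SymT (subgroupNormalizer ((R0 F ⊓ Cfsg.GU 4 F 3).map (MulAut.conj P).toMonoidHom))
      ((R0 F ⊓ Cfsg.GU 4 F 3).map (MulAut.conj P).toMonoidHom) := by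
  have h2 := su4q3c_two hF
  have habs : ActsAbsolutelyIrreducibly
      (matrixSet ((R0 F ⊓ Cfsg.GU 4 F 3).map (MulAut.conj P).toMonoidHom)) :=
    T1b (R0 F ⊓ Cfsg.GU 4 F 3) P (su4q3c_abs h2)
  refine ⟨⟨?_, ?_, ?_, ?_⟩, habs, ?_⟩
  · exact Subgroup.le_normalizer
  · intro h hh x hx
    exact (Subgroup.mem_normalizer_iff.mp hh x).mp hx
  · intro hle
    obtain ⟨c, hc⟩ := habs.2 (Matrix.single 0 1 1) (by
      rintro _ ⟨g, hg, rfl⟩
      obtain ⟨u, hu⟩ := (mem_scalars_iff g).1 (hle hg)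
      show _ * g.1 = g.1 * _
      rw [hu, Matrix.mul_smul, Matrix.smul_mul, Matrix.mul_one, Matrix.one_mul])
    have h01 := congrFun (congrFun hc 0) 1
    rw [Matrix.single_apply_same, Matrix.smul_apply, Matrix.one_apply_ne (by decide),
      smul_zero] at h01
    exact one_ne_zero h01
  · intro L' hL' hnL'
    by_cases hs : L' ≤ scalars (Fin 4) F
    · left
      exact hs
    · right
      have h1 : L'.comap (MulAut.conj P).toMonoidHom ≤ R0 F ⊓ Cfsg.GU 4 F 3 := by
        intro x hx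
        have hx' : P * x * P⁻¹ ∈ L' := hx
        obtain ⟨y, hy, hyx⟩ := hL' hx'
        have hyx' : P * y * P⁻¹ = P * x * P⁻¹ := hyx
        have : y = x := mul_left_cancel (mul_right_cancel hyx')
        rw [← this]
        exact hy
      have h2' : ∀ h ∈ Subgroup.normalizer
          ((R0 F ⊓ Cfsg.GU 4 F 3 : Subgroup (GL (Fin 4) F)) : Set (GL (Fin 4) F)),
          ∀ x ∈ L'.comap (MulAut.conj P).toMonoidHom,
            h * x * h⁻¹ ∈ L'.comap (MulAut.conj P).toMonoidHom := by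
        intro m hm x hx
        show P * (m * x * m⁻¹) * P⁻¹ ∈ L'
        have hx' : P * x * P⁻¹ ∈ L' := hx
        have h3 := hnL' (P * m * P⁻¹) (su4q3c_conj_norm _ P m hm) (P * x * P⁻¹) hx'
        have e : P * (m * x * m⁻¹) * P⁻¹ = P * m * P⁻¹ * (P * x * P⁻¹) * (P * m * P⁻¹)⁻¹ := by
          group
        rw [e]
        exact h3
      have h3 : ¬ L'.comap (MulAut.conj P).toMonoidHom ≤ scalars (Fin 4) F := by
        intro hle
        apply hs
        intro y hy
        have hy1 : P⁻¹ * y * P ∈ L'.comap (MulAut.conj P).toMonoidHom := by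
          show P * (P⁻¹ * y * P) * P⁻¹ ∈ L'
          have e : P * (P⁻¹ * y * P) * P⁻¹ = y := by group
          rw [e]
          exact hy
        have h4 := su4q3c_scalar_conj P _ (hle hy1)
        have e : P * (P⁻¹ * y * P) * P⁻¹ = y := by group
        rw [e] at h4
        rw [h4]
        exact hle hy1
      have h4 := su4q3c_min hF _ h1 h2' h3
      apply le_antisymm hL'
      rintro _ ⟨x, hx, rfl⟩
      have hx' : x ∈ L'.comap (MulAut.conj P).toMonoidHom := by
        rw [h4]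
        exact hx
      exact hx'
  · rw [← Subgroup.map_commutator]
    rintro _ ⟨z, hz, rfl⟩
    have hz' := su4q3c_comm h2 hz
    show P * z * P⁻¹ ∈ scalars (Fin 4) F
    rw [su4q3c_scalar_conj P z hz']
    exact hz'

omit [Fintype F] in
theorem su4q3c_mat_ext (A B : Matrix (Fin 4) (Fin 4) F)
    (h : ∀ j : Fin 4, A *ᵥ Pi.single j 1 = B *ᵥ Pi.single j 1) : A = B := by
  ext r j
  have h1 := congrFun (h j) r
  simpa [Matrix.mulVec, dotProduct, Pi.single_apply] using h1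

theorem su4q3c_frame (hF : Fintype.card F = 9) (D : Fin 4 → Submodule F (Fin 4 → F))
    (hD : IsNondegenerateMDecomposition (Cfsg.hermForm 4 F 3) 1 D) :
    ∃ P : GL (Fin 4) F, P ∈ Cfsg.GU 4 F 3 ∧
      ∀ j, D j = Submodule.span F {P.1 *ᵥ Pi.single j 1} := by
  classical
  have hF' : Fintype.card F = 3 ^ 2 := by rw [hF]; norm_num
  have hex : ∀ j, ∃ d : Fin 4 → F, D j = Submodule.span F {d} ∧
      Cfsg.hermForm 4 F 3 d d = 1 := by
    intro j
    have hfr := hD.decomp.finrank_eq j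
    obtain ⟨v, hv0, hv⟩ := finrank_eq_one_iff'.mp hfr
    have hspan : D j = Submodule.span F {(v : Fin 4 → F)} := by
      apply le_antisymm
      · intro w hw
        obtain ⟨c, hc⟩ := hv ⟨w, hw⟩
        rw [Submodule.mem_span_singleton]
        exact ⟨c, congrArg Subtype.val hc⟩
      · rw [Submodule.span_singleton_le_iff_mem]
        exact v.2
    have hv0' : (v : Fin 4 → F) ≠ 0 := fun h => hv0 (Subtype.ext h)
    obtain ⟨⟨x, hxD, hx⟩, -⟩ := hD.nondegenerate j v v.2 hv0'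
    rw [hspan, Submodule.mem_span_singleton] at hxD
    obtain ⟨a, rfl⟩ := hxD
    have hsm : ∀ (t : F) (u w : Fin 4 → F),
        Cfsg.hermForm 4 F 3 (t • u) w = t * Cfsg.hermForm 4 F 3 u w := by
      intro t u w
      unfold Cfsg.hermForm
      rw [Finset.mul_sum]
      apply Finset.sum_congr rfl
      intro r _
      simp only [Pi.smul_apply, smul_eq_mul]
      ring
    rw [hsm] at hx
    have hc0 : Cfsg.hermForm 4 F 3 v v ≠ 0 := fun h => hx (by rw [h, mul_zero])
    have hcq := Cfsg.Agent.Lib.Helper18.hf_self_pow hF' 4 (v : Fin 4 → F)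
    obtain ⟨t, ht⟩ := Cfsg.Agent.Lib.Helper18.exists_norm_eq hF'
      (Cfsg.hermForm 4 F 3 v v)⁻¹ (by rw [inv_pow, hcq])
    have ht0 : t ≠ 0 := by
      rintro rfl
      rw [zero_pow (by norm_num)] at ht
      exact inv_ne_zero hc0 ht.symm
    refine ⟨t • (v : Fin 4 → F), ?_, ?_⟩
    · refine hspan.trans ?_
      exact (Submodule.span_singleton_smul_eq (IsUnit.mk0 t ht0) _).symm
    · have e : Cfsg.hermForm 4 F 3 (t • (v : Fin 4 → F)) (t • (v : Fin 4 → F)) =
          t ^ (3 + 1) * Cfsg.hermForm 4 F 3 v v := by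
        unfold Cfsg.hermForm
        rw [Finset.mul_sum]
        apply Finset.sum_congr rfl
        intro r _
        simp only [Pi.smul_apply, smul_eq_mul]
        ring
      rw [e, ht, inv_mul_cancel₀ hc0]
  choose d hdspan hdn using hex
  have hdmem : ∀ j, d j ∈ D j := by
    intro j
    rw [hdspan j]
    exact Submodule.mem_span_singleton_self _
  have hgram : ∀ j k, Cfsg.hermForm 4 F 3 (d j) (d k) = if j = k then 1 else 0 := by
    intro j k
    by_cases hjk : j = k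
    · subst hjk
      rw [if_pos rfl, hdn]
    · rw [if_neg hjk]
      exact hD.orthogonal j k hjk (d j) (hdmem j) (d k) (hdmem k)
  obtain ⟨Pm, hPm⟩ : ∃ Pm : Matrix (Fin 4) (Fin 4) F, Pm = Matrix.of (fun r j => d j r) :=
    ⟨_, rfl⟩
  have hadj : Cfsg.Agent.Lib.Helper71.SUP.adj 3 Pm * Pm = 1 := by
    ext j k
    rw [Matrix.mul_apply, Matrix.one_apply]
    have h1 := hgram k j
    unfold Cfsg.hermForm at h1
    have e : ∀ r : Fin 4, Cfsg.Agent.Lib.Helper71.SUP.adj 3 Pm j r * Pm r k =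
        d k r * d j r ^ 3 := by
      intro r
      rw [Cfsg.Agent.Lib.Helper71.SUP.adj_apply, hPm, Matrix.of_apply, Matrix.of_apply, mul_comm]
    rw [Finset.sum_congr rfl (fun r _ => e r), h1]
    by_cases hjk : j = k
    · simp [hjk]
    · simp [hjk, Ne.symm hjk]
  obtain ⟨P, hP⟩ : ∃ P : GL (Fin 4) F, P.1 = Pm :=
    ⟨⟨Pm, Cfsg.Agent.Lib.Helper71.SUP.adj 3 Pm, mul_eq_one_comm.mpr hadj, hadj⟩, rfl⟩
  refine ⟨P, ?_, ?_⟩
  · rw [Cfsg.Agent.Lib.Helper71.SUP.mem_GU_iff_adj hF', hP]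
    exact hadj
  · intro j
    have e : P.1 *ᵥ Pi.single j 1 = d j := by
      funext r
      rw [hP, hPm]
      simp [Matrix.mulVec, dotProduct, Pi.single_apply]
    rw [e]
    exact hdspan j

/-- Q3MON -/
theorem Q3MON (hF : Fintype.card F = q ^ 2) (hq : q = 3) (D : Fin 4 → Submodule F (Fin 4 → F))
    (hD : IsNondegenerateMDecomposition (Cfsg.hermForm 4 F q) 1 D) :
    ∃ K R : Subgroup (GL (Fin 4) F), SymT K R ∧ R ≤ Cfsg.GU 4 F q ∧
      Nat.card ↥(R ⊓ scalars (Fin 4) F) ≠ 2 ∧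
      (¬ ∃ F₁ : Subfield F, F₁ ≠ ⊤ ∧ RealisableOver F₁ (matrixSet R)) ∧
      decompositionStabilizer D ⊓ (Cfsg.GU 4 F q ⊓ specialLinear (Fin 4) F) ≤
        subgroupNormalizer R := by
  classical
  subst hq
  have hF9 : Fintype.card F = 9 := by rw [hF]; norm_num
  have h2 := su4q3c_two hF9
  obtain ⟨i, hi⟩ := su4q3c_exists_i hF9
  have hi0 : i ≠ 0 := by
    rintro rfl
    simp at hi
  have hi4 : i ^ 4 = 1 := by linear_combination (i * i - 1) * hi
  obtain ⟨P, hPU, hPD⟩ := su4q3c_frame hF9 D hD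
  -- the scalar `i` as an element of `R`
  have hsi : monoU 1 (fun _ : Fin 4 => i) (fun _ => hi0) ∈
      (R0 F ⊓ Cfsg.GU 4 F 3).map (MulAut.conj P).toMonoidHom ⊓ scalars (Fin 4) F := by
    have hval : (monoU 1 (fun _ : Fin 4 => i) (fun _ => hi0)).1 =
        i • (1 : Matrix (Fin 4) (Fin 4) F) := by
      rw [monoU_val, ← mono_one, mono_smul]
      congr 1
      funext j
      rw [mul_one]
    have hs : monoU 1 (fun _ : Fin 4 => i) (fun _ => hi0) ∈ scalars (Fin 4) F := by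
      rw [mem_scalars_iff]
      exact ⟨Units.mk0 i hi0, hval⟩
    have hr : monoU 1 (fun _ : Fin 4 => i) (fun _ => hi0) ∈ R0 F ⊓ Cfsg.GU 4 F 3 := by
      refine su4q3c_mem _ 0 0 i hi4 ?_
      rw [monoU_val, tr_zero]
      congr 1
      funext j
      rw [chi_zero, mul_one]
    refine ⟨⟨_, hr, ?_⟩, hs⟩
    exact su4q3c_scalar_conj P _ hs
  refine ⟨subgroupNormalizer ((R0 F ⊓ Cfsg.GU 4 F 3).map (MulAut.conj P).toMonoidHom),
    (R0 F ⊓ Cfsg.GU 4 F 3).map (MulAut.conj P).toMonoidHom, su4q3c_symT hF9 P, ?_, ?_, ?_, ?_⟩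
  · rintro _ ⟨x, hx, rfl⟩
    show P * x * P⁻¹ ∈ Cfsg.GU 4 F 3
    exact (Cfsg.GU 4 F 3).mul_mem ((Cfsg.GU 4 F 3).mul_mem hPU hx.2) ((Cfsg.GU 4 F 3).inv_mem hPU)
  · intro hcard
    obtain ⟨x, hx⟩ : ∃ x : ↥((R0 F ⊓ Cfsg.GU 4 F 3).map (MulAut.conj P).toMonoidHom ⊓
        scalars (Fin 4) F), x = ⟨_, hsi⟩ := ⟨_, rfl⟩
    have hx4 : x ^ 2 ^ (1 + 1) = 1 := by
      apply Subtype.ext
      rw [hx]
      apply Units.ext
      show ((monoU 1 (fun _ : Fin 4 => i) (fun _ => hi0)) ^ 2 ^ (1 + 1)).1 = 1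
      have e : (monoU 1 (fun _ : Fin 4 => i) (fun _ => hi0)) ^ 2 ^ (1 + 1) =
          monoU 1 (fun _ : Fin 4 => i) (fun _ => hi0) * monoU 1 (fun _ : Fin 4 => i) (fun _ => hi0) *
          (monoU 1 (fun _ : Fin 4 => i) (fun _ => hi0) *
            monoU 1 (fun _ : Fin 4 => i) (fun _ => hi0)) := by
        rw [show (2 : ℕ) ^ (1 + 1) = 4 by norm_num]
        simp [pow_succ, mul_assoc]
      rw [e, Units.val_mul, Units.val_mul, monoU_val, mono_mul, mono_mul, ← mono_one]
      congr 1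
      funext j
      linear_combination (i * i - 1) * hi
    have hx2 : ¬ x ^ 2 ^ 1 = 1 := by
      intro h
      rw [hx] at h
      have h' := congrArg (fun y : ↥((R0 F ⊓ Cfsg.GU 4 F 3).map (MulAut.conj P).toMonoidHom ⊓
        scalars (Fin 4) F) => ((y : GL (Fin 4) F).1 : Matrix (Fin 4) (Fin 4) F) 0 0) h
      simp only [pow_one] at h'
      have e : ((monoU 1 (fun _ : Fin 4 => i) (fun _ => hi0)) ^ 2).1 =
          mono 1 (fun _ : Fin 4 => i * i) := by
        rw [pow_two, Units.val_mul, monoU_val, mono_mul]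
        congr 1
      have h'' : (mono 1 (fun _ : Fin 4 => i * i) : Matrix (Fin 4) (Fin 4) F) 0 0 = 1 := by
        rw [← e]
        exact h'
      rw [mono_apply] at h''
      simp only [Equiv.Perm.coe_one, id_eq, if_true] at h''
      apply h2
      linear_combination hi - h''
    have hord := orderOf_eq_prime_pow hx2 hx4
    have hdvd := orderOf_dvd_natCard x
    rw [hord, hcard] at hdvd
    norm_num at hdvd
  · rintro ⟨F₁, hne, B, hB⟩
    have hmem := hB (monoU 1 (fun _ : Fin 4 => i) (fun _ => hi0)).1 ⟨_, hsi.1, rfl⟩ 0 0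
    have hval : (monoU 1 (fun _ : Fin 4 => i) (fun _ => hi0)).1 =
        i • (1 : Matrix (Fin 4) (Fin 4) F) := by
      rw [monoU_val, ← mono_one, mono_smul]
      congr 1
      funext j
      rw [mul_one]
    rw [hval, Matrix.mul_smul, Matrix.smul_mul, Matrix.mul_one, ← Units.val_mul, mul_inv_cancel,
      Units.val_one, Matrix.smul_apply, Matrix.one_apply_eq, smul_eq_mul, mul_one] at hmem
    -- `i ∈ F₁`
    apply hne
    haveI : Fintype ↥F₁ := Fintype.ofFinite _
    have hdvd : Nat.card ↥F₁ ∣ Nat.card F :=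
      AddSubgroup.card_addSubgroup_dvd_card F₁.toSubring.toAddSubgroup
    rw [Nat.card_eq_fintype_card, Nat.card_eq_fintype_card, hF9] at hdvd
    have h9 : (9 : ℕ) = 3 ^ 2 := by norm_num
    rw [h9] at hdvd
    obtain ⟨m, hm, hcard⟩ := (Nat.dvd_prime_pow Nat.prime_three).1 hdvd
    have hcases : m = 0 ∨ m = 1 ∨ m = 2 := by omega
    rcases hcases with rfl | rfl | rfl
    · exfalso
      have := Fintype.one_lt_card (α := ↥F₁)
      rw [hcard] at this
      norm_num at this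
    · exfalso
      have h3 := FiniteField.pow_card (⟨i, hmem⟩ : ↥F₁)
      rw [hcard] at h3
      have h3' : i ^ 3 = i := by
        have := congrArg (fun y : ↥F₁ => (y : F)) h3
        simpa using this
      have hii : i * (i * i - 1) = 0 := by linear_combination h3'
      rcases mul_eq_zero.mp hii with h | h
      · exact hi0 h
      · apply h2
        linear_combination hi - h
    · rw [eq_top_iff]
      intro y _
      have hinj : Function.Injective (fun y : ↥F₁ => (y : F)) := Subtype.val_injective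
      have hbij := (Fintype.bijective_iff_injective_and_card _).2 ⟨hinj, by rw [hcard, hF9]; norm_num⟩
      obtain ⟨z, hz⟩ := hbij.2 y
      rw [← hz]
      exact z.2
  · rintro g ⟨hgD, hgU, hgS⟩
    obtain ⟨σ, hσ⟩ := hgD
    have hdj : ∀ j, ∃ c : F, c • (P.1 *ᵥ Pi.single (σ j) 1) = g.1 *ᵥ (P.1 *ᵥ Pi.single j 1) := by
      intro j
      have h1 : g.1 *ᵥ (P.1 *ᵥ Pi.single j 1) ∈ D (σ j) := by
        rw [← hσ j]
        refine ⟨P.1 *ᵥ Pi.single j 1, ?_, ?_⟩
        · show P.1 *ᵥ Pi.single j 1 ∈ D j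
          rw [hPD j]
          exact Submodule.mem_span_singleton_self _
        · rw [Matrix.toLin'_apply]
      rw [hPD (σ j), Submodule.mem_span_singleton] at h1
      exact h1
    choose c hc using hdj
    have hgP : g.1 * P.1 = P.1 * mono σ c := by
      apply su4q3c_mat_ext
      intro j
      rw [← Matrix.mulVec_mulVec, ← Matrix.mulVec_mulVec, ← hc j, mono_mulVec_single,
        Matrix.mulVec_smul]
    have hm : (P⁻¹ * g * P).1 = mono σ c := by
      rw [Units.val_mul, Units.val_mul, Matrix.mul_assoc, hgP, ← Matrix.mul_assoc, ← Units.val_mul,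
        inv_mul_cancel, Units.val_one, Matrix.one_mul]
    have hmU : P⁻¹ * g * P ∈ Cfsg.GU 4 F 3 :=
      (Cfsg.GU 4 F 3).mul_mem ((Cfsg.GU 4 F 3).mul_mem ((Cfsg.GU 4 F 3).inv_mem hPU) hgU) hPU
    have hc4 : ∀ j, c j ^ 4 = 1 := su4q3c_GU_mono σ c _ hm hmU
    have hdet : g.1.det = 1 := by
      have h := (MonoidHom.mem_ker).mp hgS
      have h' := congrArg (fun u : Fˣ => (u : F)) h
      simpa using h'
    have hprod : (∏ j, c j) ^ 2 = 1 := by
      rw [← det_mono_sq σ c]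
      have h1 : (mono σ c).det = 1 := by
        rw [← hm, Units.val_mul, Units.val_mul, Matrix.det_mul, Matrix.det_mul, hdet, mul_one,
          ← Matrix.det_mul, ← Units.val_mul, inv_mul_cancel, Units.val_one, Matrix.det_one]
      rw [h1, one_pow]
    have hN := su4q3c_norm_mono h2 (P⁻¹ * g * P) σ c hc4 hm hprod
    have h3 := su4q3c_conj_norm (R0 F ⊓ Cfsg.GU 4 F 3) P _ hN
    have e : P * (P⁻¹ * g * P) * P⁻¹ = g := by group
    rw [e] at h3
    exact h3

end Cfsg.Agent.Lib.Helper79.SU4Q3MON
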