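import Mathlib
import Cfsg.Prelude.Def_GeometricClasses
import Cfsg.Agent.Lib.Helper71.SLP0

/-! SLP piece FR2 (helper71's project S5793/S5808/S5853; proved by helper79). -/

set_option autoImplicit false

namespace Cfsg.Agent.Lib.Helper79.SLPFR2

open Matrix Cfsg.Geo Cfsg.Agent.Lib.Helper71.SLP

variable {n : ℕ} {F : Type*} [Field F] [Fintype F]

/-- FR2 -/
theorem FR2 (hn : 2 ≤ n) (hq : Fintype.card F = 2) (P : GL (Fin n) F)
    (G : Subgroup (GL (Fin n) F))
    (hG : ∀ g ∈ G, ∃ (σ : Equiv.Perm (Fin n)) (c : Fin n → F), (∀ j, c j ≠ 0) ∧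
      (P⁻¹ : GL (Fin n) F).1 * g.1 * P.1 = Matrix.of fun i j => if i = σ j then c j else 0) :
    ∃ W : Submodule F (Fin n → F), W ≠ ⊥ ∧ W ≠ ⊤ ∧ G ≤ subspaceStabilizer W := by
  classical
  have hone : ∀ c : F, c ≠ 0 → c = 1 := by
    intro c hc
    have h := FiniteField.pow_card_sub_one_eq_one c hc
    rw [hq] at h
    simpa using h
  haveI : NeZero n := ⟨by omega⟩
  have hPinv : (P⁻¹ : GL (Fin n) F).1 * P.1 = 1 := Units.inv_mul P
  have hPinv' : P.1 * (P⁻¹ : GL (Fin n) F).1 = 1 := Units.mul_inv P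
  have hs0 : P.1 *ᵥ (fun _ => (1 : F)) ≠ 0 := by
    intro h0
    have h1 : (P⁻¹ : GL (Fin n) F).1 *ᵥ (P.1 *ᵥ (fun _ => (1 : F))) = fun _ => (1 : F) := by
      rw [Matrix.mulVec_mulVec, hPinv, Matrix.one_mulVec]
    rw [h0, Matrix.mulVec_zero] at h1
    have h2 := congrFun h1 0
    simp at h2
  have hgs : ∀ g ∈ G, g.1 *ᵥ (P.1 *ᵥ (fun _ => (1 : F))) = P.1 *ᵥ (fun _ => (1 : F)) := by
    intro g hg
    obtain ⟨σ, c, hc, hM⟩ := hG g hg
    have h1 : g.1 * P.1 = P.1 * (Matrix.of fun i j => if i = σ j then c j else 0) := by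
      rw [← hM, ← mul_assoc, ← mul_assoc, hPinv', one_mul]
    have h2 : (Matrix.of fun i j => if i = σ j then c j else 0 : Matrix (Fin n) (Fin n) F) *ᵥ
        (fun _ => (1 : F)) = fun _ => 1 := by
      ext i
      simp only [Matrix.mulVec, dotProduct, Matrix.of_apply, mul_one]
      rw [Finset.sum_eq_single (σ.symm i)]
      · rw [if_pos (by simp)]
        exact hone _ (hc _)
      · intro j _ hj
        rw [if_neg]
        intro h
        apply hj
        rw [h]
        simp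
      · intro h
        exact absurd (Finset.mem_univ _) h
    rw [Matrix.mulVec_mulVec, h1, ← Matrix.mulVec_mulVec, h2]
  refine ⟨Submodule.span F {P.1 *ᵥ (fun _ => (1 : F))}, ?_, ?_, ?_⟩
  · rw [Ne, Submodule.span_singleton_eq_bot]
    exact hs0
  · intro htop
    have h1 : Module.finrank F (Submodule.span F {P.1 *ᵥ (fun _ => (1 : F))}) = 1 :=
      finrank_span_singleton hs0
    rw [htop, finrank_top, Module.finrank_fin_fun] at h1
    omega
  · intro g hg
    show ∀ v, v ∈ ((Submodule.span F {P.1 *ᵥ (fun _ => (1 : F))} :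
        Submodule F (Fin n → F)) : Set (Fin n → F)) ↔
      g.1 *ᵥ v ∈ ((Submodule.span F {P.1 *ᵥ (fun _ => (1 : F))} :
        Submodule F (Fin n → F)) : Set (Fin n → F))
    intro v
    simp only [SetLike.mem_coe, Submodule.mem_span_singleton]
    constructor
    · rintro ⟨a, rfl⟩
      exact ⟨a, by rw [Matrix.mulVec_smul, hgs g hg]⟩
    · rintro ⟨a, ha⟩
      refine ⟨a, ?_⟩
      have h1 : (g⁻¹ : GL (Fin n) F).1 *ᵥ (g.1 *ᵥ v) = v := by
        rw [Matrix.mulVec_mulVec, Units.inv_mul, Matrix.one_mulVec]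
      have h3 : g.1 *ᵥ (a • (P.1 *ᵥ (fun _ => (1 : F)))) = a • (P.1 *ᵥ (fun _ => (1 : F))) := by
        rw [Matrix.mulVec_smul, hgs g hg]
      have h4 := congrArg (fun w => (g⁻¹ : GL (Fin n) F).1 *ᵥ w) h3
      simp only [Matrix.mulVec_mulVec, Units.inv_mul, Matrix.one_mulVec] at h4
      rw [← h1, ← ha]
      exact h4

end Cfsg.Agent.Lib.Helper79.SLPFR2
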