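import Mathlib
import Cfsg.Prelude.Def_GeometricClasses
import Cfsg.Agent.Lib.Helper71.SLP0

/-! SLP piece FR3 (helper71's project S5793/S5808/S5853; proved by helper79). -/

set_option autoImplicit false

namespace Cfsg.Agent.Lib.Helper79.SLPFR3

open Matrix Cfsg.Geo Cfsg.Agent.Lib.Helper71.SLP

variable {n : ℕ} {F : Type*} [Field F] [Fintype F]

/-- FR3 -/
theorem FR3 (hq : Fintype.card F = 3) (P : GL (Fin n) F) (G : Subgroup (GL (Fin n) F))
    (hG : ∀ g ∈ G, ∃ (σ : Equiv.Perm (Fin n)) (c : Fin n → F), (∀ j, c j ≠ 0) ∧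
      (P⁻¹ : GL (Fin n) F).1 * g.1 * P.1 = Matrix.of fun i j => if i = σ j then c j else 0) :
    ∃ Q : (Fin n → F) → F, IsNondegenerateQuadraticForm Q ∧ G ≤ quadSimilarityGroup Q := by
  classical
  have hsq : ∀ c : F, c ≠ 0 → c ^ 2 = 1 := by
    intro c hc
    have h := FiniteField.pow_card_sub_one_eq_one c hc
    rw [hq] at h
    simpa using h
  have h3 : (3 : F) = 0 := by
    have h := Nat.cast_card_eq_zero F
    rw [hq] at h
    exact_mod_cast h
  have h2 : (2 : F) ≠ 0 := by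
    intro h
    have h1 : (1 : F) = 3 - 2 := by norm_num
    rw [h3, h, sub_zero] at h1
    exact one_ne_zero h1
  have hPinv : (P⁻¹ : GL (Fin n) F).1 * P.1 = 1 := Units.inv_mul P
  have hPinv' : P.1 * (P⁻¹ : GL (Fin n) F).1 = 1 := Units.mul_inv P
  have hpolar : ∀ u v : Fin n → F,
      QuadraticMap.polar (fun v : Fin n → F => ∑ i, (((P⁻¹ : GL (Fin n) F).1 *ᵥ v) i) ^ 2) u v =
        2 * ∑ i, ((P⁻¹ : GL (Fin n) F).1 *ᵥ u) i * ((P⁻¹ : GL (Fin n) F).1 *ᵥ v) i := by
    intro u v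
    simp only [QuadraticMap.polar, Matrix.mulVec_add, Pi.add_apply]
    rw [Finset.mul_sum, ← Finset.sum_sub_distrib, ← Finset.sum_sub_distrib]
    refine Finset.sum_congr rfl fun i _ => ?_
    ring
  refine ⟨fun v => ∑ i, (((P⁻¹ : GL (Fin n) F).1 *ᵥ v) i) ^ 2, ⟨?_, ?_, ?_⟩, ?_⟩
  · intro c v
    simp only [Matrix.mulVec_smul, Pi.smul_apply, smul_eq_mul]
    rw [Finset.mul_sum]
    refine Finset.sum_congr rfl fun i _ => ?_
    ring
  · refine ⟨?_, ?_, ?_, ?_⟩
    · intro x y v
      rw [hpolar, hpolar, hpolar]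
      simp only [Matrix.mulVec_add, Pi.add_apply]
      rw [← mul_add, ← Finset.sum_add_distrib]
      congr 1
      refine Finset.sum_congr rfl fun i _ => ?_
      ring
    · intro c x v
      rw [hpolar, hpolar]
      simp only [Matrix.mulVec_smul, Pi.smul_apply, smul_eq_mul]
      rw [Finset.mul_sum, Finset.mul_sum, Finset.mul_sum]
      refine Finset.sum_congr rfl fun i _ => ?_
      ring
    · intro v x y
      rw [hpolar, hpolar, hpolar]
      simp only [Matrix.mulVec_add, Pi.add_apply]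
      rw [← mul_add, ← Finset.sum_add_distrib]
      congr 1
      refine Finset.sum_congr rfl fun i _ => ?_
      ring
    · intro c v x
      rw [hpolar, hpolar]
      simp only [Matrix.mulVec_smul, Pi.smul_apply, smul_eq_mul]
      rw [Finset.mul_sum, Finset.mul_sum, Finset.mul_sum]
      refine Finset.sum_congr rfl fun i _ => ?_
      ring
  · intro v hv
    have hy : (P⁻¹ : GL (Fin n) F).1 *ᵥ v ≠ 0 := by
      intro h0
      apply hv
      have h1 : P.1 *ᵥ ((P⁻¹ : GL (Fin n) F).1 *ᵥ v) = v := by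
        rw [Matrix.mulVec_mulVec, hPinv', Matrix.one_mulVec]
      rw [← h1, h0, Matrix.mulVec_zero]
    obtain ⟨i, hi⟩ := Function.ne_iff.mp hy
    have hx : (P⁻¹ : GL (Fin n) F).1 *ᵥ (P.1 *ᵥ Pi.single i (1 : F)) = Pi.single i (1 : F) := by
      rw [Matrix.mulVec_mulVec, hPinv, Matrix.one_mulVec]
    have hi' : ((P⁻¹ : GL (Fin n) F).1 *ᵥ v) i ≠ 0 := hi
    constructor
    · refine ⟨P.1 *ᵥ Pi.single i (1 : F), ?_⟩
      rw [hpolar, hx]
      have h1 : ∑ j, (Pi.single i (1 : F) : Fin n → F) j * ((P⁻¹ : GL (Fin n) F).1 *ᵥ v) j =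
          ((P⁻¹ : GL (Fin n) F).1 *ᵥ v) i := by
        rw [Finset.sum_eq_single i]
        · simp
        · intro j _ hj
          simp [Pi.single_apply, hj]
        · intro h
          exact absurd (Finset.mem_univ _) h
      rw [h1]
      exact mul_ne_zero h2 hi'
    · refine ⟨P.1 *ᵥ Pi.single i (1 : F), ?_⟩
      rw [hpolar, hx]
      have h1 : ∑ j, ((P⁻¹ : GL (Fin n) F).1 *ᵥ v) j * (Pi.single i (1 : F) : Fin n → F) j =
          ((P⁻¹ : GL (Fin n) F).1 *ᵥ v) i := by
        rw [Finset.sum_eq_single i]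
        · simp
        · intro j _ hj
          simp [Pi.single_apply, hj]
        · intro h
          exact absurd (Finset.mem_univ _) h
      rw [h1]
      exact mul_ne_zero h2 hi'
  · intro g hg
    show ∃ c : Fˣ, ∀ v, (fun v : Fin n → F => ∑ i, (((P⁻¹ : GL (Fin n) F).1 *ᵥ v) i) ^ 2)
      (g.1 *ᵥ v) = (c : F) * (fun v : Fin n → F => ∑ i, (((P⁻¹ : GL (Fin n) F).1 *ᵥ v) i) ^ 2) v
    refine ⟨1, fun v => ?_⟩
    obtain ⟨σ, c, hc, hM⟩ := hG g hg
    have h1 : (P⁻¹ : GL (Fin n) F).1 * g.1 =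
        (Matrix.of fun i j => if i = σ j then c j else 0) * (P⁻¹ : GL (Fin n) F).1 := by
      rw [← hM, mul_assoc, hPinv', mul_one]
    have h4 : ∀ (y : Fin n → F) (i : Fin n),
        ((Matrix.of fun i j => if i = σ j then c j else 0 : Matrix (Fin n) (Fin n) F) *ᵥ y) i =
          c (σ.symm i) * y (σ.symm i) := by
      intro y i
      simp only [Matrix.mulVec, dotProduct, Matrix.of_apply]
      rw [Finset.sum_eq_single (σ.symm i)]
      · rw [if_pos (by simp)]
      · intro j _ hj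
        rw [if_neg, zero_mul]
        intro h
        apply hj
        rw [h]
        simp
      · intro h
        exact absurd (Finset.mem_univ _) h
    simp only [Units.val_one, one_mul]
    rw [Matrix.mulVec_mulVec, h1, ← Matrix.mulVec_mulVec]
    simp only [h4]
    rw [← Equiv.sum_comp σ
      (fun j => (c (σ.symm j) * ((P⁻¹ : GL (Fin n) F).1 *ᵥ v) (σ.symm j)) ^ 2)]
    refine Finset.sum_congr rfl fun j _ => ?_
    simp only [Equiv.symm_apply_apply]
    rw [mul_pow, hsq _ (hc j), one_mul]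

end Cfsg.Agent.Lib.Helper79.SLPFR3
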