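import Mathlib

/-! S0996 piece BQ-PB `pairs_bound` (helper5's project; proved by helper79). -/

set_option autoImplicit false

namespace Cfsg.Agent.Lib.Helper5.BQ

/-- Elements of the normalizer killed by `p` lie in `P`. -/
theorem pb_mem_of_pow {G : Type*} [Group G] [Finite G] (p : ℕ) (hp : p.Prime) (P : Subgroup G)
    (hcardP : Nat.card P = p) (e : ℕ) (he0 : 0 < e) (hep : e < p)
    (hcardN : Nat.card (Subgroup.normalizer (P : Set G)) = e * p)
    (w : G) (hw : w ∈ Subgroup.normalizer (P : Set G)) (hwp : w ^ p = 1) : w ∈ P := by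
  have hcop : Nat.Coprime e p := by
    rw [Nat.coprime_comm]
    exact (Nat.Prime.coprime_iff_not_dvd hp).mpr
      (fun h => by have := Nat.le_of_dvd he0 h; omega)
  have hidx : (P.subgroupOf (Subgroup.normalizer (P : Set G))).index = e := by
    have h1 := Subgroup.relIndex_mul_relIndex (⊥ : Subgroup G) P
      (Subgroup.normalizer (P : Set G)) bot_le Subgroup.le_normalizer
    rw [Subgroup.relIndex_bot_left, Subgroup.relIndex_bot_left, hcardP, hcardN] at h1
    have hp0 := hp.pos
    have h2 : p * P.relIndex (Subgroup.normalizer (P : Set G)) = p * e := by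
      rw [h1]
      ring
    exact Nat.eq_of_mul_eq_mul_left hp0 h2
  have h2 : (⟨w, hw⟩ : Subgroup.normalizer (P : Set G)) ^ e ∈
      P.subgroupOf (Subgroup.normalizer (P : Set G)) := by
    rw [← hidx]
    exact Subgroup.pow_index_mem _ _
  have h3 : w ^ e ∈ P := by
    rw [Subgroup.mem_subgroupOf] at h2
    simpa using h2
  have hord : orderOf w ∣ p := orderOf_dvd_of_pow_eq_one hwp
  obtain ⟨m, hm⟩ := exists_pow_eq_self_of_coprime (hcop.coprime_dvd_right hord)
  rw [← hm]
  exact P.pow_mem h3 m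

/-- If conjugation by `g` sends one nontrivial element of `P` into `P`, it sends all of `P`
into `P`. -/
theorem pb_conj_mem {G : Type*} [Group G] [Finite G] (p : ℕ) (hp : p.Prime) (P : Subgroup G)
    (hcardP : Nat.card P = p) (u g : G) (hu : u ∈ P) (hu1 : u ≠ 1) (hg : g * u * g⁻¹ ∈ P) :
    ∀ x ∈ P, g * x * g⁻¹ ∈ P := by
  intro x hx
  haveI : Fact p.Prime := ⟨hp⟩
  have h1 : (⟨x, hx⟩ : P) ∈ Subgroup.zpowers (⟨u, hu⟩ : P) :=
    mem_zpowers_of_prime_card hcardP (fun h => hu1 (congrArg Subtype.val h))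
  obtain ⟨k, hk⟩ := Subgroup.mem_zpowers_iff.mp h1
  have hx' : x = u ^ k := by
    have h2 := congrArg Subtype.val hk
    simpa using h2.symm
  rw [hx']
  have h3 : g * u ^ k * g⁻¹ = (g * u * g⁻¹) ^ k := (conj_zpow).symm
  rw [h3]
  exact P.zpow_mem hg k

/-- For `c ∉ N_G(P)`, no nontrivial element of `P` is conjugated into `N_G(P)` by `c`. -/
theorem pb_T_inf {G : Type*} [Group G] [Finite G] (p : ℕ) (hp : p.Prime) (P : Subgroup G)
    (hcardP : Nat.card P = p) (e : ℕ) (he0 : 0 < e) (hep : e < p)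
    (hcardN : Nat.card (Subgroup.normalizer (P : Set G)) = e * p)
    (c : G) (hc : c ∉ Subgroup.normalizer (P : Set G)) (u : G) (hu : u ∈ P)
    (hcu : c⁻¹ * u * c ∈ Subgroup.normalizer (P : Set G)) : u = 1 := by
  by_contra hu1
  apply hc
  have hup : u ^ p = 1 := by
    have h1 : (⟨u, hu⟩ : P) ^ Nat.card P = 1 := pow_card_eq_one'
    rw [hcardP] at h1
    have h2 := congrArg Subtype.val h1
    simpa using h2
  have hvp : (c⁻¹ * u * c) ^ p = 1 := by
    have h1 : (c⁻¹ * u * c) ^ p = c⁻¹ * u ^ p * c := by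
      have h := conj_pow (a := c⁻¹) (b := u) (i := p)
      simpa using h
    rw [h1, hup]
    group
  have hv : c⁻¹ * u * c ∈ P := pb_mem_of_pow p hp P hcardP e he0 hep hcardN _ hcu hvp
  have hv1 : c⁻¹ * u * c ≠ 1 := by
    intro h
    apply hu1
    have h2 : u = c * (c⁻¹ * u * c) * c⁻¹ := by group
    rw [h2, h]
    group
  rw [Subgroup.mem_normalizer_iff]
  intro h
  constructor
  · intro hh
    have hcv : c * (c⁻¹ * u * c) * c⁻¹ ∈ P := by
      have h2 : c * (c⁻¹ * u * c) * c⁻¹ = u := by group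
      rw [h2]
      exact hu
    exact pb_conj_mem p hp P hcardP _ c hv hv1 hcv h hh
  · intro hh
    have hcu' : c⁻¹ * u * c⁻¹⁻¹ ∈ P := by
      rw [inv_inv]
      exact hv
    have h3 := pb_conj_mem p hp P hcardP u c⁻¹ hu hu1 hcu' _ hh
    have h2 : c⁻¹ * (c * h * c⁻¹) * c⁻¹⁻¹ = h := by group
    rw [h2] at h3
    exact h3

/-- For `c ∉ N`, at most `e` elements of `N` are conjugated into `N` by `c`. -/
theorem pb_T_card_le {G : Type*} [Group G] [Finite G] (p : ℕ) (hp : p.Prime) (P : Subgroup G)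
    (hcardP : Nat.card P = p) (e : ℕ) (he0 : 0 < e) (hep : e < p)
    (hcardN : Nat.card (Subgroup.normalizer (P : Set G)) = e * p)
    (c : G) (hc : c ∉ Subgroup.normalizer (P : Set G)) :
    Nat.card {y : G // y ∈ Subgroup.normalizer (P : Set G) ∧
          c⁻¹ * y * c ∈ Subgroup.normalizer (P : Set G)} ≤ e := by
  have hPN : P ≤ Subgroup.normalizer (P : Set G) := Subgroup.le_normalizer
  let f : {y : G // y ∈ Subgroup.normalizer (P : Set G) ∧
          c⁻¹ * y * c ∈ Subgroup.normalizer (P : Set G)} × P →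
      Subgroup.normalizer (P : Set G) :=
    fun q => ⟨q.1.1 * q.2.1, Subgroup.mul_mem _ q.1.2.1 (hPN q.2.2)⟩
  have hf : Function.Injective f := by
    rintro ⟨⟨a, ha⟩, ⟨u, hu⟩⟩ ⟨⟨b, hb⟩, ⟨v, hv⟩⟩ h
    have h1 : a * u = b * v := congrArg Subtype.val h
    have h2 : b⁻¹ * a = v * u⁻¹ := by
      have h0 : b⁻¹ * a = b⁻¹ * (a * u) * u⁻¹ := by group
      rw [h0, h1]
      group
    have h3 : b⁻¹ * a ∈ P := by
      rw [h2]
      exact P.mul_mem hv (P.inv_mem hu)
    have h4 : c⁻¹ * (b⁻¹ * a) * c ∈ Subgroup.normalizer (P : Set G) := by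
      have h0 : c⁻¹ * (b⁻¹ * a) * c = (c⁻¹ * b * c)⁻¹ * (c⁻¹ * a * c) := by group
      rw [h0]
      exact Subgroup.mul_mem _ (Subgroup.inv_mem _ hb.2) ha.2
    have h5 : b⁻¹ * a = 1 := pb_T_inf p hp P hcardP e he0 hep hcardN c hc _ h3 h4
    have hab : a = b := by
      have h0 : a = b * (b⁻¹ * a) := by group
      rw [h0, h5, mul_one]
    subst hab
    have huv : u = v := mul_left_cancel h1
    subst huv
    rfl
  have h1 := Nat.card_le_card_of_injective f hf
  rw [Nat.card_prod, hcardP, hcardN] at h1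
  exact Nat.le_of_mul_le_mul_right h1 hp.pos

/-- BQ-PB (group theory) -/
theorem pairs_bound {G : Type*} [Group G] [Finite G] (p : ℕ) (hp : p.Prime) (P : Subgroup G)
    (hcardP : Nat.card P = p) (hcent : Subgroup.centralizer (P : Set G) = P)
    (e n : ℕ) (he0 : 0 < e) (hep : e < p)
    (hcardN : Nat.card (Subgroup.normalizer (P : Set G)) = e * p)
    (hcardG : Nat.card G = (1 + n * p) * (e * p)) :
    Nat.card {q : G × G // q.1 ∈ Subgroup.normalizer (P : Set G) ∧
        q.2⁻¹ * q.1 * q.2 ∈ Subgroup.normalizer (P : Set G)} ≤ (1 + n) * (e * p) ^ 2 ∧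
    ((1 + n) * (e * p) ^ 2 ≤ Nat.card {q : G × G // q.1 ∈ Subgroup.normalizer (P : Set G) ∧
        q.2⁻¹ * q.1 * q.2 ∈ Subgroup.normalizer (P : Set G)} →
      ∀ c : G, c ∉ Subgroup.normalizer (P : Set G) →
        Nat.card {y : G // y ∈ Subgroup.normalizer (P : Set G) ∧
          c⁻¹ * y * c ∈ Subgroup.normalizer (P : Set G)} = e) := by
  classical
  haveI : Fintype G := Fintype.ofFinite G
  let f : G → ℕ := fun c => Nat.card {y : G // y ∈ Subgroup.normalizer (P : Set G) ∧
    c⁻¹ * y * c ∈ Subgroup.normalizer (P : Set G)}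
  let g : G → ℕ := fun c => e + (if c ∈ Subgroup.normalizer (P : Set G) then e * (p - 1) else 0)
  have hcard : Nat.card {q : G × G // q.1 ∈ Subgroup.normalizer (P : Set G) ∧
      q.2⁻¹ * q.1 * q.2 ∈ Subgroup.normalizer (P : Set G)} = ∑ c : G, f c := by
    have e1 : {q : G × G // q.1 ∈ Subgroup.normalizer (P : Set G) ∧
        q.2⁻¹ * q.1 * q.2 ∈ Subgroup.normalizer (P : Set G)} ≃
        (Σ c : G, {y : G // y ∈ Subgroup.normalizer (P : Set G) ∧
          c⁻¹ * y * c ∈ Subgroup.normalizer (P : Set G)}) :=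
      { toFun := fun q => ⟨q.1.2, ⟨q.1.1, q.2⟩⟩
        invFun := fun s => ⟨(s.2.1, s.1), s.2.2⟩
        left_inv := fun q => rfl
        right_inv := fun s => rfl }
    rw [Nat.card_congr e1, Nat.card_sigma]
  obtain ⟨p', rfl⟩ : ∃ p', p = p' + 1 := ⟨p - 1, by have := hp.pos; omega⟩
  have hfg : ∀ c : G, f c ≤ g c := by
    intro c
    by_cases hc : c ∈ Subgroup.normalizer (P : Set G)
    · have h1 : f c ≤ Nat.card (Subgroup.normalizer (P : Set G)) := by
        apply Nat.card_le_card_of_injective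
          (fun y : {y : G // y ∈ Subgroup.normalizer (P : Set G) ∧
            c⁻¹ * y * c ∈ Subgroup.normalizer (P : Set G)} =>
            (⟨y.1, y.2.1⟩ : Subgroup.normalizer (P : Set G)))
        intro a b h
        have h' : (a : G) = (b : G) :=
          congrArg (fun t : Subgroup.normalizer (P : Set G) => (t : G)) h
        exact Subtype.ext h'
      rw [hcardN] at h1
      have h2 : g c = e + e * p' := by
        simp only [g, if_pos hc, Nat.add_sub_cancel]
      rw [h2]
      have h3 : e * (p' + 1) = e + e * p' := by ring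
      omega
    · have h2 : g c = e := by
        simp only [g, if_neg hc, add_zero]
      rw [h2]
      exact pb_T_card_le (p' + 1) hp P hcardP e he0 hep hcardN c hc
  have hNc : (Finset.univ.filter (fun c : G => c ∈ Subgroup.normalizer (P : Set G))).card =
      e * (p' + 1) := by
    have h1 := Fintype.card_of_subtype
      (Finset.univ.filter (fun c : G => c ∈ Subgroup.normalizer (P : Set G)))
      (p := fun c : G => c ∈ Subgroup.normalizer (P : Set G)) (fun x => by simp)
    rw [← h1, ← hcardN, Nat.card_eq_fintype_card]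
  have hGc : (Finset.univ : Finset G).card = (1 + n * (p' + 1)) * (e * (p' + 1)) := by
    rw [Finset.card_univ, ← Nat.card_eq_fintype_card, hcardG]
  have hsumg : ∑ c : G, g c = (1 + n) * (e * (p' + 1)) ^ 2 := by
    simp only [g]
    rw [Finset.sum_add_distrib, Finset.sum_const, Finset.sum_ite, Finset.sum_const,
      Finset.sum_const_zero, hNc, hGc]
    simp only [smul_eq_mul, Nat.add_sub_cancel, add_zero]
    ring
  refine ⟨?_, ?_⟩
  · rw [hcard, ← hsumg]
    exact Finset.sum_le_sum (fun c _ => hfg c)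
  · intro hge c hc
    by_contra hne
    have hlt : f c < g c := by
      have h1 : f c ≤ e := pb_T_card_le (p' + 1) hp P hcardP e he0 hep hcardN c hc
      have h2 : g c = e := by
        simp only [g, if_neg hc, add_zero]
      have h3 : f c ≠ e := hne
      omega
    have hlt2 : ∑ c : G, f c < ∑ c : G, g c :=
      Finset.sum_lt_sum (fun c _ => hfg c) ⟨c, Finset.mem_univ c, hlt⟩
    rw [hcard, ← hsumg] at hge
    omega

end Cfsg.Agent.Lib.Helper5.BQ
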