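import Mathlib
import Cfsg.Agent.Lib.Helper79.BQPB

/-! S0996 piece BQ-F3 `conj_mem_decomp` (helper5's project; proved by helper79). -/

set_option autoImplicit false

namespace Cfsg.Agent.Lib.Helper5.BQ

/-- BQ-F3 -/
theorem conj_mem_decomp {G : Type*} [Group G] [Finite G] (p : ℕ) (hp : p.Prime)
    (P : Subgroup G) (hcardP : Nat.card P = p) (e : ℕ) (he2 : 2 ≤ e) (hep : e < p)
    (hcardN : Nat.card (Subgroup.normalizer (P : Set G)) = e * p)
    (hcomm : ∀ a ∈ Subgroup.normalizer (P : Set G), ∀ b ∈ Subgroup.normalizer (P : Set G),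
      a * b * a⁻¹ * b⁻¹ ∈ P)
    (hfix : ∀ y ∈ Subgroup.normalizer (P : Set G), y ∉ P → ∀ u ∈ P, u * y = y * u → u = 1)
    (hcls : ∀ y ∈ Subgroup.normalizer (P : Set G), y ∉ P → ∀ w ∈ P, ∃ u ∈ P,
      u * y * u⁻¹ = y * w)
    (hcent : ∀ y ∈ Subgroup.normalizer (P : Set G), y ∉ P →
      Nat.card (Subgroup.normalizer (P : Set G) ⊓ Subgroup.centralizer ({y} : Set G) :
        Subgroup G) = e ∧
      ∀ H : Subgroup G, H ≤ Subgroup.normalizer (P : Set G) → Nat.card H = e → y ∈ H →
        H = Subgroup.normalizer (P : Set G) ⊓ Subgroup.centralizer ({y} : Set G))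
    (hinter : ∀ c : G, c ∉ Subgroup.normalizer (P : Set G) →
      Nat.card {y : G // y ∈ Subgroup.normalizer (P : Set G) ∧
        c⁻¹ * y * c ∈ Subgroup.normalizer (P : Set G)} = e)
    (y : G) (hy : y ∈ Subgroup.normalizer (P : Set G)) (hyP : y ∉ P)
    (c : G) (hc : c⁻¹ * y * c ∈ Subgroup.normalizer (P : Set G)) :
    ∃ m ∈ Subgroup.normalizer
        ((Subgroup.normalizer (P : Set G) ⊓ Subgroup.centralizer ({y} : Set G) :
          Subgroup G) : Set G),
      ∃ u ∈ P, c = m * u := by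
  have hpn := pb_mem_of_pow p hp P hcardP e (by omega) hep hcardN
  set N := Subgroup.normalizer (P : Set G) with hNdef
  have hPN : P ≤ N := Subgroup.le_normalizer
  have hyE : y ∈ N ⊓ Subgroup.centralizer ({y} : Set G) := by
    refine Subgroup.mem_inf.mpr ⟨hy, ?_⟩
    rw [Subgroup.mem_centralizer_singleton_iff]
  have hEcard : Nat.card (N ⊓ Subgroup.centralizer ({y} : Set G) : Subgroup G) = e :=
    (hcent y hy hyP).1
  have hEP : ∀ x, x ∈ N ⊓ Subgroup.centralizer ({y} : Set G) → x ∈ P → x = 1 := by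
    intro x hxE hxP
    have h1 : x * y = y * x :=
      Subgroup.mem_centralizer_singleton_iff.mp (Subgroup.mem_inf.mp hxE).2
    exact hfix y hy hyP x hxP h1
  -- `N = E P`
  have hNEP : ∀ x ∈ N, ∃ h ∈ N ⊓ Subgroup.centralizer ({y} : Set G), ∃ w ∈ P, x = h * w := by
    let f : (N ⊓ Subgroup.centralizer ({y} : Set G) : Subgroup G) × P → N :=
      fun q => ⟨q.1.1 * q.2.1, N.mul_mem (Subgroup.mem_inf.mp q.1.2).1 (hPN q.2.2)⟩
    have hf : Function.Injective f := by
      rintro ⟨⟨a, ha⟩, ⟨u, hu⟩⟩ ⟨⟨b, hb⟩, ⟨v, hv⟩⟩ h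
      have h1 : a * u = b * v := congrArg Subtype.val h
      have h2 : b⁻¹ * a = v * u⁻¹ := by
        have h0 : b⁻¹ * a = b⁻¹ * (a * u) * u⁻¹ := by group
        rw [h0, h1]
        group
      have h5 : b⁻¹ * a = 1 :=
        hEP _ (Subgroup.mul_mem _ (Subgroup.inv_mem _ hb) ha)
          (by rw [h2]; exact P.mul_mem hv (P.inv_mem hu))
      have hab : a = b := by
        have h0 : a = b * (b⁻¹ * a) := by group
        rw [h0, h5, mul_one]
      subst hab
      have huv : u = v := mul_left_cancel h1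
      subst huv
      rfl
    have hbij : Function.Bijective f :=
      hf.bijective_of_nat_card_le (by rw [Nat.card_prod, hEcard, hcardP, hcardN])
    intro x hx
    obtain ⟨⟨⟨h, hh⟩, ⟨w, hw⟩⟩, hq⟩ := hbij.2 ⟨x, hx⟩
    exact ⟨h, hh, w, hw, (congrArg Subtype.val hq).symm⟩
  by_cases hcN : c ∈ N
  · obtain ⟨h, hh, w, hw, rfl⟩ := hNEP c hcN
    exact ⟨h, Subgroup.le_normalizer hh, w, hw, rfl⟩
  · let T : Subgroup G :=
      { carrier := {x | x ∈ N ∧ c⁻¹ * x * c ∈ N}
        mul_mem' := by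
          intro a b ha hb
          refine ⟨N.mul_mem ha.1 hb.1, ?_⟩
          have h0 : c⁻¹ * (a * b) * c = (c⁻¹ * a * c) * (c⁻¹ * b * c) := by group
          rw [h0]
          exact N.mul_mem ha.2 hb.2
        one_mem' := by
          refine ⟨N.one_mem, ?_⟩
          have h0 : c⁻¹ * 1 * c = 1 := by group
          rw [h0]
          exact N.one_mem
        inv_mem' := by
          intro a ha
          refine ⟨N.inv_mem ha.1, ?_⟩
          have h0 : c⁻¹ * a⁻¹ * c = (c⁻¹ * a * c)⁻¹ := by group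
          rw [h0]
          exact N.inv_mem ha.2 }
    have hTcard : Nat.card T = e := hinter c hcN
    have hTE : T = N ⊓ Subgroup.centralizer ({y} : Set G) :=
      (hcent y hy hyP).2 T (fun x hx => hx.1) hTcard ⟨hy, hc⟩
    have hy''P : c⁻¹ * y * c ∉ P := by
      intro h
      apply hyP
      have h1 : (c⁻¹ * y * c) ^ p = 1 := by
        have h2 : (⟨_, h⟩ : P) ^ Nat.card P = 1 := pow_card_eq_one'
        rw [hcardP] at h2
        have h3 := congrArg Subtype.val h2
        simpa using h3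
      have h4 : y ^ p = 1 := by
        have h5 : (c⁻¹ * y * c) ^ p = c⁻¹ * y ^ p * c := by
          have h := conj_pow (a := c⁻¹) (b := y) (i := p)
          simpa using h
        rw [h5] at h1
        have h6 : y ^ p = c * (c⁻¹ * y ^ p * c) * c⁻¹ := by group
        rw [h6, h1]
        group
      exact hpn y hy h4
    obtain ⟨h, hh, w', hw', hyw⟩ := hNEP _ hc
    have hhN : h ∈ N := (Subgroup.mem_inf.mp hh).1
    have hhP : h ∉ P := by
      intro hhP
      apply hy''P
      rw [hyw]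
      exact P.mul_mem hhP hw'
    obtain ⟨u, hu, hconj⟩ := hcls _ hc hy''P w'⁻¹ (P.inv_mem hw')
    have hconj' : u * (c⁻¹ * y * c) * u⁻¹ = h := by
      rw [hconj, hyw]
      group
    let F : Subgroup G := (N ⊓ Subgroup.centralizer ({y} : Set G) : Subgroup G).map
      (MulAut.conj (u * c⁻¹)).toMonoidHom
    have hFmem : ∀ x0, (MulAut.conj (u * c⁻¹)).toMonoidHom x0 = u * (c⁻¹ * x0 * c) * u⁻¹ := by
      intro x0
      have h0 : (MulAut.conj (u * c⁻¹)).toMonoidHom x0 = (u * c⁻¹) * x0 * (u * c⁻¹)⁻¹ := rfl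
      rw [h0]
      group
    have hFcard : Nat.card F = e := by
      have h0 : Nat.card F =
          Nat.card (N ⊓ Subgroup.centralizer ({y} : Set G) : Subgroup G) :=
        Subgroup.card_map_of_injective (MulEquiv.injective _)
      rw [h0, hEcard]
    have hFN : F ≤ N := by
      rintro x ⟨x0, hx0, rfl⟩
      have hx0T : x0 ∈ T := by
        rw [hTE]
        exact hx0
      rw [hFmem]
      exact N.mul_mem (N.mul_mem (hPN hu) hx0T.2) (N.inv_mem (hPN hu))
    have hhF : h ∈ F := by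
      refine ⟨y, hyE, ?_⟩
      rw [hFmem]
      exact hconj'
    have hF_eq : F = N ⊓ Subgroup.centralizer ({h} : Set G) :=
      (hcent h hhN hhP).2 F hFN hFcard hhF
    have hE_eq : (N ⊓ Subgroup.centralizer ({y} : Set G) : Subgroup G) =
        N ⊓ Subgroup.centralizer ({h} : Set G) :=
      (hcent h hhN hhP).2 _ inf_le_left hEcard hh
    have hFE : F = N ⊓ Subgroup.centralizer ({y} : Set G) := hF_eq.trans hE_eq.symm
    have hg : u * c⁻¹ ∈ Subgroup.normalizer
        ((N ⊓ Subgroup.centralizer ({y} : Set G) : Subgroup G) : Set G) := by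
      rw [Subgroup.mem_normalizer_iff]
      intro x
      constructor
      · intro hx
        have h0 : (u * c⁻¹) * x * (u * c⁻¹)⁻¹ ∈ F := ⟨x, hx, rfl⟩
        rw [hFE] at h0
        exact h0
      · intro hx
        rw [← hFE] at hx
        obtain ⟨x0, hx0, hx0e⟩ := hx
        have h1 : (u * c⁻¹) * x0 * (u * c⁻¹)⁻¹ = (u * c⁻¹) * x * (u * c⁻¹)⁻¹ := hx0e
        have h2 : x0 = x := mul_left_cancel (mul_right_cancel h1)
        rw [← h2]
        exact hx0
    refine ⟨c * u⁻¹, ?_, u, hu, by group⟩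
    have h0 : c * u⁻¹ = (u * c⁻¹)⁻¹ := by group
    rw [h0]
    exact Subgroup.inv_mem _ hg

end Cfsg.Agent.Lib.Helper5.BQ
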