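import Mathlib

/-! S0996 piece BQ-F4 `norm_dvd` (helper5's project; proved by helper79). -/

set_option autoImplicit false

namespace Cfsg.Agent.Lib.Helper5.BQ

/-- BQ-F4 -/
theorem norm_dvd {G : Type*} [Group G] [Finite G] (p : ℕ) (hp : p.Prime) (P : Subgroup G)
    (hcardP : Nat.card P = p) (e n : ℕ) (he2 : 2 ≤ e) (hep : e < p)
    (hcardN : Nat.card (Subgroup.normalizer (P : Set G)) = e * p)
    (hfix : ∀ y ∈ Subgroup.normalizer (P : Set G), y ∉ P → ∀ u ∈ P, u * y = y * u → u = 1)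
    (y : G) (hy : y ∈ Subgroup.normalizer (P : Set G)) (hyP : y ∉ P)
    (hcount : Nat.card {c : G // c⁻¹ * y * c ∈ Subgroup.normalizer (P : Set G)} =
      (n + 1) * (e * p))
    (hdec : ∀ c : G, c⁻¹ * y * c ∈ Subgroup.normalizer (P : Set G) →
      ∃ m ∈ Subgroup.normalizer
          ((Subgroup.normalizer (P : Set G) ⊓ Subgroup.centralizer ({y} : Set G) :
            Subgroup G) : Set G),
        ∃ u ∈ P, c = m * u) :
    (n + 1) * e ∣ Nat.card G := by
  have hPN : P ≤ Subgroup.normalizer (P : Set G) := Subgroup.le_normalizer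
  have hyE : y ∈ Subgroup.normalizer (P : Set G) ⊓ Subgroup.centralizer ({y} : Set G) := by
    refine Subgroup.mem_inf.mpr ⟨hy, ?_⟩
    rw [Subgroup.mem_centralizer_singleton_iff]
  -- `E ∩ P = 1`
  have hEP : ∀ x, x ∈ Subgroup.normalizer (P : Set G) ⊓ Subgroup.centralizer ({y} : Set G) →
      x ∈ P → x = 1 := by
    intro x hxE hxP
    have h1 : x * y = y * x := Subgroup.mem_centralizer_singleton_iff.mp (Subgroup.mem_inf.mp hxE).2
    exact hfix y hy hyP x hxP h1
  -- `M ∩ P = 1`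
  have hMP : ∀ w, w ∈ Subgroup.normalizer
      ((Subgroup.normalizer (P : Set G) ⊓ Subgroup.centralizer ({y} : Set G) :
        Subgroup G) : Set G) → w ∈ P → w = 1 := by
    intro w hwM hwP
    have h1 : w * y * w⁻¹ ∈
        Subgroup.normalizer (P : Set G) ⊓ Subgroup.centralizer ({y} : Set G) :=
      (Subgroup.mem_normalizer_iff.mp hwM y).mp hyE
    have h2 : w * y * w⁻¹ * y⁻¹ ∈
        Subgroup.normalizer (P : Set G) ⊓ Subgroup.centralizer ({y} : Set G) :=
      Subgroup.mul_mem _ h1 (Subgroup.inv_mem _ hyE)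
    have h3 : w * y * w⁻¹ * y⁻¹ ∈ P := by
      have h4 : y * w⁻¹ * y⁻¹ ∈ P :=
        (Subgroup.mem_normalizer_iff.mp hy w⁻¹).mp (P.inv_mem hwP)
      have h5 : w * y * w⁻¹ * y⁻¹ = w * (y * w⁻¹ * y⁻¹) := by group
      rw [h5]
      exact P.mul_mem hwP h4
    have h6 := hEP _ h2 h3
    have h7 : w * y = y * w := by
      have h8 : w * y = (w * y * w⁻¹ * y⁻¹) * (y * w) := by group
      rw [h8, h6, one_mul]
    exact hfix y hy hyP w hwP h7
  let f : (Subgroup.normalizer
      ((Subgroup.normalizer (P : Set G) ⊓ Subgroup.centralizer ({y} : Set G) :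
        Subgroup G) : Set G)) × P →
      {c : G // c⁻¹ * y * c ∈ Subgroup.normalizer (P : Set G)} :=
    fun q => ⟨q.1.1 * q.2.1, by
      have h1 : (q.1.1)⁻¹ * y * q.1.1 ∈
          Subgroup.normalizer (P : Set G) ⊓ Subgroup.centralizer ({y} : Set G) := by
        refine (Subgroup.mem_normalizer_iff.mp q.1.2 ((q.1.1)⁻¹ * y * q.1.1)).mpr ?_
        have h2 : q.1.1 * ((q.1.1)⁻¹ * y * q.1.1) * (q.1.1)⁻¹ = y := by group
        rw [h2]
        exact hyE
      have h3 : (q.1.1 * q.2.1)⁻¹ * y * (q.1.1 * q.2.1) =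
          (q.2.1)⁻¹ * ((q.1.1)⁻¹ * y * q.1.1) * q.2.1 := by group
      rw [h3]
      exact Subgroup.mul_mem _ (Subgroup.mul_mem _ (Subgroup.inv_mem _ (hPN q.2.2))
        (Subgroup.mem_inf.mp h1).1) (hPN q.2.2)⟩
  have hbij : Function.Bijective f := by
    constructor
    · rintro ⟨⟨m, hm⟩, ⟨u, hu⟩⟩ ⟨⟨m', hm'⟩, ⟨u', hu'⟩⟩ h
      have h1 : m * u = m' * u' := congrArg Subtype.val h
      have h2 : m'⁻¹ * m = u' * u⁻¹ := by
        have h0 : m'⁻¹ * m = m'⁻¹ * (m * u) * u⁻¹ := by group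
        rw [h0, h1]
        group
      have h3 : m'⁻¹ * m = 1 :=
        hMP _ (Subgroup.mul_mem _ (Subgroup.inv_mem _ hm') hm)
          (by rw [h2]; exact P.mul_mem hu' (P.inv_mem hu))
      have hmm : m = m' := by
        have h0 : m = m' * (m'⁻¹ * m) := by group
        rw [h0, h3, mul_one]
      subst hmm
      have huu : u = u' := mul_left_cancel h1
      subst huu
      rfl
    · rintro ⟨c, hc⟩
      obtain ⟨m, hm, u, hu, rfl⟩ := hdec c hc
      exact ⟨(⟨m, hm⟩, ⟨u, hu⟩), rfl⟩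
  have h1 := Nat.card_eq_of_bijective f hbij
  rw [Nat.card_prod, hcardP, hcount] at h1
  have h2 : Nat.card (Subgroup.normalizer
      ((Subgroup.normalizer (P : Set G) ⊓ Subgroup.centralizer ({y} : Set G) :
        Subgroup G) : Set G)) = (n + 1) * e := by
    have h3 : Nat.card (Subgroup.normalizer
      ((Subgroup.normalizer (P : Set G) ⊓ Subgroup.centralizer ({y} : Set G) :
        Subgroup G) : Set G)) * p = ((n + 1) * e) * p := by
      rw [h1]
      ring
    exact Nat.eq_of_mul_eq_mul_right hp.pos h3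
  rw [← h2]
  exact Subgroup.card_subgroup_dvd_card _

end Cfsg.Agent.Lib.Helper5.BQ
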