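import Mathlib
import Cfsg.Prelude.Def_CaseTheorems
import Cfsg.Agent.Lib.Helper46.BSW0
import Cfsg.Agent.Lib.Helper81.PSolv2
import Cfsg.Agent.S0514

/-!
# Brauer–Suzuki–Wall, piece D1 (helper79 for helper46, S0508)

`C(t) = O S` with `O` the odd core of `C(t)`, for `t` a central involution of a dihedral Sylow
`2`-subgroup `S`.
-/

set_option autoImplicit false

namespace Cfsg.Agent.Lib.Helper46.BSW

open Cfsg

universe u

variable {G : Type u} [Group G]

/-! ### Piece D1 : `C(t) = O S` with `O` the odd core of `C(t)` -/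
theorem dih_cent_struct [Finite G] (S : Sylow 2 G) (n : ℕ) (hn : 2 ≤ n)
    (hS : Nonempty ((S : Subgroup G) ≃* DihedralGroup n)) (t : G) (ht : orderOf t = 2)
    (htS : t ∈ (S : Subgroup G)) (htZ : ∀ s ∈ (S : Subgroup G), s * t = t * s) (O : Subgroup G)
    (hO : O = (Cfsg.oddCore (Subgroup.centralizer ({t} : Set G))).map
      (Subgroup.centralizer ({t} : Set G)).subtype) :
    Odd (Nat.card O) ∧ O ≤ Subgroup.centralizer ({t} : Set G) ∧
    (∀ g ∈ Subgroup.centralizer ({t} : Set G), ∀ o ∈ O, g * o * g⁻¹ ∈ O) ∧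
    (∀ g ∈ Subgroup.centralizer ({t} : Set G), ∃ o ∈ O, ∃ x ∈ (S : Subgroup G), g = o * x) := by
  classical
  subst hO
  have h2 : Fact (Nat.Prime 2) := ⟨Nat.prime_two⟩
  obtain ⟨N, hNn, hNodd, k, hk⟩ := Cfsg.Agent.S0514.result S n hn hS t ht
  have hMcop : (Nat.card (Cfsg.oddCore (Subgroup.centralizer ({t} : Set G)))).Coprime 2 :=
    Cfsg.Agent.Lib.Helper81.pPrimeCore_coprime 2
  have hMn : (Cfsg.oddCore (Subgroup.centralizer ({t} : Set G))).Normal :=
    Cfsg.Agent.Lib.Helper81.pPrimeCore_normal 2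
  have hNle : N ≤ Cfsg.oddCore (Subgroup.centralizer ({t} : Set G)) :=
    Cfsg.Agent.Lib.Helper81.le_pPrimeCore 2 N hNn hNodd.coprime_two_right
  obtain ⟨j, hj⟩ : ∃ j, (Cfsg.oddCore (Subgroup.centralizer ({t} : Set G))).index = 2 ^ j := by
    have hdvd := Subgroup.index_dvd_of_le hNle
    rw [hk] at hdvd
    obtain ⟨j, -, hj⟩ := (Nat.dvd_prime_pow Nat.prime_two).mp hdvd
    exact ⟨j, hj⟩
  have hSC : (S : Subgroup G) ≤ Subgroup.centralizer ({t} : Set G) := by
    intro s hs
    rw [Subgroup.mem_centralizer_iff]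
    intro y hy
    rw [Set.mem_singleton_iff] at hy
    subst hy
    exact (htZ s hs).symm
  -- the order of `C`
  have hcardC : Nat.card (Cfsg.oddCore (Subgroup.centralizer ({t} : Set G))) * 2 ^ j =
      Nat.card (Subgroup.centralizer ({t} : Set G)) := by
    rw [← hj]
    exact Subgroup.card_mul_index _
  have hfac : (Nat.card (Subgroup.centralizer ({t} : Set G))).factorization 2 = j := by
    rw [← hcardC, Nat.factorization_mul Nat.card_pos.ne' (pow_pos (by norm_num) j).ne',
      Finsupp.add_apply, Nat.factorization_eq_zero_of_not_dvd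
        (fun h => by
          have := Nat.Coprime.eq_one_of_dvd hMcop.symm h
          omega), zero_add,
      Nat.Prime.factorization_pow Nat.prime_two, Finsupp.single_eq_same]
  have hcardS : Nat.card ((S : Subgroup G).subgroupOf (Subgroup.centralizer ({t} : Set G))) =
      2 ^ j := by
    have h := (S.subtype hSC).card_eq_multiplicity
    rw [hfac] at h
    exact h
  have hcompl : Subgroup.IsComplement' (Cfsg.oddCore (Subgroup.centralizer ({t} : Set G)))
      ((S : Subgroup G).subgroupOf (Subgroup.centralizer ({t} : Set G))) := by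
    apply Subgroup.isComplement'_of_coprime
    · rw [hcardS, hcardC]
    · rw [hcardS]
      exact Nat.Coprime.pow_right j hMcop
  refine ⟨?_, Subgroup.map_subtype_le _, ?_, ?_⟩
  · rw [Subgroup.card_map_of_injective (Subgroup.subtype_injective _)]
    exact Nat.coprime_two_right.mp hMcop
  · intro g hg o ho
    obtain ⟨o', ho', rfl⟩ := Subgroup.mem_map.mp ho
    refine Subgroup.mem_map.mpr ⟨⟨g, hg⟩ * o' * ⟨g, hg⟩⁻¹, hMn.conj_mem o' ho' ⟨g, hg⟩, rfl⟩
  · intro g hg
    obtain ⟨⟨m, s⟩, hms⟩ := hcompl.2 ⟨g, hg⟩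
    refine ⟨m.1.1, Subgroup.mem_map.mpr ⟨m.1, m.2, rfl⟩, s.1.1, Subgroup.mem_subgroupOf.mp s.2, ?_⟩
    have := congrArg Subtype.val hms
    simpa using this.symm

end Cfsg.Agent.Lib.Helper46.BSW
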