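import Mathlib
import Cfsg.Agent.Lib.Helper79.DGCore
import Cfsg.Agent.Lib.Helper79.DGMK
import Cfsg.Agent.Lib.Helper82.DGORBQ
import Cfsg.Agent.Lib.Helper42.DGINDQ
import Cfsg.Agent.Lib.Helper46.DGDEGQ
import Cfsg.Agent.Lib.Helper46.DGKN
import Cfsg.Agent.Lib.Helper4.DGROOTQ
import Cfsg.Agent.Lib.Helper73.DGTRANSPORT
import Cfsg.Agent.Lib.Helper83.Count
import Cfsg.Agent.Lib.Helper82.PQ

/-!
# McKay's conjecture for `|G|_p = p` (S4502) from the general Thompson lattice theorem (helper79)
-/

set_option autoImplicit false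
set_option linter.style.haveILetI false
set_option maxHeartbeats 1600000

namespace Cfsg.Agent.Lib.Helper79.DG

open Cfsg

universe u

/-- the number of characters in the block with root `θ` at `Q` -/
theorem card_block_at {H : Type u} [Group H] [Finite H] (hTG : TGStmt.{u}) (p : ℕ)
    [Fact p.Prime] (M : Ideal AlgInt) (hM : IsPModular p M) (Q : Sylow p H)
    (hQ : Nat.card Q = p) (B : Set (IrrCharacter H)) (hBQ : IsDefectGroup p M B Q)
    (θ : IrrCharacter (Subgroup.centralizer ((Q : Subgroup H) : Set H)))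
    (hθ : IsCanon (Q : Subgroup H) θ)
    (hind : IsInducedBlock M (Subgroup.centralizer ((Q : Subgroup H) : Set H))
      (blockOf M θ.1) B) :
    Nat.card B = mkE (Q : Subgroup H) θ + (p - 1) / mkE (Q : Subgroup H) θ := by
  classical
  letI : Fintype H := Fintype.ofFinite H
  haveI : Finite (IrrCharacter H) := Cfsg.Agent.Lib.Helper82.finite_irrCharacter H
  letI : Fintype (IrrCharacter H) := Fintype.ofFinite _
  have hp := (Fact.out : p.Prime)
  have hB : IsPBlock M B := hind.2.1
  obtain ⟨T, hT⟩ := exists_stabGroup (Q : Subgroup H) θ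
  obtain ⟨z, hz, hz1⟩ : ∃ z : H, z ∈ (Q : Subgroup H) ∧ z ≠ 1 := by
    have : Nontrivial (Q : Subgroup H) := by
      rw [← Finite.one_lt_card_iff_nontrivial, hQ]; exact hp.one_lt
    obtain ⟨⟨x, hx⟩, hne⟩ := exists_ne (1 : (Q : Subgroup H))
    exact ⟨x, hx, fun h => hne (Subtype.ext h)⟩
  obtain ⟨ζ, hζ⟩ : ∃ ζ : ℂ, IsPrimitiveRoot ζ p :=
    ⟨_, Complex.isPrimitiveRoot_exp p hp.ne_zero⟩
  obtain ⟨X, Y, hXY, hdisj, hcX, hcY, hdvd, he1, -⟩ :=
    core_gen hTG p M hM Q hQ B hB hBQ (blockOf M θ.1) hind θ (mem_blockOf_self hM θ) hθ T hT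
      _ rfl z hz hz1 ζ hζ
  have hCT : Subgroup.centralizer ((Q : Subgroup H) : Set H) ≤ T := by
    intro g hg
    rw [hT]
    refine ⟨Subgroup.centralizer_le_normalizer _ hg, ?_⟩
    intro c c' hcc
    have h1 : c' = (⟨g, hg⟩ : Subgroup.centralizer ((Q : Subgroup H) : Set H)) * c *
        (⟨g, hg⟩ : Subgroup.centralizer ((Q : Subgroup H) : Set H))⁻¹ := by
      apply Subtype.ext
      rw [hcc]; rfl
    rw [h1]
    exact Cfsg.Agent.Lib.Helper82.irr_isClassFunction θ c _
  have hE : mkE (Q : Subgroup H) θ =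
      (Subgroup.centralizer ((Q : Subgroup H) : Set H)).relIndex T := by
    unfold mkE
    have h1 : Nat.card (stabSet (Q : Subgroup H) θ) = Nat.card T :=
      Nat.card_congr (Equiv.subtypeEquivRight (fun g => (hT g).symm))
    rw [h1, card_eq_card_mul_relIndex _ _ hCT]
    exact Nat.mul_div_cancel_left _ Nat.card_pos
  rw [hE, hXY, Nat.card_coe_set_eq, Set.ncard_union_eq hdisj (Set.toFinite _) (Set.toFinite _),
    ← Nat.card_coe_set_eq, ← Nat.card_coe_set_eq, hcX, hcY]


/-- `θ` is a canonical root at `Q` of the block of `χ` -/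
def IsRootOf {H : Type*} [Group H] (M : Ideal AlgInt) (Q : Subgroup H)
    (θ : IrrCharacter (Subgroup.centralizer (Q : Set H))) (χ : IrrCharacter H) : Prop :=
  IsCanon Q θ ∧
    IsInducedBlock M (Subgroup.centralizer (Q : Set H)) (blockOf M θ.1) (blockOf M χ.1)

/-- the relative size of the stabilizer of `θ` -/
noncomputable def stabWt {H : Type*} [Group H] (Q : Subgroup H)
    (θ : IrrCharacter (Subgroup.centralizer (Q : Set H))) : ℚ :=
  (Nat.card (stabSet Q θ) : ℚ) / (Nat.card (Subgroup.normalizer (Q : Set H)) : ℚ)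

theorem card_sylow_eq_self {H : Type*} [Group H] [Finite H] (p : ℕ) [Fact p.Prime]
    (hdiv : p ∣ Nat.card H) (hsq : ¬ p ^ 2 ∣ Nat.card H) (Q : Sylow p H) : Nat.card Q = p := by
  have hp := (Fact.out : p.Prime)
  rw [Q.card_eq_multiplicity]
  have hne : Nat.card H ≠ 0 := Nat.card_pos.ne'
  have h1 : 1 ≤ (Nat.card H).factorization p := (hp.dvd_iff_one_le_factorization hne).mp hdiv
  have h2 : ¬ 2 ≤ (Nat.card H).factorization p :=
    fun h => hsq ((hp.pow_dvd_iff_le_factorization hne).mpr h)
  have h3 : (Nat.card H).factorization p = 1 := by omega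
  rw [h3, pow_one]

/-- the number of characters of `p'`-degree is the McKay sum -/
theorem mk_count {H : Type u} [Group H] [Finite H] (hTG : TGStmt.{u}) (p : ℕ) [Fact p.Prime]
    (M : Ideal AlgInt) (hM : IsPModular p M) (hdiv : p ∣ Nat.card H)
    (hsq : ¬ p ^ 2 ∣ Nat.card H) (Q : Sylow p H) :
    (Nat.card {χ : IrrCharacter H // ¬ p ∣ charDegree (χ : H → ℂ)} : ℚ) =
      mkSum p (Q : Subgroup H) := by
  classical
  letI : Fintype H := Fintype.ofFinite H
  haveI : Finite (IrrCharacter H) := Cfsg.Agent.Lib.Helper82.finite_irrCharacter H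
  letI : Fintype (IrrCharacter H) := Fintype.ofFinite _
  haveI : Finite (IrrCharacter (Subgroup.centralizer ((Q : Subgroup H) : Set H))) :=
    Cfsg.Agent.Lib.Helper82.finite_irrCharacter _
  letI : Fintype (IrrCharacter (Subgroup.centralizer ((Q : Subgroup H) : Set H))) :=
    Fintype.ofFinite _
  have hp := (Fact.out : p.Prime)
  have hQ : Nat.card Q = p := card_sylow_eq_self p hdiv hsq Q
  have hN0 : (Nat.card (Subgroup.normalizer ((Q : Subgroup H) : Set H)) : ℚ) ≠ 0 := by
    exact_mod_cast Nat.card_pos.ne'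
  -- claim 1
  have claim1 : ∀ χ : IrrCharacter H, ¬ p ∣ charDegree (χ : H → ℂ) →
      ∑ θ : IrrCharacter (Subgroup.centralizer ((Q : Subgroup H) : Set H)),
        (if IsRootOf M (Q : Subgroup H) θ χ then stabWt (Q : Subgroup H) θ else 0) = 1 := by
    intro χ hχ
    have hd := (Cfsg.Agent.Lib.Helper46.DG.pprime_iff_defect p M hM hdiv hsq χ).mp hχ
    obtain ⟨hBQ, θ₀, hθ₀, hind₀⟩ :=
      Cfsg.Agent.Lib.Helper4.DG.exists_root_at p M hM Q hQ _ (isPBlock_blockOf χ) hd
    rw [← Finset.sum_filter]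
    have hcard : Nat.card {θ' : IrrCharacter (Subgroup.centralizer ((Q : Subgroup H) : Set H)) //
        IsCanon (Q : Subgroup H) θ' ∧
        IsInducedBlock M (Subgroup.centralizer ((Q : Subgroup H) : Set H)) (blockOf M θ'.1)
          (blockOf M χ.1)} =
        (Finset.univ.filter (fun θ : IrrCharacter (Subgroup.centralizer
          ((Q : Subgroup H) : Set H)) => IsRootOf M (Q : Subgroup H) θ χ)).card := by
      rw [Nat.card_eq_fintype_card, Fintype.card_subtype]
      congr 1
      ext θ
      simp only [Finset.mem_filter, Finset.mem_univ, true_and]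
      rfl
    have h3 : (((Finset.univ.filter (fun θ : IrrCharacter (Subgroup.centralizer
          ((Q : Subgroup H) : Set H)) => IsRootOf M (Q : Subgroup H) θ χ)).card : ℕ) : ℚ) ≠ 0 := by
      have hmem : θ₀ ∈ Finset.univ.filter (fun θ : IrrCharacter (Subgroup.centralizer
          ((Q : Subgroup H) : Set H)) => IsRootOf M (Q : Subgroup H) θ χ) :=
        Finset.mem_filter.mpr ⟨Finset.mem_univ _, hθ₀, hind₀⟩
      exact_mod_cast (Finset.card_pos.mpr ⟨θ₀, hmem⟩).ne'
    have hterm : ∀ θ ∈ Finset.univ.filter (fun θ : IrrCharacter (Subgroup.centralizer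
          ((Q : Subgroup H) : Set H)) => IsRootOf M (Q : Subgroup H) θ χ),
        stabWt (Q : Subgroup H) θ = 1 / (((Finset.univ.filter (fun θ : IrrCharacter
          (Subgroup.centralizer ((Q : Subgroup H) : Set H)) =>
            IsRootOf M (Q : Subgroup H) θ χ)).card : ℕ) : ℚ) := by
      intro θ hθ
      rw [Finset.mem_filter] at hθ
      have h1 := Cfsg.Agent.Lib.Helper82.DG.card_roots p M hM Q hQ _ hBQ θ hθ.2.1 hθ.2.2
      rw [hcard] at h1
      have h2 : (((Finset.univ.filter (fun θ : IrrCharacter (Subgroup.centralizer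
          ((Q : Subgroup H) : Set H)) => IsRootOf M (Q : Subgroup H) θ χ)).card : ℕ) : ℚ) *
          (Nat.card (stabSet (Q : Subgroup H) θ) : ℚ) =
          (Nat.card (Subgroup.normalizer ((Q : Subgroup H) : Set H)) : ℚ) := by
        exact_mod_cast h1
      unfold stabWt
      rw [← h2]
      have h4 : (Nat.card (stabSet (Q : Subgroup H) θ) : ℚ) ≠ 0 := by
        intro h0
        rw [h0, mul_zero] at h2
        exact hN0 h2.symm
      field_simp
    rw [Finset.sum_congr rfl hterm, Finset.sum_const, nsmul_eq_mul]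
    field_simp
  -- claim 2
  have claim2 : ∀ θ : IrrCharacter (Subgroup.centralizer ((Q : Subgroup H) : Set H)),
      IsCanon (Q : Subgroup H) θ →
      ∑ χ : IrrCharacter H,
        (if ¬ p ∣ charDegree (χ : H → ℂ) ∧ IsRootOf M (Q : Subgroup H) θ χ then (1 : ℚ) else 0) =
        ((mkE (Q : Subgroup H) θ + (p - 1) / mkE (Q : Subgroup H) θ : ℕ) : ℚ) := by
    intro θ hθ
    obtain ⟨B, hind, hBQ⟩ := Cfsg.Agent.Lib.Helper42.DG.exists_induced_at p M hM Q hQ θ
    have hB : IsPBlock M B := hind.2.1
    have hcard := card_block_at hTG p M hM Q hQ B hBQ θ hθ hind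
    have hdpos : 0 < blockDefect p B := by
      have h1 := Cfsg.Agent.Lib.Helper82.card_defectGroup hM B hB _ hBQ
      rw [hQ] at h1
      by_contra h0
      have h2 : blockDefect p B = 0 := by omega
      rw [h2, pow_zero] at h1
      exact hp.one_lt.ne' h1
    have hiff : ∀ χ : IrrCharacter H,
        (¬ p ∣ charDegree (χ : H → ℂ) ∧ IsRootOf M (Q : Subgroup H) θ χ) ↔ χ ∈ B := by
      intro χ
      constructor
      · rintro ⟨-, -, h2⟩
        have h3 := inducedBlock_unique hM hind h2
        rw [h3]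
        exact mem_blockOf_self hM χ
      · intro hχ
        have hBχ := blockOf_eq_of_mem hM hB hχ
        refine ⟨(Cfsg.Agent.Lib.Helper46.DG.pprime_iff_defect p M hM hdiv hsq χ).mpr (by rw [← hBχ]; exact hdpos),
          hθ, ?_⟩
        rw [← hBχ]
        exact hind
    rw [← hcard, Nat.card_eq_fintype_card, Fintype.card_subtype, Finset.sum_boole]
    congr 2
    ext χ
    simp only [Finset.mem_filter, Finset.mem_univ, true_and]
    exact hiff χ
  have hL : (Nat.card {χ : IrrCharacter H // ¬ p ∣ charDegree (χ : H → ℂ)} : ℚ) =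
      ∑ χ : IrrCharacter H, if ¬ p ∣ charDegree (χ : H → ℂ) then (1 : ℚ) else 0 := by
    rw [Nat.card_eq_fintype_card, Fintype.card_subtype, Finset.sum_boole]
  have hR : mkSum p (Q : Subgroup H) =
      ∑ θ : IrrCharacter (Subgroup.centralizer ((Q : Subgroup H) : Set H)),
        if IsCanon (Q : Subgroup H) θ then mkWeight p (Q : Subgroup H) θ else 0 := by
    unfold mkSum
    rw [finsum_mem_eq_sum_filter_univ, Finset.sum_filter]
    rfl
  rw [hL, hR]
  calc ∑ χ : IrrCharacter H, (if ¬ p ∣ charDegree (χ : H → ℂ) then (1 : ℚ) else 0)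
      = ∑ χ : IrrCharacter H,
          ∑ θ : IrrCharacter (Subgroup.centralizer ((Q : Subgroup H) : Set H)),
            (if ¬ p ∣ charDegree (χ : H → ℂ) ∧ IsRootOf M (Q : Subgroup H) θ χ then
              stabWt (Q : Subgroup H) θ else 0) := by
        refine Finset.sum_congr rfl fun χ _ => ?_
        by_cases hχ : ¬ p ∣ charDegree (χ : H → ℂ)
        · rw [if_pos hχ, ← claim1 χ hχ]
          refine Finset.sum_congr rfl fun θ _ => ?_
          by_cases h : IsRootOf M (Q : Subgroup H) θ χ
          · rw [if_pos h, if_pos ⟨hχ, h⟩]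
          · rw [if_neg h, if_neg (fun h' => h h'.2)]
        · rw [if_neg hχ]
          symm
          refine Finset.sum_eq_zero fun θ _ => ?_
          rw [if_neg (fun h' => hχ h'.1)]
    _ = ∑ θ : IrrCharacter (Subgroup.centralizer ((Q : Subgroup H) : Set H)),
          ∑ χ : IrrCharacter H,
            (if ¬ p ∣ charDegree (χ : H → ℂ) ∧ IsRootOf M (Q : Subgroup H) θ χ then
              stabWt (Q : Subgroup H) θ else 0) := Finset.sum_comm
    _ = ∑ θ : IrrCharacter (Subgroup.centralizer ((Q : Subgroup H) : Set H)),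
          (if IsCanon (Q : Subgroup H) θ then mkWeight p (Q : Subgroup H) θ else 0) := by
        refine Finset.sum_congr rfl fun θ _ => ?_
        by_cases hθ : IsCanon (Q : Subgroup H) θ
        · rw [if_pos hθ]
          have h2 := claim2 θ hθ
          have h3 : ∀ χ : IrrCharacter H,
              (if ¬ p ∣ charDegree (χ : H → ℂ) ∧ IsRootOf M (Q : Subgroup H) θ χ then
                stabWt (Q : Subgroup H) θ else 0) =
              stabWt (Q : Subgroup H) θ *
                (if ¬ p ∣ charDegree (χ : H → ℂ) ∧ IsRootOf M (Q : Subgroup H) θ χ then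
                  (1 : ℚ) else 0) := by
            intro χ
            split_ifs <;> simp
          rw [Finset.sum_congr rfl (fun χ _ => h3 χ), ← Finset.mul_sum, h2]
          unfold mkWeight stabWt
          ring
        · rw [if_neg hθ]
          refine Finset.sum_eq_zero fun χ _ => ?_
          rw [if_neg (fun h' => hθ h'.2.1)]

/-- S4502 from the general Thompson lattice theorem -/
theorem s4502_of {G : Type u} [Group G] [Finite G] (hTG : TGStmt.{u}) (p : ℕ) [Fact p.Prime]
    (hdiv : p ∣ Nat.card G) (hsq : ¬ p ^ 2 ∣ Nat.card G) (P : Sylow p G) :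
    Nat.card {χ : Cfsg.IrrCharacter G // ¬ p ∣ Cfsg.charDegree (χ : G → ℂ)} =
      Nat.card (ConjClasses (Subgroup.normalizer ((P : Subgroup G) : Set G))) := by
  classical
  have hp := (Fact.out : p.Prime)
  obtain ⟨M, hM⟩ := Cfsg.Agent.Lib.Helper82.exists_isPModular p
  have hPN : (P : Subgroup G) ≤ Subgroup.normalizer ((P : Subgroup G) : Set G) :=
    Subgroup.le_normalizer
  have hP : Nat.card P = p := card_sylow_eq_self p hdiv hsq P
  have h1 := mk_count hTG p M hM hdiv hsq P
  have hdivN : p ∣ Nat.card (Subgroup.normalizer ((P : Subgroup G) : Set G)) := by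
    have h := Subgroup.card_dvd_of_le hPN
    rwa [hP] at h
  have hsqN : ¬ p ^ 2 ∣ Nat.card (Subgroup.normalizer ((P : Subgroup G) : Set G)) :=
    fun h => hsq (h.trans (Subgroup.card_subgroup_dvd_card _))
  have h2 := mk_count hTG p M hM hdivN hsqN (P.subtype hPN)
  rw [Sylow.coe_subtype] at h2
  have h3 := Cfsg.Agent.Lib.Helper73.DG.mkSum_normalizer p (P : Subgroup G)
  have h4 : Nat.card {χ : IrrCharacter (Subgroup.normalizer ((P : Subgroup G) : Set G)) //
      ¬ p ∣ charDegree (χ : Subgroup.normalizer ((P : Subgroup G) : Set G) → ℂ)} =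
      Nat.card (IrrCharacter (Subgroup.normalizer ((P : Subgroup G) : Set G))) := by
    letI : Fintype (Subgroup.normalizer ((P : Subgroup G) : Set G)) := Fintype.ofFinite _
    have hn : ((P.subtype hPN : Sylow p (Subgroup.normalizer ((P : Subgroup G) : Set G))) :
        Subgroup (Subgroup.normalizer ((P : Subgroup G) : Set G))).Normal := by
      rw [Sylow.coe_subtype]
      exact Subgroup.normal_in_normalizer
    exact Nat.card_congr (Equiv.subtypeUnivEquiv
      (fun χ => Cfsg.Agent.Lib.Helper46.DG.all_pprime_of_normal p hdivN hsqN (P.subtype hPN) hn χ))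
  have h5 : (Nat.card {χ : IrrCharacter G // ¬ p ∣ charDegree (χ : G → ℂ)} : ℚ) =
      (Nat.card {χ : IrrCharacter (Subgroup.normalizer ((P : Subgroup G) : Set G)) //
        ¬ p ∣ charDegree (χ : Subgroup.normalizer ((P : Subgroup G) : Set G) → ℂ)} : ℚ) := by
    rw [h1, h2, h3]
  rw [Nat.cast_injective h5, h4]
  exact Cfsg.Agent.Lib.Helper83.card_irr_eq_card_conjClasses

end Cfsg.Agent.Lib.Helper79.DG
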