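import Mathlib
import Cfsg.Agent.Lib.Helper79.DGCore

/-!
# S4442 from the general Thompson lattice theorem (helper79)
-/

set_option autoImplicit false
set_option linter.style.haveILetI false
set_option maxHeartbeats 1600000

namespace Cfsg.Agent.Lib.Helper79.DG

open Cfsg

universe u

theorem s4442_of {G : Type u} [Group G] [Finite G] (hTG : TGStmt.{u}) (p : ℕ) [Fact p.Prime] (M : Ideal Cfsg.AlgInt) (hM : Cfsg.IsPModular p M) (hodd : p ≠ 2) (P : Sylow p G) (hP : Nat.card P = p) (B : Set (Cfsg.IrrCharacter G)) (hB : Cfsg.IsPBlock M B) (hBP : Cfsg.IsDefectGroup p M B P) (b : Set (Cfsg.IrrCharacter (Subgroup.centralizer ((P : Subgroup G) : Set G)))) (hind : Cfsg.IsInducedBlock M (Subgroup.centralizer ((P : Subgroup G) : Set G)) b B) (θ : Cfsg.IrrCharacter (Subgroup.centralizer ((P : Subgroup G) : Set G))) (hθ : θ ∈ b) (hθP : ∀ x : Subgroup.centralizer ((P : Subgroup G) : Set G), (x : G) ∈ (P : Subgroup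 G) → (θ : Subgroup.centralizer ((P : Subgroup G) : Set G) → ℂ) x = (θ : Subgroup.centralizer ((P : Subgroup G) : Set G) → ℂ) 1) (T : Subgroup G) (hT : ∀ g : G, g ∈ T ↔ (g ∈ Subgroup.normalizer ((P : Subgroup G) : Set G) ∧ ∀ c c' : Subgroup.centralizer ((P : Subgroup G) : Set G), (c' : G) = g * c * g⁻¹ → (θ : Subgroup.centralizer ((P : Subgroup G) : Set G) → ℂ) c' = (θ : Subgroup.centralizer ((P : Subgroup G) : Set G) → ℂ) c)) (e f : ℕ) (he : (Subgroup.centralizer ((P : Subgroup G) : Set G)).relIndex T = e) (hf : (Subgroup.centralizer ((P : Subgroup G) : Set G)).relIndex (Subgroup.normalizer ((P : Subgroup G) : Set G)) = f) : e ∣ p - 1 ∧ Nat.card B = e + (p - 1) / e ∧ ∃ X Y : Set (Cfsg.IrrCharacter G), B = X ∪ Y ∧ Disjoint X Y ∧ Nat.card X = e ∧ Nat.card Y = (p - 1) / e ∧ (∀ χ ∈ X, (Cfsg.charDegree (χ : G → ℂ) : ℤ) ≡ ((f / e * Cfsg.charDegree (θ : Subgroup.centralizer ((P : Subgroup G) : Set G) → ℂ)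 : ℕ) : ℤ) [ZMOD p] ∨ (Cfsg.charDegree (χ : G → ℂ) : ℤ) ≡ -((f / e * Cfsg.charDegree (θ : Subgroup.centralizer ((P : Subgroup G) : Set G) → ℂ) : ℕ) : ℤ) [ZMOD p]) ∧ (∃ ε : ℤ, (ε = 1 ∨ ε = -1) ∧ ∀ ψ ∈ Y, (Cfsg.charDegree (ψ : G → ℂ) : ℤ) ≡ ε * ((f * Cfsg.charDegree (θ : Subgroup.centralizer ((P : Subgroup G) : Set G) → ℂ) : ℕ) : ℤ) [ZMOD p]) ∧ ∀ ψ ∈ Y, ∀ ψ' ∈ Y, ∀ g : G, ¬ p ∣ orderOf g → (ψ : G → ℂ) g = (ψ' : G → ℂ) g := by
  classical
  letI : Fintype G := Fintype.ofFinite G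
  haveI : Finite (IrrCharacter G) := Cfsg.Agent.Lib.Helper82.finite_irrCharacter G
  letI : Fintype (IrrCharacter G) := Fintype.ofFinite _
  have hp := (Fact.out : p.Prime)
  obtain ⟨z, hz, hz1⟩ : ∃ z : G, z ∈ (P : Subgroup G) ∧ z ≠ 1 := by
    have : Nontrivial (P : Subgroup G) := by
      rw [← Finite.one_lt_card_iff_nontrivial, hP]; exact hp.one_lt
    obtain ⟨⟨x, hx⟩, hne⟩ := exists_ne (1 : (P : Subgroup G))
    exact ⟨x, hx, fun h => hne (Subtype.ext h)⟩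
  obtain ⟨ζ, hζ⟩ : ∃ ζ : ℂ, IsPrimitiveRoot ζ p :=
    ⟨_, Complex.isPrimitiveRoot_exp p hp.ne_zero⟩
  obtain ⟨X, Y, hXY, hdisj, hcX, hcY, hdvd, he1, εX, ε, D, κ, v, hXp, hε, hYdeg, hagree, -⟩ :=
    core_gen hTG p M hM P hP B hB hBP b hind θ hθ hθP T hT e he z hz hz1 ζ hζ
  have hTN : T ≤ Subgroup.normalizer ((P : Subgroup G) : Set G) := fun g hg => ((hT g).mp hg).1
  have hCT : Subgroup.centralizer ((P : Subgroup G) : Set G) ≤ T := by
    intro g hg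
    rw [hT]
    refine ⟨Subgroup.centralizer_le_normalizer _ hg, ?_⟩
    intro c c' hcc
    have h1 : c' = (⟨g, hg⟩ : Subgroup.centralizer ((P : Subgroup G) : Set G)) * c *
        (⟨g, hg⟩ : Subgroup.centralizer ((P : Subgroup G) : Set G))⁻¹ := by
      apply Subtype.ext
      rw [hcc]; rfl
    rw [h1]
    exact Cfsg.Agent.Lib.Helper82.irr_isClassFunction θ c _
  have hfe : f = e * T.relIndex (Subgroup.normalizer ((P : Subgroup G) : Set G)) := by
    rw [← hf, ← he]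
    exact (Subgroup.relIndex_mul_relIndex _ _ _ hCT hTN).symm
  have hfdiv : f / e = T.relIndex (Subgroup.normalizer ((P : Subgroup G) : Set G)) := by
    rw [hfe]
    exact Nat.mul_div_cancel_left _ (by omega)
  refine ⟨hdvd, ?_, X, Y, hXY, hdisj, hcX, hcY, ?_, ⟨ε, hε, ?_⟩, hagree⟩
  · rw [hXY, Nat.card_coe_set_eq, Set.ncard_union_eq hdisj (Set.toFinite _) (Set.toFinite _),
      ← Nat.card_coe_set_eq, ← Nat.card_coe_set_eq, hcX, hcY]
  · intro χ hχ
    obtain ⟨h1, h2, -⟩ := hXp χ hχ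
    rw [hfdiv]
    rcases h1 with h | h
    · left
      rw [h, one_mul] at h2
      exact h2
    · right
      rw [h, neg_one_mul] at h2
      exact h2
  · intro ψ hψ
    have h1 := hYdeg ψ hψ
    rw [hfe, mul_assoc]
    exact h1

end Cfsg.Agent.Lib.Helper79.DG
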