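import Mathlib
import Cfsg.Agent.Lib.Helper1.Coprime

set_option autoImplicit false
set_option linter.unusedSectionVars false

namespace Cfsg.Agent.Lib.Helper79

open Classical
open Pointwise

section DadeA

variable {G : Type*} [Group G] [Finite G]

/-- powers of a normalizing element normalize -/
theorem dd_pow_conj_mem (K : Subgroup G) (y : G) (hy : ∀ k ∈ K, y * k * y⁻¹ ∈ K) (j : ℕ) :
    ∀ k ∈ K, y ^ j * k * (y ^ j)⁻¹ ∈ K := by
  induction j with
  | zero => intro k hk; simpa using hk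
  | succ j ih =>
    intro k hk
    have h1 := hy _ (ih k hk)
    have e : y ^ (j + 1) * k * (y ^ (j + 1))⁻¹ = y * (y ^ j * k * (y ^ j)⁻¹) * y⁻¹ := by
      rw [pow_succ']; group
    rw [e]; exact h1

theorem dd_inv_conj_mem (K : Subgroup G) (y : G) (hy : ∀ k ∈ K, y * k * y⁻¹ ∈ K) :
    ∀ k ∈ K, y⁻¹ * k * y ∈ K := by
  intro k hk
  have hpos : 0 < orderOf y := orderOf_pos y
  have h1 := dd_pow_conj_mem K y hy (orderOf y - 1) k hk
  have e : y ^ (orderOf y - 1) = y⁻¹ := by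
    rw [eq_inv_iff_mul_eq_one, ← pow_succ, Nat.sub_add_cancel hpos, pow_orderOf_eq_one]
  rwa [e, inv_inv] at h1

theorem dd_mem_normalizer (K : Subgroup G) (y : G) (hy : ∀ k ∈ K, y * k * y⁻¹ ∈ K) :
    y ∈ Subgroup.normalizer (K : Set G) := by
  rw [Subgroup.mem_normalizer_iff]
  intro h
  refine ⟨fun hh => hy h hh, fun hh => ?_⟩
  have := dd_inv_conj_mem K y hy _ hh
  have e : y⁻¹ * (y * h * y⁻¹) * y = h := by group
  rwa [e] at this

/-- `z ∈ K y` implies `z ^ j ∈ K y ^ j` -/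
theorem dd_coset_pow (K : Subgroup G) (y z : G) (hy : ∀ k ∈ K, y * k * y⁻¹ ∈ K)
    (hz : z * y⁻¹ ∈ K) (j : ℕ) : z ^ j * (y ^ j)⁻¹ ∈ K := by
  induction j with
  | zero => simp
  | succ j ih =>
    have h1 := dd_pow_conj_mem K y hy j _ hz
    have e : z ^ (j + 1) * (y ^ (j + 1))⁻¹ = (z ^ j * (y ^ j)⁻¹) * (y ^ j * (z * y⁻¹) * (y ^ j)⁻¹) := by
      rw [pow_succ, pow_succ]; group
    rw [e]; exact K.mul_mem ih h1

/-- an element of `K ∩ ⟨y⟩`-type: a power of `y` lying in `K` is trivial when orders are coprime -/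
theorem dd_pow_eq_one_of_mem (K : Subgroup G) (y : G)
    (hcop : Nat.Coprime (Nat.card K) (orderOf y)) (w : G) (hwK : w ∈ K)
    (hwy : orderOf w ∣ orderOf y) : w = 1 := by
  have h1 : orderOf w ∣ Nat.card K := Subgroup.orderOf_dvd_natCard K hwK
  have : orderOf w = 1 := Nat.eq_one_of_dvd_coprimes hcop h1 hwy
  exact orderOf_eq_one_iff.mp this

/-- Schur–Zassenhaus for a coset of a cyclic complement: every element of `K y` is
`K`-conjugate to `c y` with `c ∈ C_K(y)`. -/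
theorem dd_exists_conj_decomp (K : Subgroup G) (y : G) (hy : ∀ k ∈ K, y * k * y⁻¹ ∈ K)
    (hcop : Nat.Coprime (Nat.card K) (orderOf y)) (z : G) (hz : z * y⁻¹ ∈ K) :
    ∃ k ∈ K, ∃ c ∈ K, c * y = y * c ∧ z = k * (c * y) * k⁻¹ := by
  obtain ⟨e, he0, he1⟩ := Nat.chineseRemainder hcop 0 1
  have hne : Nat.card K ∣ e := (Nat.modEq_zero_iff_dvd).mp he0
  have hye : y ^ e = y := by
    have := (pow_eq_pow_iff_modEq (x := y)).mpr he1
    simpa using this
  -- z₁ = z ^ e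
  have hz1 : z ^ e * y⁻¹ ∈ K := by
    have := dd_coset_pow K y z hy hz e
    rwa [hye] at this
  have hzm : z ^ orderOf y ∈ K := by
    have := dd_coset_pow K y z hy hz (orderOf y)
    rwa [pow_orderOf_eq_one, inv_one, mul_one] at this
  have hzmn : (z ^ orderOf y) ^ Nat.card K = 1 := by
    have h1 : orderOf (z ^ orderOf y) ∣ Nat.card K := Subgroup.orderOf_dvd_natCard K hzm
    exact orderOf_dvd_iff_pow_eq_one.mp h1
  have hz1m : (z ^ e) ^ orderOf y = 1 := by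
    obtain ⟨t, ht⟩ := hne
    rw [← pow_mul, mul_comm, pow_mul, ht, pow_mul, hzmn, one_pow]
  have hord1 : orderOf (z ^ e) ∣ orderOf y := orderOf_dvd_of_pow_eq_one hz1m
  have hyj : ∀ j : ℕ, y ^ j ∈ K → y ^ j = 1 := by
    intro j hj
    exact dd_pow_eq_one_of_mem K y hcop _ hj (orderOf_pow_dvd j)
  have hord2 : orderOf y ∣ orderOf (z ^ e) := by
    apply orderOf_dvd_of_pow_eq_one
    apply hyj
    have := dd_coset_pow K y (z ^ e) hy hz1 (orderOf (z ^ e))
    rw [pow_orderOf_eq_one, one_mul] at this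
    have h2 := K.inv_mem this
    rwa [inv_inv] at h2
  have hord : orderOf (z ^ e) = orderOf y := Nat.dvd_antisymm hord1 hord2
  -- Schur–Zassenhaus
  have hAK : Subgroup.zpowers y ≤ Subgroup.normalizer (K : Set G) := by
    rw [Subgroup.zpowers_le]
    exact dd_mem_normalizer K y hy
  have hcop' : (Nat.card (Subgroup.zpowers y)).Coprime (Nat.card K) := by
    rw [Nat.card_zpowers]; exact hcop.symm
  have hsolv : Group.IsSolvable (Subgroup.zpowers y) ∨ Group.IsSolvable K := by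
    left
    apply isSolvable_of_comm
    intro a b
    obtain ⟨i, hi⟩ := a.2
    obtain ⟨j, hj⟩ := b.2
    apply Subtype.ext
    show (a : G) * (b : G) = (b : G) * (a : G)
    rw [← hi, ← hj, ← zpow_add, ← zpow_add, add_comm]
  have hB : Subgroup.zpowers (z ^ e) ≤ Subgroup.zpowers y ⊔ K := by
    rw [Subgroup.zpowers_le]
    have e1 : z ^ e = (z ^ e * y⁻¹) * y := by group
    rw [e1]
    exact Subgroup.mul_mem _ (Subgroup.mem_sup_right hz1)
      (Subgroup.mem_sup_left (Subgroup.mem_zpowers y))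
  have hBcard : Nat.card (Subgroup.zpowers (z ^ e)) = Nat.card (Subgroup.zpowers y) := by
    rw [Nat.card_zpowers, Nat.card_zpowers, hord]
  obtain ⟨k, hk, hkconj⟩ := Cfsg.Agent.Lib.Helper1.sz_conj_rel hAK hcop' hsolv hB hBcard
  have hky : k * y * k⁻¹ ∈ Subgroup.zpowers (z ^ e) := by
    rw [← hkconj, Cfsg.Agent.Lib.Helper1.mem_conj_smul_iff]
    have e1 : k⁻¹ * (k * y * k⁻¹) * k = y := by group
    rw [e1]; exact Subgroup.mem_zpowers y
  rw [← mem_powers_iff_mem_zpowers] at hky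
  obtain ⟨j, hj⟩ := hky
  have hj : (z ^ e) ^ j = k * y * k⁻¹ := hj
  -- y ^ j = y
  have hkyK : k * y * k⁻¹ * y⁻¹ ∈ K := by
    have h1 := hy _ (K.inv_mem hk)
    have e1 : k * y * k⁻¹ * y⁻¹ = k * (y * k⁻¹ * y⁻¹) := by group
    rw [e1]; exact K.mul_mem hk h1
  have hyj1 : y ^ j * y⁻¹ ∈ K := by
    have h1 := dd_coset_pow K y (z ^ e) hy hz1 j
    rw [hj] at h1
    have e1 : y ^ j * y⁻¹ = (k * y * k⁻¹ * (y ^ j)⁻¹)⁻¹ * (k * y * k⁻¹ * y⁻¹) := by group
    rw [e1]; exact K.mul_mem (K.inv_mem h1) hkyK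
  have hjpos : y ^ j = y := by
    by_cases hj0 : j = 0
    · subst hj0
      rw [pow_zero, one_mul] at hyj1
      have h2 := K.inv_mem hyj1
      rw [inv_inv] at h2
      have := hyj 1 (by simpa using h2)
      simpa using this.symm
    · have e1 : y ^ j * y⁻¹ = y ^ (j - 1) := by
        obtain ⟨i, rfl⟩ : ∃ i, j = i + 1 := ⟨j - 1, by omega⟩
        rw [pow_succ]; simp
      rw [e1] at hyj1
      have h3 := hyj _ hyj1
      rw [← e1] at h3
      rwa [mul_inv_eq_one] at h3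
  have hj1 : j ≡ 1 [MOD orderOf y] := by
    have : y ^ j = y ^ 1 := by rw [hjpos, pow_one]
    exact (pow_eq_pow_iff_modEq (x := y)).mp this
  have hz1j : (z ^ e) ^ j = z ^ e := by
    have : (z ^ e) ^ j = (z ^ e) ^ 1 := by
      rw [pow_eq_pow_iff_modEq, hord]; exact hj1
    rwa [pow_one] at this
  have hkz : k * y * k⁻¹ = z ^ e := by rw [← hj, hz1j]
  -- z₂ = (z^e)⁻¹ * z
  have hz2K : (z ^ e)⁻¹ * z ∈ K := by
    have h1 := dd_inv_conj_mem K y hy _ (K.mul_mem (K.inv_mem hz1) hz)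
    have e1 : (z ^ e)⁻¹ * z = y⁻¹ * ((z ^ e * y⁻¹)⁻¹ * (z * y⁻¹)) * y := by group
    rw [e1]; exact h1
  have hcomm : Commute (z ^ e) z := (Commute.refl z).pow_left e
  refine ⟨k, hk, k⁻¹ * ((z ^ e)⁻¹ * z) * k, ?_, ?_, ?_⟩
  · exact K.mul_mem (K.mul_mem (K.inv_mem hk) hz2K) hk
  · have hy' : y = k⁻¹ * z ^ e * k := by rw [← hkz]; group
    have hc1 : (z ^ e)⁻¹ * z * z ^ e = z ^ e * ((z ^ e)⁻¹ * z) := by
      have := hcomm.eq
      calc (z ^ e)⁻¹ * z * z ^ e = (z ^ e)⁻¹ * (z * z ^ e) := by group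
        _ = (z ^ e)⁻¹ * (z ^ e * z) := by rw [this]
        _ = z ^ e * ((z ^ e)⁻¹ * z) := by group
    calc k⁻¹ * ((z ^ e)⁻¹ * z) * k * y
        = k⁻¹ * ((z ^ e)⁻¹ * z) * k * (k⁻¹ * z ^ e * k) := by rw [← hy']
      _ = k⁻¹ * ((z ^ e)⁻¹ * z * z ^ e) * k := by group
      _ = k⁻¹ * (z ^ e * ((z ^ e)⁻¹ * z)) * k := by rw [hc1]
      _ = (k⁻¹ * z ^ e * k) * (k⁻¹ * ((z ^ e)⁻¹ * z) * k) := by group
      _ = y * (k⁻¹ * ((z ^ e)⁻¹ * z) * k) := by rw [← hy']
  · have hy' : y = k⁻¹ * z ^ e * k := by rw [← hkz]; group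
    have hc1 : (z ^ e)⁻¹ * z * z ^ e = z := by
      have := hcomm.eq
      calc (z ^ e)⁻¹ * z * z ^ e = (z ^ e)⁻¹ * (z * z ^ e) := by group
        _ = (z ^ e)⁻¹ * (z ^ e * z) := by rw [this]
        _ = z := by group
    calc z = (z ^ e)⁻¹ * z * z ^ e := hc1.symm
      _ = k * (k⁻¹ * ((z ^ e)⁻¹ * z) * k * (k⁻¹ * z ^ e * k)) * k⁻¹ := by group
      _ = k * (k⁻¹ * ((z ^ e)⁻¹ * z) * k * y) * k⁻¹ := by rw [← hy']

/-- the power trick: conjugating `c y` to `c' y` inside `K` centralizes `y` -/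
theorem dd_commute_of_conj (K : Subgroup G) (y : G)
    (hcop : Nat.Coprime (Nat.card K) (orderOf y)) (c c' j : G) (hc : c ∈ K) (hc' : c' ∈ K)
    (hcy : c * y = y * c) (hcy' : c' * y = y * c') (hj : j * (c * y) * j⁻¹ = c' * y) :
    j * y = y * j := by
  obtain ⟨e, he0, he1⟩ := Nat.chineseRemainder hcop 0 1
  have hne : Nat.card K ∣ e := (Nat.modEq_zero_iff_dvd).mp he0
  have hye : y ^ e = y := by
    have := (pow_eq_pow_iff_modEq (x := y)).mpr he1
    simpa using this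
  have hpow : ∀ d ∈ K, d * y = y * d → (d * y) ^ e = y := by
    intro d hd hdy
    have hcm : Commute d y := hdy
    rw [hcm.mul_pow, hye]
    have h1 : orderOf d ∣ e := (Subgroup.orderOf_dvd_natCard K hd).trans hne
    rw [orderOf_dvd_iff_pow_eq_one.mp h1, one_mul]
  have h1 : (j * (c * y) * j⁻¹) ^ e = (c' * y) ^ e := by rw [hj]
  rw [conj_pow, hpow c hc hcy, hpow c' hc' hcy'] at h1
  calc j * y = j * y * j⁻¹ * j := by group
    _ = y * j := by rw [h1]

end DadeA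

section DadeCnt

variable {G : Type*} [Group G] [Fintype G]

/-- number of `x` with `x g x⁻¹ ∈ K y` -/
noncomputable def ddCnt (K : Subgroup G) (y g : G) : ℂ :=
  ∑ x : G, if x * g * x⁻¹ * y⁻¹ ∈ K then 1 else 0

theorem dd_sum_ite_mem (K : Subgroup G) :
    ∑ u : G, (if u ∈ K then (1 : ℂ) else 0) = (Nat.card K : ℂ) := by
  rw [← Finset.sum_filter, Finset.sum_const, nsmul_eq_mul, mul_one]
  congr 1
  rw [Nat.card_eq_fintype_card, Fintype.card_subtype]

/-- fibre count -/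
theorem dd_fibre (K : Subgroup G) (y : G) (hy : ∀ k ∈ K, y * k * y⁻¹ ∈ K)
    (hcop : Nat.Coprime (Nat.card K) (orderOf y)) (w : G) (hw : w * y⁻¹ ∈ K) :
    ∑ k : G, (if k ∈ K ∧ k⁻¹ * w * k * y⁻¹ ∈ K ⊓ Subgroup.centralizer ({y} : Set G)
      then (1 : ℂ) else 0) = (Nat.card ↥(K ⊓ Subgroup.centralizer ({y} : Set G)) : ℂ) := by
  obtain ⟨k₁, hk₁, c, hc, hcy, rfl⟩ := dd_exists_conj_decomp K y hy hcop w hw
  rw [← dd_sum_ite_mem (K ⊓ Subgroup.centralizer ({y} : Set G))]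
  rw [← Equiv.sum_comp (Equiv.mulLeft k₁)]
  refine Finset.sum_congr rfl fun j _ => ?_
  have hcent : ∀ d : G, d ∈ Subgroup.centralizer ({y} : Set G) ↔ d * y = y * d := by
    intro d
    rw [Subgroup.mem_centralizer_iff]
    constructor
    · intro h; exact (h y (Set.mem_singleton y)).symm
    · intro h z hz
      rw [Set.mem_singleton_iff] at hz
      subst hz; exact h.symm
  have e1 : (k₁ * j)⁻¹ * (k₁ * (c * y) * k₁⁻¹) * (k₁ * j) * y⁻¹ = j⁻¹ * (c * y) * j * y⁻¹ := by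
    group
  simp only [Equiv.coe_mulLeft, e1]
  by_cases hj : j ∈ K ⊓ Subgroup.centralizer ({y} : Set G)
  · rw [if_pos hj, if_pos]
    obtain ⟨hjK, hjC⟩ := Subgroup.mem_inf.mp hj
    have hjy := (hcent j).mp hjC
    refine ⟨K.mul_mem hk₁ hjK, ?_⟩
    have e2 : j⁻¹ * (c * y) * j * y⁻¹ = j⁻¹ * c * j := by
      calc j⁻¹ * (c * y) * j * y⁻¹ = j⁻¹ * c * (y * j) * y⁻¹ := by group
        _ = j⁻¹ * c * (j * y) * y⁻¹ := by rw [hjy]
        _ = j⁻¹ * c * j := by group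
    rw [e2]
    refine Subgroup.mem_inf.mpr ⟨K.mul_mem (K.mul_mem (K.inv_mem hjK) hc) hjK, ?_⟩
    rw [hcent]
    calc j⁻¹ * c * j * y = j⁻¹ * c * (j * y) := by group
      _ = j⁻¹ * c * (y * j) := by rw [hjy]
      _ = j⁻¹ * (c * y) * j := by group
      _ = j⁻¹ * (y * c) * j := by rw [hcy]
      _ = (j⁻¹ * y) * c * j := by group
      _ = (y * j⁻¹) * c * j := by
        have : j⁻¹ * y = y * j⁻¹ := by
          calc j⁻¹ * y = j⁻¹ * (y * j) * j⁻¹ := by group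
            _ = j⁻¹ * (j * y) * j⁻¹ := by rw [hjy]
            _ = y * j⁻¹ := by group
        rw [this]
      _ = y * (j⁻¹ * c * j) := by group
  · rw [if_neg hj, if_neg]
    rintro ⟨hkj, hmem⟩
    apply hj
    have hjK : j ∈ K := by
      have := K.mul_mem (K.inv_mem hk₁) hkj
      simpa using this
    obtain ⟨hc'K, hc'C⟩ := Subgroup.mem_inf.mp hmem
    have hc'y := (hcent _).mp hc'C
    have hconj : j⁻¹ * (c * y) * j⁻¹⁻¹ = (j⁻¹ * (c * y) * j * y⁻¹) * y := by group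
    have := dd_commute_of_conj K y hcop c _ j⁻¹ hc hc'K hcy hc'y hconj
    refine Subgroup.mem_inf.mpr ⟨hjK, ?_⟩
    rw [hcent]
    calc j * y = j * (y * j⁻¹) * j := by group
      _ = j * (j⁻¹ * y) * j := by rw [this]
      _ = y * j := by group

/-- the counting identity behind the Dade expansion -/
theorem dd_cnt_inf (K : Subgroup G) (y : G) (hy : ∀ k ∈ K, y * k * y⁻¹ ∈ K)
    (hcop : Nat.Coprime (Nat.card K) (orderOf y)) (g : G) :
    (Nat.card ↥(K ⊓ Subgroup.centralizer ({y} : Set G)) : ℂ) * ddCnt K y g =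
      (Nat.card K : ℂ) * ddCnt (K ⊓ Subgroup.centralizer ({y} : Set G)) y g := by
  have h1 : ∑ x : G, ∑ k : G,
      (if k ∈ K ∧ k⁻¹ * (x * g * x⁻¹) * k * y⁻¹ ∈ K ⊓ Subgroup.centralizer ({y} : Set G)
        then (1 : ℂ) else 0) =
      (Nat.card ↥(K ⊓ Subgroup.centralizer ({y} : Set G)) : ℂ) * ddCnt K y g := by
    unfold ddCnt
    rw [Finset.mul_sum]
    refine Finset.sum_congr rfl fun x _ => ?_
    by_cases hx : x * g * x⁻¹ * y⁻¹ ∈ K
    · rw [if_pos hx, mul_one]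
      exact dd_fibre K y hy hcop _ hx
    · rw [if_neg hx, mul_zero]
      apply Finset.sum_eq_zero
      intro k _
      rw [if_neg]
      rintro ⟨hk, hmem⟩
      apply hx
      have h2 := (Subgroup.mem_inf.mp hmem).1
      have h3 := hy _ (K.inv_mem hk)
      have e : x * g * x⁻¹ * y⁻¹ =
          k * (k⁻¹ * (x * g * x⁻¹) * k * y⁻¹) * (y * k⁻¹ * y⁻¹) := by group
      rw [e]
      exact K.mul_mem (K.mul_mem hk h2) h3
  have h2 : ∑ x : G, ∑ k : G,
      (if k ∈ K ∧ k⁻¹ * (x * g * x⁻¹) * k * y⁻¹ ∈ K ⊓ Subgroup.centralizer ({y} : Set G)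
        then (1 : ℂ) else 0) =
      (Nat.card K : ℂ) * ddCnt (K ⊓ Subgroup.centralizer ({y} : Set G)) y g := by
    rw [Finset.sum_comm, ← dd_sum_ite_mem K, Finset.sum_mul]
    refine Finset.sum_congr rfl fun k _ => ?_
    by_cases hk : k ∈ K
    · rw [if_pos hk, one_mul]
      unfold ddCnt
      rw [← Equiv.sum_comp (Equiv.mulLeft k)]
      refine Finset.sum_congr rfl fun x _ => ?_
      have e : k⁻¹ * ((Equiv.mulLeft k) x * g * ((Equiv.mulLeft k) x)⁻¹) * k * y⁻¹ =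
          x * g * x⁻¹ * y⁻¹ := by
        simp only [Equiv.coe_mulLeft]; group
      rw [e]
      simp [hk]
    · rw [if_neg hk, zero_mul]
      apply Finset.sum_eq_zero
      intro x _
      rw [if_neg]
      exact fun h => hk h.1
  rw [← h1, h2]

end DadeCnt

end Cfsg.Agent.Lib.Helper79
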