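import Mathlib
import Cfsg.Agent.Lib.Helper79.DadeA
import Cfsg.Agent.Lib.Helper35.Dade

set_option autoImplicit false
set_option linter.unusedSectionVars false

namespace Cfsg.Agent.Lib.Helper79

open Classical
open Cfsg.Agent.Lib.Helper35

section DadeB

variable {G : Type*} [Group G] [Fintype G]

/-- `H(B)`: the intersection of the `H b`, `b ∈ B` -/
def ddH (H : G → Subgroup G) (B : Finset G) : Subgroup G := ⨅ b ∈ B, H b

theorem mem_ddH (H : G → Subgroup G) (B : Finset G) (h : G) :
    h ∈ ddH H B ↔ ∀ b ∈ B, h ∈ H b := by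
  simp [ddH, Subgroup.mem_iInf]

theorem ddH_singleton (H : G → Subgroup G) (y : G) : ddH H {y} = H y := by
  ext h; simp [mem_ddH]

/-- `y` normalizes the set `B` -/
def ddStab (y : G) (B : Finset G) : Prop := ∀ b, b ∈ B ↔ y * b * y⁻¹ ∈ B

theorem ddStab_singleton (y : G) : ddStab y ({y} : Finset G) := by
  intro b
  simp only [Finset.mem_singleton]
  constructor
  · rintro rfl; group
  · intro h
    calc b = y⁻¹ * (y * b * y⁻¹) * y := by group
      _ = y⁻¹ * y * y := by rw [h]
      _ = y := by group

theorem ddStab_insert_iff (y : G) (B : Finset G) (hyB : y ∉ B) :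
    ddStab y (insert y B) ↔ ddStab y B := by
  have hconj : ∀ b : G, y * b * y⁻¹ = y ↔ b = y := by
    intro b
    constructor
    · intro h
      calc b = y⁻¹ * (y * b * y⁻¹) * y := by group
        _ = y⁻¹ * y * y := by rw [h]
        _ = y := by group
    · rintro rfl; group
  constructor
  · intro h b
    have hb := h b
    simp only [Finset.mem_insert, hconj] at hb
    constructor
    · intro hbB
      have hne : b ≠ y := fun e => hyB (e ▸ hbB)
      rcases hb.mp (Or.inr hbB) with h1 | h1
      · exact absurd h1 hne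
      · exact h1
    · intro hbB
      rcases hb.mpr (Or.inr hbB) with h1 | h1
      · exfalso
        apply hyB
        have : y * b * y⁻¹ = y := (hconj b).mpr h1
        rwa [this] at hbB
      · exact h1
  · intro h b
    simp only [Finset.mem_insert, hconj]
    rw [h b]

variable (A : Set G) (L : Subgroup G) (H : G → Subgroup G) (hD : Cfsg.DadeHypothesis A L H)

include hD

/-- an element of `L` normalizing `B ⊆ A` normalizes `H(B)` -/
theorem ddH_conj_mem (B : Finset G) (hBA : ∀ b ∈ B, b ∈ A) (y : G) (hy : y ∈ L)
    (hst : ddStab y B) : ∀ k ∈ ddH H B, y * k * y⁻¹ ∈ ddH H B := by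
  intro k hk
  rw [mem_ddH] at hk ⊢
  intro b hb
  have hb' : y⁻¹ * b * y ∈ B := by
    rw [hst]
    have e : y * (y⁻¹ * b * y) * y⁻¹ = b := by group
    rwa [e]
  have h1 := dade_mem_H_conj A L H hD (y⁻¹ * b * y) (hBA _ hb') y hy k (hk _ hb')
  have e : y * (y⁻¹ * b * y) * y⁻¹ = b := by group
  rwa [e] at h1

theorem dd_orderOf_dvd (y : G) (hy : y ∈ A) :
    orderOf y ∣ Nat.card ↥(L ⊓ Subgroup.centralizer ({y} : Set G)) := by
  apply Subgroup.orderOf_dvd_natCard
  refine Subgroup.mem_inf.mpr ⟨hD.subset hy, ?_⟩
  rw [Subgroup.mem_centralizer_iff]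
  intro h hh
  rw [Set.mem_singleton_iff] at hh
  rw [hh]

theorem ddH_coprime (B : Finset G) (hBA : ∀ b ∈ B, b ∈ A) (hne : B.Nonempty) (y : G)
    (hy : y ∈ A) : Nat.Coprime (Nat.card (ddH H B)) (orderOf y) := by
  obtain ⟨b, hb⟩ := hne
  have hle : ddH H B ≤ H b := fun h hh => (mem_ddH H B h).mp hh b hb
  have h1 : Nat.card (ddH H B) ∣ Nat.card (H b) := Subgroup.card_dvd_of_le hle
  exact Nat.Coprime.coprime_dvd_left h1
    (Nat.Coprime.coprime_dvd_right (dd_orderOf_dvd A L H hD y hy) (hD.coprime b (hBA b hb) y hy))

theorem ddH_insert (B : Finset G) (hBA : ∀ b ∈ B, b ∈ A) (hne : B.Nonempty) (y : G)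
    (hy : y ∈ A) :
    ddH H (insert y B) = ddH H B ⊓ Subgroup.centralizer ({y} : Set G) := by
  ext h
  rw [mem_ddH, Subgroup.mem_inf, mem_ddH]
  constructor
  · intro hh
    exact ⟨fun b hb => hh b (Finset.mem_insert_of_mem hb),
      hD.le_centralizer y hy (hh y (Finset.mem_insert_self y B))⟩
  · rintro ⟨hh, hc⟩ b hb
    rcases Finset.mem_insert.mp hb with rfl | hb
    · obtain ⟨b₀, hb₀⟩ := hne
      apply mem_of_coprime_sup (H b) (L ⊓ Subgroup.centralizer ({b} : Set G))
      · intro q hq h' hh'
        exact hD.conj_mem_H b hy q (Subgroup.mem_inf.mp hq).2 h' hh'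
      · exact hD.inf_eq_bot b hy
      · rw [hD.sup_eq b hy]; exact hc
      · exact Nat.Coprime.coprime_dvd_left (Subgroup.orderOf_dvd_natCard (H b₀) (hh b₀ hb₀))
          (hD.coprime b₀ (hBA b₀ hb₀) b hy)
    · exact hh b hb

/-- the basic cancellation step -/
theorem ddCnt_insert (B : Finset G) (hBA : ∀ b ∈ B, b ∈ A) (hne : B.Nonempty) (y : G)
    (hy : y ∈ A) (hst : ddStab y B) (g : G) :
    ddCnt (ddH H (insert y B)) y g / (Nat.card (ddH H (insert y B)) : ℂ) =
      ddCnt (ddH H B) y g / (Nat.card (ddH H B) : ℂ) := by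
  have h1 := dd_cnt_inf (ddH H B) y (ddH_conj_mem A L H hD B hBA y (hD.subset hy) hst)
    (ddH_coprime A L H hD B hBA hne y hy) g
  rw [← ddH_insert A L H hD B hBA hne y hy] at h1
  have hc1 : (Nat.card (ddH H (insert y B)) : ℂ) ≠ 0 := by
    exact_mod_cast (Nat.card_pos (α := ddH H (insert y B))).ne'
  have hc2 : (Nat.card (ddH H B) : ℂ) ≠ 0 := by
    exact_mod_cast (Nat.card_pos (α := ddH H B)).ne'
  rw [div_eq_div_iff hc1 hc2]
  linear_combination -h1

/-- the family of nonempty subsets of `A` -/
noncomputable def ddFam (A : Set G) : Finset (Finset G) :=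
  Finset.univ.filter (fun B => B.Nonempty ∧ ∀ b ∈ B, b ∈ A)

omit hD in
theorem mem_ddFam (B : Finset G) : B ∈ ddFam A ↔ B.Nonempty ∧ ∀ b ∈ B, b ∈ A := by
  simp [ddFam]

/-- the summand of the Dade expansion -/
noncomputable def ddTerm (H : G → Subgroup G) (y g : G) (B : Finset G) : ℂ :=
  if ddStab y B then (-1 : ℂ) ^ (B.card + 1) * (ddCnt (ddH H B) y g / (Nat.card (ddH H B) : ℂ))
  else 0

/-- the sign-reversing involution -/
theorem ddTerm_sum (y : G) (hy : y ∈ A) (g : G) :
    ∑ B ∈ ddFam A, ddTerm H y g B = ddCnt (H y) y g / (Nat.card (H y) : ℂ) := by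
  have hmem : ({y} : Finset G) ∈ ddFam A := by
    rw [mem_ddFam]
    exact ⟨Finset.singleton_nonempty y, fun b hb => by rw [Finset.mem_singleton.mp hb]; exact hy⟩
  rw [← Finset.add_sum_erase _ _ hmem]
  have h0 : ddTerm H y g {y} = ddCnt (H y) y g / (Nat.card (H y) : ℂ) := by
    unfold ddTerm
    rw [if_pos (ddStab_singleton y), ddH_singleton, Finset.card_singleton]
    norm_num
  rw [h0]
  have key : ∑ B ∈ (ddFam A).erase {y}, ddTerm H y g B = 0 := by
    -- pairing lemma
    have pair : ∀ B : Finset G, B.Nonempty → (∀ b ∈ B, b ∈ A) → y ∉ B →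
        ddTerm H y g B + ddTerm H y g (insert y B) = 0 := by
      intro B hne hBA hyB
      unfold ddTerm
      by_cases hst : ddStab y B
      · rw [if_pos hst, if_pos ((ddStab_insert_iff y B hyB).mpr hst),
          ddCnt_insert A L H hD B hBA hne y hy hst g, Finset.card_insert_of_notMem hyB]
        ring
      · rw [if_neg hst, if_neg (fun h => hst ((ddStab_insert_iff y B hyB).mp h))]
        ring
    refine Finset.sum_involution (fun B _ => if y ∈ B then B.erase y else insert y B) ?_ ?_ ?_ ?_
    · intro B hB
      obtain ⟨hBy, hBm⟩ := Finset.mem_erase.mp hB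
      obtain ⟨hne, hBA⟩ := (mem_ddFam A B).mp hBm
      by_cases hyB : y ∈ B
      · simp only [hyB, if_true]
        have hne' : (B.erase y).Nonempty := by
          by_contra hcon
          rw [Finset.not_nonempty_iff_eq_empty] at hcon
          apply hBy
          ext b
          simp only [Finset.mem_singleton]
          constructor
          · intro hb
            by_contra hby
            have : b ∈ B.erase y := Finset.mem_erase.mpr ⟨hby, hb⟩
            rw [hcon] at this
            exact absurd this (Finset.notMem_empty b)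
          · rintro rfl; exact hyB
        have h1 := pair (B.erase y) hne' (fun b hb => hBA b (Finset.mem_of_mem_erase hb))
          (Finset.notMem_erase y B)
        rw [Finset.insert_erase hyB] at h1
        rw [add_comm]; exact h1
      · simp only [hyB, if_false]
        exact pair B hne hBA hyB
    · intro B hB _
      by_cases hyB : y ∈ B
      · simp only [hyB, if_true]
        intro h
        have : y ∈ B.erase y := by rw [h]; exact hyB
        exact absurd this (Finset.notMem_erase y B)
      · simp only [hyB, if_false]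
        intro h
        apply hyB
        rw [← h]; exact Finset.mem_insert_self y B
    · intro B hB
      obtain ⟨hBy, hBm⟩ := Finset.mem_erase.mp hB
      obtain ⟨hne, hBA⟩ := (mem_ddFam A B).mp hBm
      by_cases hyB : y ∈ B
      · simp only [hyB, if_true]
        refine Finset.mem_erase.mpr ⟨?_, (mem_ddFam A _).mpr ⟨?_, ?_⟩⟩
        · intro h
          have : y ∈ B.erase y := by rw [h]; exact Finset.mem_singleton_self y
          exact absurd this (Finset.notMem_erase y B)
        · by_contra hcon
          rw [Finset.not_nonempty_iff_eq_empty] at hcon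
          apply hBy
          ext b
          simp only [Finset.mem_singleton]
          constructor
          · intro hb
            by_contra hby
            have : b ∈ B.erase y := Finset.mem_erase.mpr ⟨hby, hb⟩
            rw [hcon] at this
            exact absurd this (Finset.notMem_empty b)
          · rintro rfl; exact hyB
        · exact fun b hb => hBA b (Finset.mem_of_mem_erase hb)
      · simp only [hyB, if_false]
        refine Finset.mem_erase.mpr ⟨?_, (mem_ddFam A _).mpr ⟨Finset.insert_nonempty y B, ?_⟩⟩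
        · intro h
          obtain ⟨b, hb⟩ := hne
          have : b ∈ ({y} : Finset G) := by rw [← h]; exact Finset.mem_insert_of_mem hb
          rw [Finset.mem_singleton] at this
          exact hyB (this ▸ hb)
        · intro b hb
          rcases Finset.mem_insert.mp hb with rfl | hb
          · exact hy
          · exact hBA b hb
    · intro B hB
      by_cases hyB : y ∈ B
      · simp only [hyB, if_true, Finset.notMem_erase, if_false]
        exact Finset.insert_erase hyB
      · simp only [hyB, if_false, Finset.mem_insert_self, if_true]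
        exact Finset.erase_insert hyB
  rw [key, add_zero]

variable [Fintype L]

/-- the leading term is the Dade map -/
theorem dd_leading (w : L → ℂ) (hw : Cfsg.IsClassFunction L w) (g : G) :
    ∑ a : L, (if (a : G) ∈ A then w a * (ddCnt (H a) a g / (Nat.card (H a) : ℂ)) else 0) =
      (Nat.card L : ℂ) * Cfsg.dadeIsometry A L H w g := by
  rw [← dade_fiber_sum A L H hD w hw g, Fintype.sum_prod_type]
  refine Finset.sum_congr rfl fun a _ => ?_
  rw [Fintype.sum_prod_type, Finset.sum_comm]
  by_cases ha : (a : G) ∈ A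
  · rw [if_pos ha]
    unfold ddCnt
    rw [Finset.sum_div, Finset.mul_sum]
    refine Finset.sum_congr rfl fun x _ => ?_
    have hcomm : ∀ u ∈ H (a : G), (a : G) * u = u * a := fun u hu =>
      (dade_commute A L H hD a ha u hu).eq
    by_cases hx : x * g * x⁻¹ * (a : G)⁻¹ ∈ H (a : G)
    · rw [if_pos hx]
      rw [Finset.sum_eq_single (x * g * x⁻¹ * (a : G)⁻¹)]
      · rw [if_pos]
        · rw [one_div]
        · refine ⟨ha, hx, ?_⟩
          rw [hcomm _ hx]; group
      · intro u _ hu
        rw [if_neg]
        rintro ⟨-, hu1, hu2⟩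
        apply hu
        rw [hu2, hcomm u hu1]; group
      · intro h; exact absurd (Finset.mem_univ _) h
    · rw [if_neg hx, zero_div, mul_zero]
      symm
      apply Finset.sum_eq_zero
      intro u _
      rw [if_neg]
      rintro ⟨-, hu1, hu2⟩
      apply hx
      rw [hu2, hcomm u hu1]
      have e : u * (a : G) * (a : G)⁻¹ = u := by group
      rw [e]; exact hu1
  · rw [if_neg ha]
    symm
    apply Finset.sum_eq_zero
    intro x _
    apply Finset.sum_eq_zero
    intro u _
    rw [if_neg]
    exact fun h => ha h.1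

/-- the Dade expansion, pointwise form -/
theorem dd_expansion (w : L → ℂ) (hw : Cfsg.IsClassFunction L w)
    (hwA : ∀ x : L, (x : G) ∉ A → w x = 0) (g : G) :
    (Nat.card L : ℂ) * Cfsg.dadeIsometry A L H w g =
      ∑ B ∈ ddFam A, ∑ y : L, w y * ddTerm H (y : G) g B := by
  rw [Finset.sum_comm, ← dd_leading A L H hD w hw g]
  refine Finset.sum_congr rfl fun y _ => ?_
  by_cases hy : (y : G) ∈ A
  · rw [if_pos hy, ← Finset.mul_sum, ddTerm_sum A L H hD (y : G) hy g]
  · rw [if_neg hy, hwA y hy]
    simp

end DadeB

end Cfsg.Agent.Lib.Helper79
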