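import Mathlib
import Cfsg.Agent.Lib.Helper79.DadeB
import Cfsg.Agent.Lib.Helper35.Ind

set_option autoImplicit false
set_option linter.unusedSectionVars false

namespace Cfsg.Agent.Lib.Helper79

open Classical
open Cfsg Cfsg.Agent.Lib.Helper35

section DadeC

variable {G : Type*} [Group G] [Fintype G]

/-- the stabilizer of `B` in `L` -/
def ddN (L : Subgroup G) (B : Finset G) : Subgroup G where
  carrier := {l | l ∈ L ∧ ddStab l B}
  one_mem' := ⟨L.one_mem, fun b => by simp⟩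
  mul_mem' := by
    rintro a b ⟨ha, hsa⟩ ⟨hb, hsb⟩
    refine ⟨L.mul_mem ha hb, fun c => ?_⟩
    rw [hsb c, hsa (b * c * b⁻¹)]
    have e : a * (b * c * b⁻¹) * a⁻¹ = a * b * c * (a * b)⁻¹ := by group
    rw [e]
  inv_mem' := by
    rintro a ⟨ha, hsa⟩
    refine ⟨L.inv_mem ha, fun c => ?_⟩
    rw [hsa (a⁻¹ * c * a⁻¹⁻¹)]
    have e : a * (a⁻¹ * c * a⁻¹⁻¹) * a⁻¹ = c := by group
    rw [e]

theorem mem_ddN (L : Subgroup G) (B : Finset G) (l : G) :
    l ∈ ddN L B ↔ l ∈ L ∧ ddStab l B := Iff.rfl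

theorem ddN_le (L : Subgroup G) (B : Finset G) : ddN L B ≤ L := fun _ hl => hl.1

/-- conjugation of a finite set -/
noncomputable def ddCj (l : G) (B : Finset G) : Finset G := B.image (fun b => l * b * l⁻¹)

theorem mem_ddCj (l : G) (B : Finset G) (x : G) : x ∈ ddCj l B ↔ l⁻¹ * x * l ∈ B := by
  unfold ddCj
  rw [Finset.mem_image]
  constructor
  · rintro ⟨b, hb, rfl⟩
    have e : l⁻¹ * (l * b * l⁻¹) * l = b := by group
    rwa [e]
  · intro h
    exact ⟨l⁻¹ * x * l, h, by group⟩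

theorem ddCj_one (B : Finset G) : ddCj 1 B = B := by
  ext x; rw [mem_ddCj]; simp

theorem ddCj_mul (a b : G) (B : Finset G) : ddCj (a * b) B = ddCj a (ddCj b B) := by
  ext x
  rw [mem_ddCj, mem_ddCj, mem_ddCj]
  have e : (a * b)⁻¹ * x * (a * b) = b⁻¹ * (a⁻¹ * x * a) * b := by group
  rw [e]

theorem ddCj_eq_self_iff (l : G) (B : Finset G) : ddCj l B = B ↔ ddStab l B := by
  constructor
  · intro h b
    have e : l⁻¹ * (l * b * l⁻¹) * l = b := by group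
    constructor
    · intro hb
      rw [← h, mem_ddCj, e]; exact hb
    · intro hb
      rw [← h, mem_ddCj, e] at hb; exact hb
  · intro hst
    ext x
    rw [mem_ddCj, hst (l⁻¹ * x * l)]
    have e : l * (l⁻¹ * x * l) * l⁻¹ = x := by group
    rw [e]

theorem ddCj_card (l : G) (B : Finset G) : (ddCj l B).card = B.card := by
  unfold ddCj
  apply Finset.card_image_of_injective
  intro a b hab
  simpa using hab

theorem ddStab_conj_iff (l y : G) (B : Finset G) :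
    ddStab (l * y * l⁻¹) (ddCj l B) ↔ ddStab y B := by
  constructor
  · intro h b
    have h1 := h (l * b * l⁻¹)
    rw [mem_ddCj, mem_ddCj] at h1
    have e1 : l⁻¹ * (l * b * l⁻¹) * l = b := by group
    have e2 : l⁻¹ * (l * y * l⁻¹ * (l * b * l⁻¹) * (l * y * l⁻¹)⁻¹) * l = y * b * y⁻¹ := by group
    rwa [e1, e2] at h1
  · intro h c
    rw [mem_ddCj, mem_ddCj, h (l⁻¹ * c * l)]
    have e : l⁻¹ * (l * y * l⁻¹ * c * (l * y * l⁻¹)⁻¹) * l = y * (l⁻¹ * c * l) * y⁻¹ := by group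
    rw [e]

/-- the retraction of `K ⋊ N` onto `N ≤ L` -/
noncomputable def ddRetr (K N L : Subgroup G) (m : G) : L :=
  if h : ∃ n : L, (n : G) ∈ N ∧ m * (n : G)⁻¹ ∈ K then Classical.choose h else 1

theorem ddRetr_eq (K N L : Subgroup G) (hinf : K ⊓ N = ⊥) (m : G) (n : L) (hn : (n : G) ∈ N)
    (hm : m * (n : G)⁻¹ ∈ K) : ddRetr K N L m = n := by
  have h : ∃ n : L, (n : G) ∈ N ∧ m * (n : G)⁻¹ ∈ K := ⟨n, hn, hm⟩
  unfold ddRetr
  rw [dif_pos h]
  obtain ⟨hn', hm'⟩ := Classical.choose_spec h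
  have h1 : ((Classical.choose h : L) : G) * (n : G)⁻¹ ∈ K ⊓ N := by
    refine Subgroup.mem_inf.mpr ⟨?_, N.mul_mem hn' (N.inv_mem hn)⟩
    have e : ((Classical.choose h : L) : G) * (n : G)⁻¹ =
        (m * ((Classical.choose h : L) : G)⁻¹)⁻¹ * (m * (n : G)⁻¹) := by group
    rw [e]; exact K.mul_mem (K.inv_mem hm') hm
  rw [hinf, Subgroup.mem_bot, mul_inv_eq_one] at h1
  exact Subtype.ext h1

noncomputable def ddRetrHom (K N L : Subgroup G) (hnorm : ∀ n ∈ N, ∀ k ∈ K, n * k * n⁻¹ ∈ K)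
    (hinf : K ⊓ N = ⊥) (hNL : N ≤ L) : ↥(K ⊔ N) →* ↥L :=
  MonoidHom.mk' (fun m => ddRetr K N L (m : G)) (by
    intro m₁ m₂
    obtain ⟨k₁, hk₁, n₁, hn₁, e₁⟩ := sup_decomp K N hnorm (m₁ : G) m₁.2
    obtain ⟨k₂, hk₂, n₂, hn₂, e₂⟩ := sup_decomp K N hnorm (m₂ : G) m₂.2
    have r1 : ddRetr K N L (m₁ : G) = ⟨n₁, hNL hn₁⟩ :=
      ddRetr_eq K N L hinf _ ⟨n₁, hNL hn₁⟩ hn₁ (by rw [e₁]; simpa using hk₁)
    have r2 : ddRetr K N L (m₂ : G) = ⟨n₂, hNL hn₂⟩ :=
      ddRetr_eq K N L hinf _ ⟨n₂, hNL hn₂⟩ hn₂ (by rw [e₂]; simpa using hk₂)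
    have r3 : ddRetr K N L ((m₁ * m₂ : ↥(K ⊔ N)) : G) =
        ⟨n₁ * n₂, L.mul_mem (hNL hn₁) (hNL hn₂)⟩ := by
      apply ddRetr_eq K N L hinf _ ⟨n₁ * n₂, L.mul_mem (hNL hn₁) (hNL hn₂)⟩ (N.mul_mem hn₁ hn₂)
      rw [Subgroup.coe_mul, e₁, e₂]
      have e : k₁ * n₁ * (k₂ * n₂) * (n₁ * n₂)⁻¹ = k₁ * (n₁ * k₂ * n₁⁻¹) := by group
      show k₁ * n₁ * (k₂ * n₂) * (n₁ * n₂)⁻¹ ∈ K
      rw [e]; exact K.mul_mem hk₁ (hnorm n₁ hn₁ k₂ hk₂)
    rw [r3, r1, r2]; rfl)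

variable (L : Subgroup G) [Fintype L]

theorem dd_ext_eq (K N : Subgroup G) (hnorm : ∀ n ∈ N, ∀ k ∈ K, n * k * n⁻¹ ∈ K)
    (hinf : K ⊓ N = ⊥) (hNL : N ≤ L) (w : L → ℂ) (x : G) :
    extendByZero (K ⊔ N) (fun m => w (ddRetrHom K N L hnorm hinf hNL m)) x =
      ∑ y : L, if (y : G) ∈ N ∧ x * (y : G)⁻¹ ∈ K then w y else 0 := by
  by_cases hx : x ∈ K ⊔ N
  · rw [ext_mem _ _ x hx]
    obtain ⟨k, hk, n, hn, e⟩ := sup_decomp K N hnorm x hx
    have r : ddRetr K N L x = ⟨n, hNL hn⟩ :=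
      ddRetr_eq K N L hinf _ ⟨n, hNL hn⟩ hn (by rw [e]; simpa using hk)
    show w (ddRetr K N L x) = _
    rw [r, Finset.sum_eq_single (⟨n, hNL hn⟩ : L)]
    · rw [if_pos]; exact ⟨hn, by rw [e]; simpa using hk⟩
    · intro y _ hy
      rw [if_neg]
      rintro ⟨h1, h2⟩
      apply hy
      rw [← r]; exact (ddRetr_eq K N L hinf x y h1 h2).symm
    · intro h; exact absurd (Finset.mem_univ _) h
  · rw [ext_not_mem _ _ x hx]
    symm
    apply Finset.sum_eq_zero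
    intro y _
    rw [if_neg]
    rintro ⟨h1, h2⟩
    apply hx
    have e : x = (x * (y : G)⁻¹) * y := by group
    rw [e]; exact Subgroup.mul_mem _ (Subgroup.mem_sup_left h2) (Subgroup.mem_sup_right h1)

theorem dd_sum_ite_mem_sub (N : Subgroup G) (hNL : N ≤ L) :
    ∑ y : L, (if (y : G) ∈ N then (1 : ℂ) else 0) = (Nat.card N : ℂ) := by
  have h1 := dd_sum_ite_mem (N.subgroupOf L)
  have h2 : Nat.card (N.subgroupOf L) = Nat.card N :=
    Nat.card_congr (Subgroup.subgroupOfEquivOfLe hNL).toEquiv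
  rw [h2] at h1
  rw [← h1]
  refine Finset.sum_congr rfl fun y _ => ?_
  simp only [Subgroup.mem_subgroupOf]

theorem dd_card_sup (K N : Subgroup G) (hnorm : ∀ n ∈ N, ∀ k ∈ K, n * k * n⁻¹ ∈ K)
    (hinf : K ⊓ N = ⊥) (hNL : N ≤ L) :
    (Nat.card ↥(K ⊔ N) : ℂ) = (Nat.card K : ℂ) * (Nat.card N : ℂ) := by
  have h1 : ∀ x : G, extendByZero (K ⊔ N) (fun _ : ↥(K ⊔ N) => (1 : ℂ)) x =
      ∑ y : L, if (y : G) ∈ N ∧ x * (y : G)⁻¹ ∈ K then (1 : ℂ) else 0 :=
    fun x => dd_ext_eq L K N hnorm hinf hNL (fun _ => (1 : ℂ)) x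
  have h2 : ∑ x : G, extendByZero (K ⊔ N) (fun _ : ↥(K ⊔ N) => (1 : ℂ)) x =
      (Nat.card ↥(K ⊔ N) : ℂ) := by
    rw [← dd_sum_ite_mem (K ⊔ N)]
    refine Finset.sum_congr rfl fun x _ => ?_
    by_cases hx : x ∈ K ⊔ N
    · rw [ext_mem _ _ x hx, if_pos hx]
    · rw [ext_not_mem _ _ x hx, if_neg hx]
  rw [← h2]
  simp_rw [h1]
  rw [Finset.sum_comm, ← dd_sum_ite_mem_sub L N hNL, Finset.mul_sum]
  refine Finset.sum_congr rfl fun y _ => ?_
  by_cases hy : (y : G) ∈ N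
  · rw [if_pos hy, mul_one, ← dd_sum_ite_mem K, ← Equiv.sum_comp (Equiv.mulRight (y : G))]
    refine Finset.sum_congr rfl fun x _ => ?_
    simp [hy]
  · rw [if_neg hy, mul_zero]
    apply Finset.sum_eq_zero
    intro x _
    rw [if_neg]
    exact fun h => hy h.1

end DadeC

section DadeD

variable {G : Type*} [Group G] [Fintype G] (A : Set G) (L : Subgroup G) [Fintype L]
  (H : G → Subgroup G) (hD : Cfsg.DadeHypothesis A L H)

include hD

omit [Fintype L] in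
theorem dd_hinf (B : Finset G) (hBA : ∀ b ∈ B, b ∈ A) (hne : B.Nonempty) :
    ddH H B ⊓ ddN L B = ⊥ := by
  ext x
  rw [Subgroup.mem_inf, Subgroup.mem_bot]
  constructor
  · rintro ⟨h1, h2⟩
    obtain ⟨b, hb⟩ := hne
    have hxH : x ∈ H b := (mem_ddH H B x).mp h1 b hb
    have h3 : x ∈ H b ⊓ (L ⊓ Subgroup.centralizer ({b} : Set G)) :=
      Subgroup.mem_inf.mpr ⟨hxH, Subgroup.mem_inf.mpr ⟨h2.1, hD.le_centralizer b (hBA b hb) hxH⟩⟩
    rw [hD.inf_eq_bot b (hBA b hb)] at h3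
    exact Subgroup.mem_bot.mp h3
  · rintro rfl
    exact ⟨Subgroup.one_mem _, Subgroup.one_mem _⟩

omit [Fintype L] in
theorem dd_hnorm (B : Finset G) (hBA : ∀ b ∈ B, b ∈ A) :
    ∀ n ∈ ddN L B, ∀ k ∈ ddH H B, n * k * n⁻¹ ∈ ddH H B :=
  fun n hn => ddH_conj_mem A L H hD B hBA n hn.1 hn.2

/-- each term of the expansion is a multiple of an induced generalized character -/
theorem dd_term_sum (w : L → ℂ) (hw : IsGeneralizedCharacter L w) (B : Finset G)
    (hB : B ∈ ddFam A) :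
    ∃ Ψ : G → ℂ, IsGeneralizedCharacter G Ψ ∧
      ∀ g, ∑ y : L, w y * ddTerm H (y : G) g B = (Nat.card (ddN L B) : ℂ) * Ψ g := by
  obtain ⟨hne, hBA⟩ := (mem_ddFam A B).mp hB
  have hnorm := dd_hnorm A L H hD B hBA
  have hinf := dd_hinf A L H hD B hBA hne
  have hNL := ddN_le L B
  let φ := ddRetrHom (ddH H B) (ddN L B) L hnorm hinf hNL
  have hgen : IsGeneralizedCharacter ↥(ddH H B ⊔ ddN L B) (fun m => w (φ m)) := by
    obtain ⟨χ, ψ, hχ, hψ, rfl⟩ := hw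
    refine ⟨fun m => χ (φ m), fun m => ψ (φ m), ?_, ?_, rfl⟩
    · obtain ⟨n, ρ, rfl⟩ := hχ
      exact ⟨n, ρ.comp φ, rfl⟩
    · obtain ⟨n, ρ, rfl⟩ := hψ
      exact ⟨n, ρ.comp φ, rfl⟩
  have hind := isGenChar_indFun (ddH H B ⊔ ddN L B) hgen
  refine ⟨fun g => (-1 : ℂ) ^ (B.card + 1) * indFun (ddH H B ⊔ ddN L B) (fun m => w (φ m)) g,
    ?_, ?_⟩
  · rcases neg_one_pow_eq_or ℂ (B.card + 1) with h | h
    · rw [h]
      have : (fun g => (1 : ℂ) * indFun (ddH H B ⊔ ddN L B) (fun m => w (φ m)) g) =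
          indFun (ddH H B ⊔ ddN L B) (fun m => w (φ m)) := by
        funext g; rw [one_mul]
      rw [this]; exact hind
    · rw [h]
      have : (fun g => (-1 : ℂ) * indFun (ddH H B ⊔ ddN L B) (fun m => w (φ m)) g) =
          -indFun (ddH H B ⊔ ddN L B) (fun m => w (φ m)) := by
        funext g; simp
      rw [this]; exact isGenChar_neg hind
  · intro g
    have hK : (Nat.card (ddH H B) : ℂ) ≠ 0 := by
      exact_mod_cast (Nat.card_pos (α := ddH H B)).ne'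
    have hN : (Nat.card (ddN L B) : ℂ) ≠ 0 := by
      exact_mod_cast (Nat.card_pos (α := ddN L B)).ne'
    -- the common sum
    have hS1 : ∑ y : L, w y * ddTerm H (y : G) g B =
        (-1 : ℂ) ^ (B.card + 1) * (∑ y : L, (if (y : G) ∈ ddN L B then
          w y * ddCnt (ddH H B) (y : G) g else 0)) / (Nat.card (ddH H B) : ℂ) := by
      rw [Finset.mul_sum, Finset.sum_div]
      refine Finset.sum_congr rfl fun y _ => ?_
      unfold ddTerm
      by_cases hy : ddStab (y : G) B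
      · rw [if_pos hy, if_pos ((mem_ddN L B y).mpr ⟨y.2, hy⟩)]
        ring
      · rw [if_neg hy, if_neg (fun h => hy ((mem_ddN L B y).mp h).2)]
        ring
    have hS2 : indFun (ddH H B ⊔ ddN L B) (fun m => w (φ m)) g =
        (∑ y : L, (if (y : G) ∈ ddN L B then w y * ddCnt (ddH H B) (y : G) g else 0)) /
          ((Nat.card (ddH H B) : ℂ) * (Nat.card (ddN L B) : ℂ)) := by
      unfold indFun
      rw [dd_card_sup L (ddH H B) (ddN L B) hnorm hinf hNL, inv_mul_eq_div]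
      congr 1
      have h1 : ∀ x : G, extendByZero (ddH H B ⊔ ddN L B) (fun m => w (φ m)) (x⁻¹ * g * x) =
          ∑ y : L, if (y : G) ∈ ddN L B ∧ x⁻¹ * g * x * (y : G)⁻¹ ∈ ddH H B then w y else 0 :=
        fun x => dd_ext_eq L (ddH H B) (ddN L B) hnorm hinf hNL w (x⁻¹ * g * x)
      simp_rw [h1]
      rw [Finset.sum_comm]
      refine Finset.sum_congr rfl fun y _ => ?_
      by_cases hy : (y : G) ∈ ddN L B
      · rw [if_pos hy]
        unfold ddCnt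
        rw [Finset.mul_sum, ← Equiv.sum_comp (Equiv.inv G)]
        refine Finset.sum_congr rfl fun x _ => ?_
        simp only [Equiv.inv_apply, inv_inv, hy, true_and]
        by_cases hx : x * g * x⁻¹ * (y : G)⁻¹ ∈ ddH H B
        · rw [if_pos hx, if_pos hx, mul_one]
        · rw [if_neg hx, if_neg hx, mul_zero]
      · rw [if_neg hy]
        apply Finset.sum_eq_zero
        intro x _
        rw [if_neg]
        exact fun h => hy h.1
    show _ = (Nat.card (ddN L B) : ℂ) * ((-1 : ℂ) ^ (B.card + 1) *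
      indFun (ddH H B ⊔ ddN L B) (fun m => w (φ m)) g)
    rw [hS1, hS2]
    field_simp

omit [Fintype L] in
theorem mem_ddH_cj (B : Finset G) (hBA : ∀ b ∈ B, b ∈ A) (l : G) (hl : l ∈ L) (h : G) :
    h ∈ ddH H (ddCj l B) ↔ l⁻¹ * h * l ∈ ddH H B := by
  rw [mem_ddH, mem_ddH]
  have key : ∀ b ∈ B, (h ∈ H (l * b * l⁻¹) ↔ l⁻¹ * h * l ∈ H b) := by
    intro b hb
    rw [dade_H_conj A L H hD b (hBA b hb) l hl]
    constructor
    · rintro ⟨u, hu, rfl⟩
      simp only [MulEquiv.toMonoidHom_eq_coe, MonoidHom.coe_coe, MulAut.conj_apply]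
      have e : l⁻¹ * (l * u * l⁻¹) * l = u := by group
      rw [e]; exact hu
    · intro hu
      refine ⟨l⁻¹ * h * l, hu, ?_⟩
      simp only [MulEquiv.toMonoidHom_eq_coe, MonoidHom.coe_coe, MulAut.conj_apply]
      group
  constructor
  · intro hh b hb
    apply (key b hb).mp
    apply hh
    rw [mem_ddCj]
    have e : l⁻¹ * (l * b * l⁻¹) * l = b := by group
    rw [e]; exact hb
  · intro hh c hc
    rw [mem_ddCj] at hc
    have := (key _ hc).mpr (hh _ hc)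
    have e : l * (l⁻¹ * c * l) * l⁻¹ = c := by group
    rwa [e] at this

omit [Fintype L] in
theorem ddTerm_conj (B : Finset G) (hBA : ∀ b ∈ B, b ∈ A) (l : G) (hl : l ∈ L) (y g : G) :
    ddTerm H (l * y * l⁻¹) g (ddCj l B) = ddTerm H y g B := by
  have hcnt : ddCnt (ddH H (ddCj l B)) (l * y * l⁻¹) g = ddCnt (ddH H B) y g := by
    unfold ddCnt
    rw [← Equiv.sum_comp (Equiv.mulLeft l)]
    refine Finset.sum_congr rfl fun x _ => ?_
    have hiff : (l * x * g * (l * x)⁻¹ * (l * y * l⁻¹)⁻¹ ∈ ddH H (ddCj l B)) ↔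
        (x * g * x⁻¹ * y⁻¹ ∈ ddH H B) := by
      rw [mem_ddH_cj A L H hD B hBA l hl]
      have e : l⁻¹ * (l * x * g * (l * x)⁻¹ * (l * y * l⁻¹)⁻¹) * l = x * g * x⁻¹ * y⁻¹ := by
        group
      rw [e]
    show (if l * x * g * (l * x)⁻¹ * (l * y * l⁻¹)⁻¹ ∈ ddH H (ddCj l B) then (1 : ℂ) else 0) = _
    exact if_congr hiff rfl rfl
  have hcard : (Nat.card (ddH H (ddCj l B)) : ℂ) = (Nat.card (ddH H B) : ℂ) := by
    rw [← dd_sum_ite_mem, ← dd_sum_ite_mem, ← Equiv.sum_comp (MulAut.conj l).toEquiv]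
    refine Finset.sum_congr rfl fun u _ => ?_
    have hiff : (l * u * l⁻¹ ∈ ddH H (ddCj l B)) ↔ (u ∈ ddH H B) := by
      rw [mem_ddH_cj A L H hD B hBA l hl]
      have e : l⁻¹ * (l * u * l⁻¹) * l = u := by group
      rw [e]
    show (if l * u * l⁻¹ ∈ ddH H (ddCj l B) then (1 : ℂ) else 0) = _
    exact if_congr hiff rfl rfl
  unfold ddTerm
  by_cases hst : ddStab y B
  · rw [if_pos hst, if_pos ((ddStab_conj_iff l y B).mpr hst), hcnt, hcard, ddCj_card]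
  · rw [if_neg hst, if_neg (fun h => hst ((ddStab_conj_iff l y B).mp h))]

theorem dd_term_sum_conj (w : L → ℂ) (hw : IsClassFunction L w) (B : Finset G)
    (hBA : ∀ b ∈ B, b ∈ A) (l : G) (hl : l ∈ L) (g : G) :
    ∑ y : L, w y * ddTerm H (y : G) g (ddCj l B) = ∑ y : L, w y * ddTerm H (y : G) g B := by
  rw [← Equiv.sum_comp (MulAut.conj (⟨l, hl⟩ : L)).toEquiv]
  refine Finset.sum_congr rfl fun y _ => ?_
  have e1 : (MulAut.conj (⟨l, hl⟩ : L)).toEquiv y = ⟨l, hl⟩ * y * ⟨l, hl⟩⁻¹ := by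
    simp [MulAut.conj_apply]
  rw [e1, hw y ⟨l, hl⟩]
  congr 1
  exact ddTerm_conj A L H hD B hBA l hl (y : G) g

end DadeD

section DadeOrbit

variable {G : Type*} [Group G] [Fintype G]

theorem dd_orbit_stab (L : Subgroup G) (𝔅 : Finset (Finset G))
    (h𝔅 : ∀ B ∈ 𝔅, ∀ l ∈ L, ddCj l B ∈ 𝔅) (B₀ : Finset G) (hB₀ : B₀ ∈ 𝔅) :
    (𝔅.filter (fun B => ∃ l ∈ L, ddCj l B₀ = B)).card * Nat.card (ddN L B₀) = Nat.card L := by
  have hLf : (Finset.univ.filter (fun l : G => l ∈ L)).card = Nat.card L := by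
    rw [Nat.card_eq_fintype_card, Fintype.card_subtype]
  have hNf : (Finset.univ.filter (fun n : G => n ∈ ddN L B₀)).card = Nat.card (ddN L B₀) := by
    rw [Nat.card_eq_fintype_card, Fintype.card_subtype]
  have hmaps : ∀ l ∈ Finset.univ.filter (fun l : G => l ∈ L),
      ddCj l B₀ ∈ 𝔅.filter (fun B => ∃ l ∈ L, ddCj l B₀ = B) := by
    intro l hl
    have hl' : l ∈ L := (Finset.mem_filter.mp hl).2
    exact Finset.mem_filter.mpr ⟨h𝔅 B₀ hB₀ l hl', l, hl', rfl⟩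
  rw [← hLf, Finset.card_eq_sum_card_fiberwise hmaps, ← hNf]
  rw [Finset.sum_congr rfl (g := fun _ => (Finset.univ.filter (fun n : G => n ∈ ddN L B₀)).card)]
  · rw [Finset.sum_const, smul_eq_mul]
  · intro B hB
    obtain ⟨-, l₀, hl₀, rfl⟩ := Finset.mem_filter.mp hB
    apply Finset.card_nbij' (fun l => l₀⁻¹ * l) (fun n => l₀ * n)
    · intro l hl
      simp only [Finset.coe_filter, Finset.mem_filter, Finset.mem_univ, true_and,
        Set.mem_setOf_eq] at hl ⊢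
      obtain ⟨hlL, hlB⟩ := hl
      refine (mem_ddN L B₀ _).mpr ⟨L.mul_mem (L.inv_mem hl₀) hlL, ?_⟩
      rw [← ddCj_eq_self_iff, ddCj_mul, hlB, ← ddCj_mul, inv_mul_cancel, ddCj_one]
    · intro n hn
      simp only [Finset.coe_filter, Finset.mem_filter, Finset.mem_univ, true_and,
        Set.mem_setOf_eq] at hn ⊢
      obtain ⟨hnL, hnst⟩ := (mem_ddN L B₀ n).mp hn
      refine ⟨L.mul_mem hl₀ hnL, ?_⟩
      rw [ddCj_mul, (ddCj_eq_self_iff n B₀).mpr hnst]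
    · intro l _
      simp
    · intro n _
      simp

theorem dd_orbit (L : Subgroup G) (T : Finset G → G → ℂ) :
    ∀ (n : ℕ) (𝔅 : Finset (Finset G)), 𝔅.card = n →
      (∀ B ∈ 𝔅, ∀ l ∈ L, ddCj l B ∈ 𝔅) →
      (∀ B ∈ 𝔅, ∀ l ∈ L, T (ddCj l B) = T B) →
      (∀ B ∈ 𝔅, ∃ Ψ : G → ℂ, IsGeneralizedCharacter G Ψ ∧
        ∀ g, T B g = (Nat.card (ddN L B) : ℂ) * Ψ g) →
      IsGeneralizedCharacter G (fun g => (Nat.card L : ℂ)⁻¹ * ∑ B ∈ 𝔅, T B g) := by
  intro n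
  induction n using Nat.strong_induction_on with
  | _ n ih =>
  intro 𝔅 hcard h𝔅 hinv hT
  rcases 𝔅.eq_empty_or_nonempty with rfl | ⟨B₀, hB₀⟩
  · have : (fun g => (Nat.card L : ℂ)⁻¹ * ∑ B ∈ (∅ : Finset (Finset G)), T B g) = 0 := by
      funext g; simp
    rw [this]; exact isGenChar_zero
  · have hsplit : (fun g => (Nat.card L : ℂ)⁻¹ * ∑ B ∈ 𝔅, T B g) =
        (fun g => (Nat.card L : ℂ)⁻¹ *
          ∑ B ∈ 𝔅.filter (fun B => ∃ l ∈ L, ddCj l B₀ = B), T B g) +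
        (fun g => (Nat.card L : ℂ)⁻¹ *
          ∑ B ∈ 𝔅.filter (fun B => ¬ ∃ l ∈ L, ddCj l B₀ = B), T B g) := by
      funext g
      rw [Pi.add_apply, ← mul_add, Finset.sum_filter_add_sum_filter_not]
    rw [hsplit]
    apply isGenChar_add
    · obtain ⟨Ψ₀, hΨ₀, hT₀⟩ := hT B₀ hB₀
      have : (fun g => (Nat.card L : ℂ)⁻¹ *
          ∑ B ∈ 𝔅.filter (fun B => ∃ l ∈ L, ddCj l B₀ = B), T B g) = Ψ₀ := by
        funext g
        have h1 : ∑ B ∈ 𝔅.filter (fun B => ∃ l ∈ L, ddCj l B₀ = B), T B g =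
            ∑ B ∈ 𝔅.filter (fun B => ∃ l ∈ L, ddCj l B₀ = B), T B₀ g := by
          refine Finset.sum_congr rfl fun B hB => ?_
          obtain ⟨-, l, hl, rfl⟩ := Finset.mem_filter.mp hB
          rw [hinv B₀ hB₀ l hl]
        rw [h1, Finset.sum_const, nsmul_eq_mul, hT₀ g]
        have h2 := dd_orbit_stab L 𝔅 h𝔅 B₀ hB₀
        have hL : (Nat.card L : ℂ) ≠ 0 := by exact_mod_cast (Nat.card_pos (α := L)).ne'
        have h3 : (((𝔅.filter (fun B => ∃ l ∈ L, ddCj l B₀ = B)).card : ℕ) : ℂ) *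
            (Nat.card (ddN L B₀) : ℂ) = (Nat.card L : ℂ) := by exact_mod_cast h2
        rw [← mul_assoc, ← mul_assoc, mul_assoc (Nat.card L : ℂ)⁻¹, h3, inv_mul_cancel₀ hL,
          one_mul]
      rw [this]; exact hΨ₀
    · have hlt : (𝔅.filter (fun B => ¬ ∃ l ∈ L, ddCj l B₀ = B)).card < n := by
        rw [← hcard]
        apply Finset.card_lt_card
        rw [Finset.filter_ssubset]
        exact ⟨B₀, hB₀, fun h => h ⟨1, L.one_mem, ddCj_one B₀⟩⟩
      apply ih _ hlt _ rfl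
      · intro B hB l hl
        obtain ⟨hB1, hB2⟩ := Finset.mem_filter.mp hB
        refine Finset.mem_filter.mpr ⟨h𝔅 B hB1 l hl, ?_⟩
        rintro ⟨l', hl', h'⟩
        apply hB2
        refine ⟨l⁻¹ * l', L.mul_mem (L.inv_mem hl) hl', ?_⟩
        rw [ddCj_mul, h', ← ddCj_mul, inv_mul_cancel, ddCj_one]
      · intro B hB l hl
        exact hinv B (Finset.mem_filter.mp hB).1 l hl
      · intro B hB
        exact hT B (Finset.mem_filter.mp hB).1

end DadeOrbit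

section DadeMain

variable {G : Type*} [Group G] [Fintype G] (A : Set G) (L : Subgroup G) [Fintype L]
  (H : G → Subgroup G) (hD : Cfsg.DadeHypothesis A L H)

include hD

/-- **Dade**: the Dade map sends generalized characters supported on `A` to generalized
characters. -/
theorem dade_isGenChar (α : L → ℂ) (hα : IsGeneralizedCharacter L α)
    (hαA : ∀ x : L, (x : G) ∉ A → α x = 0) :
    IsGeneralizedCharacter G (Cfsg.dadeIsometry A L H α) := by
  have hcl : IsClassFunction L α := by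
    obtain ⟨χ, ψ, hχ, hψ, rfl⟩ := hα
    intro g h
    simp only [Pi.sub_apply]
    rw [isClassFunction_of_isCharacter hχ g h, isClassFunction_of_isCharacter hψ g h]
  have hfun : Cfsg.dadeIsometry A L H α =
      fun g => (Nat.card L : ℂ)⁻¹ * ∑ B ∈ ddFam A, ∑ y : L, α y * ddTerm H (y : G) g B := by
    funext g
    rw [← dd_expansion A L H hD α hcl hαA g]
    have hL : (Nat.card L : ℂ) ≠ 0 := by exact_mod_cast (Nat.card_pos (α := L)).ne'
    field_simp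
  rw [hfun]
  apply dd_orbit L (fun B g => ∑ y : L, α y * ddTerm H (y : G) g B) _ (ddFam A) rfl
  · intro B hB l hl
    obtain ⟨hne, hBA⟩ := (mem_ddFam A B).mp hB
    refine (mem_ddFam A _).mpr ⟨?_, ?_⟩
    · unfold ddCj; exact hne.image _
    · intro c hc
      rw [mem_ddCj] at hc
      have := hD.conj_mem l hl _ (hBA _ hc)
      have e : l * (l⁻¹ * c * l) * l⁻¹ = c := by group
      rwa [e] at this
  · intro B hB l hl
    obtain ⟨hne, hBA⟩ := (mem_ddFam A B).mp hB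
    funext g
    exact dd_term_sum_conj A L H hD α hcl B hBA l hl g
  · intro B hB
    exact dd_term_sum A L H hD α hα B hB

end DadeMain

end Cfsg.Agent.Lib.Helper79
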