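import Mathlib
import Cfsg.Prelude.Def_Characters
import Cfsg.Prelude.Def_Blocks
import Cfsg.Agent.Lib.Helper83.Unitary
import Cfsg.Agent.Lib.Helper79.FSReal

set_option autoImplicit false

namespace Cfsg.Agent.Lib.Helper79

open scoped ComplexConjugate
open Cfsg.Agent.Lib.Helper4
open Matrix Module

section Cj

variable {n : ℕ}

/-- Entrywise complex conjugation of a matrix. -/
noncomputable def cj (M : Matrix (Fin n) (Fin n) ℂ) : Matrix (Fin n) (Fin n) ℂ :=
  M.map (starRingEnd ℂ)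

theorem cj_apply (M : Matrix (Fin n) (Fin n) ℂ) (i j : Fin n) : cj M i j = conj (M i j) := rfl

theorem cj_mul (A B : Matrix (Fin n) (Fin n) ℂ) : cj (A * B) = cj A * cj B :=
  Matrix.map_mul

theorem cj_cj (A : Matrix (Fin n) (Fin n) ℂ) : cj (cj A) = A := by
  ext i j; simp [cj_apply]

theorem cj_one : cj (1 : Matrix (Fin n) (Fin n) ℂ) = 1 := by
  ext i j
  by_cases h : i = j <;> simp [cj_apply, Matrix.one_apply, h]

theorem cj_smul (c : ℂ) (A : Matrix (Fin n) (Fin n) ℂ) : cj (c • A) = conj c • cj A := by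
  ext i j; simp [cj_apply]

theorem cj_add (A B : Matrix (Fin n) (Fin n) ℂ) : cj (A + B) = cj A + cj B := by
  ext i j; simp [cj_apply]

theorem cj_eq (A : Matrix (Fin n) (Fin n) ℂ) : cj A = (Aᴴ)ᵀ := by
  ext i j; simp [cj_apply, Matrix.conjTranspose_apply]

theorem cj_injective : Function.Injective (cj : Matrix (Fin n) (Fin n) ℂ → _) := by
  intro A B h
  have := congrArg cj h
  rwa [cj_cj, cj_cj] at this

/-- "Hilbert 90": a matrix `K` with `cj K * K = 1` is of the form `cj P * P⁻¹`. -/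
theorem exists_real_form (K : Matrix (Fin n) (Fin n) ℂ) (hK : cj K * K = 1) :
    ∃ P : Matrix (Fin n) (Fin n) ℂ, IsUnit P.det ∧ cj P = K * P := by
  have hKC : K * cj K = 1 := mul_eq_one_comm.1 hK
  set q := (-(cj K)).charpoly with hq
  have hq0 : q ≠ 0 := (Matrix.charpoly_monic _).ne_zero
  have hfin : {x : ℂ | q.IsRoot x}.Finite := Polynomial.finite_setOf_isRoot hq0
  let w : ℝ → ℂ := fun t => (1 + (t : ℂ) * Complex.I) / (1 - (t : ℂ) * Complex.I)
  have hden : ∀ t : ℝ, (1 - (t : ℂ) * Complex.I) ≠ 0 := by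
    intro t h
    have := congrArg Complex.re h
    simp at this
  have hnum : ∀ t : ℝ, (1 + (t : ℂ) * Complex.I) ≠ 0 := by
    intro t h
    have := congrArg Complex.re h
    simp at this
  have hinj : Function.Injective w := by
    intro t s h
    simp only [w] at h
    rw [div_eq_div_iff (hden t) (hden s)] at h
    have h2 : (2 : ℂ) * Complex.I * ((t : ℂ) - (s : ℂ)) = 0 := by linear_combination h
    have h3 : (t : ℂ) - (s : ℂ) = 0 := by
      rcases mul_eq_zero.1 h2 with h4 | h4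
      · exfalso
        rcases mul_eq_zero.1 h4 with h5 | h5
        · norm_num at h5
        · exact Complex.I_ne_zero h5
      · exact h4
    have h4 : (t : ℂ) = (s : ℂ) := sub_eq_zero.1 h3
    exact_mod_cast h4
  have hfin2 : (w ⁻¹' {x : ℂ | q.IsRoot x}).Finite := hfin.preimage hinj.injOn
  obtain ⟨t, ht⟩ := hfin2.exists_notMem
  have ht' : ¬ q.IsRoot (w t) := ht
  set θ : ℂ := 1 + (t : ℂ) * Complex.I with hθ
  have hθc : conj θ = 1 - (t : ℂ) * Complex.I := by
    rw [hθ]; simp [sub_eq_add_neg]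
  have hθc0 : conj θ ≠ 0 := by rw [hθc]; exact hden t
  refine ⟨θ • (1 : Matrix (Fin n) (Fin n) ℂ) + conj θ • cj K, ?_, ?_⟩
  · have h1 : θ • (1 : Matrix (Fin n) (Fin n) ℂ) + conj θ • cj K
        = conj θ • (Matrix.scalar (Fin n) (w t) - (-(cj K))) := by
      have hw : conj θ * w t = θ := by
        simp only [w]
        rw [hθc, hθ]
        field_simp [hden t]
      ext i j
      by_cases hij : i = j
      · subst hij
        simp only [Matrix.add_apply, Matrix.smul_apply, Matrix.one_apply_eq, smul_eq_mul, mul_one,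
          Matrix.sub_apply, Matrix.scalar_apply, Matrix.diagonal_apply_eq, Matrix.neg_apply,
          sub_neg_eq_add, mul_add, hw]
      · simp [Matrix.one_apply, hij, Matrix.diagonal_apply_ne _ hij]
    rw [h1, Matrix.det_smul, ← Matrix.eval_charpoly]
    apply IsUnit.mul
    · exact (isUnit_iff_ne_zero.2 hθc0).pow _
    · exact isUnit_iff_ne_zero.2 ht'
  · rw [cj_add, cj_smul, cj_smul, cj_one, cj_cj, Complex.conj_conj, Matrix.mul_add,
      Matrix.mul_smul, Matrix.mul_smul, Matrix.mul_one, hKC, add_comm]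

end Cj

section IndToReal

variable {G : Type*} [Group G] {n : ℕ}

/-- Schur's lemma in matrix form. -/
theorem commute_eq_smul_one (ρ : Representation ℂ G (Fin n → ℂ)) [hirr : ρ.IsIrreducible]
    (C : Matrix (Fin n) (Fin n) ℂ) (hC : ∀ g : G, C * repMat ρ g = repMat ρ g * C) :
    ∃ a : ℂ, C = a • (1 : Matrix (Fin n) (Fin n) ℂ) := by
  let T : Representation.IntertwiningMap ρ ρ := ⟨Matrix.toLin' C, by
    intro g
    rw [← toLin'_repMat ρ g, ← Matrix.toLin'_mul, ← Matrix.toLin'_mul, hC g]⟩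
  obtain ⟨a, ha⟩ :=
    (Representation.IsIrreducible.algebraMap_intertwiningMap_bijective_of_isAlgClosed (ρ := ρ)).2 T
  have h1 : Matrix.toLin' C = a • LinearMap.id := by
    have h2 := congrArg Representation.IntertwiningMap.toLinearMap ha
    rw [Representation.IntertwiningMap.algebraMap_apply] at h2
    exact h2.symm
  refine ⟨a, ?_⟩
  apply Matrix.toLin'.injective
  rw [h1, map_smul, Matrix.toLin'_one]

/-- A matrix with real entries (fixed by `cj`) is the complexification of a real matrix. -/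
theorem map_ofReal_map_re (Y : Matrix (Fin n) (Fin n) ℂ) (hY : cj Y = Y) :
    (Y.map Complex.re).map Complex.ofReal = Y := by
  ext i j
  have h := congrFun (congrFun hY i) j
  rw [cj_apply] at h
  simp only [Matrix.map_apply]
  exact Complex.conj_eq_iff_re.1 h

variable [Fintype G]

/-- Key construction: a real form for a unitary matrix representation with a symmetric
invariant form. -/
theorem exists_real_matrix_rep (ρ : Representation ℂ G (Fin n → ℂ)) [hirr : ρ.IsIrreducible]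
    (M₀ : Matrix (Fin n) (Fin n) ℂ) (hM₀ : M₀ ≠ 0) (hsym : M₀ᵀ = M₀)
    (hinv₀ : ∀ g : G, (repMat ρ g)ᵀ * M₀ * repMat ρ g = M₀) :
    ∃ Q : Matrix (Fin n) (Fin n) ℂ, IsUnit Q.det ∧
      ∀ g : G, cj (Q⁻¹ * repMat ρ g * Q) = Q⁻¹ * repMat ρ g * Q := by
  classical
  obtain ⟨B, hBu, hBU⟩ := Cfsg.Agent.Lib.Helper83.exists_unitarizer (repMat ρ)
  have hBdet : IsUnit B.det := (Matrix.isUnit_iff_isUnit_det B).1 hBu
  have hBB : B⁻¹ * B = 1 := Matrix.nonsing_inv_mul _ hBdet
  have hBB' : B * B⁻¹ = 1 := Matrix.mul_nonsing_inv _ hBdet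
  set U : G → Matrix (Fin n) (Fin n) ℂ := fun g => B * repMat ρ g * B⁻¹ with hU
  set N : Matrix (Fin n) (Fin n) ℂ := (B⁻¹)ᵀ * M₀ * B⁻¹ with hN
  have hNsym : Nᵀ = N := by
    rw [hN]
    simp only [Matrix.transpose_mul, Matrix.transpose_transpose, hsym, Matrix.mul_assoc]
  have hM₀N : M₀ = Bᵀ * N * B := by
    rw [hN]
    have h1 : Bᵀ * (B⁻¹)ᵀ = 1 := by rw [← Matrix.transpose_mul, hBB, Matrix.transpose_one]
    calc M₀ = (Bᵀ * (B⁻¹)ᵀ) * M₀ * (B⁻¹ * B) := by rw [h1, hBB, Matrix.one_mul, Matrix.mul_one]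
      _ = Bᵀ * ((B⁻¹)ᵀ * M₀ * B⁻¹) * B := by simp only [Matrix.mul_assoc]
  have hN0 : N ≠ 0 := by
    intro h
    apply hM₀
    rw [hM₀N, h, Matrix.mul_zero, Matrix.zero_mul]
  have hNinv : ∀ g : G, (U g)ᵀ * N * U g = N := by
    intro g
    have h1 : Bᵀ * (B⁻¹)ᵀ = 1 := by rw [← Matrix.transpose_mul, hBB, Matrix.transpose_one]
    calc (U g)ᵀ * N * U g
        = (B⁻¹)ᵀ * ((repMat ρ g)ᵀ * ((Bᵀ * (B⁻¹)ᵀ) * M₀ * (B⁻¹ * B)) * repMat ρ g) * B⁻¹ := by
          simp only [hU, hN, Matrix.transpose_mul, Matrix.mul_assoc]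
      _ = (B⁻¹)ᵀ * ((repMat ρ g)ᵀ * M₀ * repMat ρ g) * B⁻¹ := by
          rw [h1, hBB, Matrix.one_mul, Matrix.mul_one]
      _ = N := by rw [hinv₀ g]
  have hUunit : ∀ g : G, cj (U g) * (U g)ᵀ = 1 := by
    intro g
    have h1 : star (U g) * U g = 1 := Matrix.mem_unitaryGroup_iff'.1 (hBU g)
    rw [Matrix.star_eq_conjTranspose] at h1
    have h2 : U g * (U g)ᴴ = 1 := mul_eq_one_comm.1 h1
    have h3 := congrArg Matrix.transpose h2
    rw [Matrix.transpose_mul, Matrix.transpose_one] at h3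
    rw [cj_eq]; exact h3
  have hNU : ∀ g : G, N * U g = cj (U g) * N := by
    intro g
    calc N * U g = (cj (U g) * (U g)ᵀ) * N * U g := by rw [hUunit g, Matrix.one_mul]
      _ = cj (U g) * ((U g)ᵀ * N * U g) := by simp only [Matrix.mul_assoc]
      _ = cj (U g) * N := by rw [hNinv g]
  have hLcomm : ∀ g : G, (cj N * N) * U g = U g * (cj N * N) := by
    intro g
    have h1 : cj N * cj (U g) = U g * cj N := by
      have := congrArg cj (hNU g)
      rw [cj_mul N (U g), cj_mul (cj (U g)) N, cj_cj] at this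
      exact this
    calc (cj N * N) * U g = cj N * (N * U g) := by rw [Matrix.mul_assoc]
      _ = cj N * (cj (U g) * N) := by rw [hNU g]
      _ = (cj N * cj (U g)) * N := by rw [Matrix.mul_assoc]
      _ = U g * (cj N * N) := by rw [h1, Matrix.mul_assoc]
  have hC₀ : ∀ g : G, (B⁻¹ * (cj N * N) * B) * repMat ρ g = repMat ρ g * (B⁻¹ * (cj N * N) * B) := by
    intro g
    have h1 := hLcomm g
    simp only [hU] at h1
    calc (B⁻¹ * (cj N * N) * B) * repMat ρ g
        = B⁻¹ * ((cj N * N) * (B * repMat ρ g * B⁻¹)) * B := by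
          simp only [Matrix.mul_assoc, hBB, Matrix.mul_one]
      _ = B⁻¹ * ((B * repMat ρ g * B⁻¹) * (cj N * N)) * B := by rw [h1]
      _ = repMat ρ g * (B⁻¹ * (cj N * N) * B) := by
          simp only [Matrix.mul_assoc]
          rw [← Matrix.mul_assoc B⁻¹ B, hBB, Matrix.one_mul]
  obtain ⟨a, ha⟩ := commute_eq_smul_one ρ _ hC₀
  have hL : cj N * N = a • (1 : Matrix (Fin n) (Fin n) ℂ) := by
    calc cj N * N = (B * B⁻¹) * (cj N * N) * (B * B⁻¹) := by
          rw [hBB', Matrix.one_mul, Matrix.mul_one]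
      _ = B * (B⁻¹ * (cj N * N) * B) * B⁻¹ := by simp only [Matrix.mul_assoc]
      _ = a • (1 : Matrix (Fin n) (Fin n) ℂ) := by
          rw [ha, Matrix.mul_smul, Matrix.smul_mul, Matrix.mul_one, hBB']
  -- `a` is a positive real
  have hex : ∃ i₀ j₀, N i₀ j₀ ≠ 0 := by
    by_contra hcon
    push Not at hcon
    apply hN0
    ext i j
    exact hcon i j
  obtain ⟨i₀, j₀, hij⟩ := hex
  have hadiag : a = ((∑ i : Fin n, Complex.normSq (N i j₀) : ℝ) : ℂ) := by
    have h1 := congrFun (congrFun hL j₀) j₀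
    rw [Matrix.smul_apply, Matrix.one_apply_eq, smul_eq_mul, mul_one, Matrix.mul_apply] at h1
    rw [← h1]
    push_cast
    refine Finset.sum_congr rfl fun i _ => ?_
    have h2 : N j₀ i = N i j₀ := by
      have := congrFun (congrFun hNsym i) j₀
      rw [Matrix.transpose_apply] at this
      exact this
    rw [cj_apply, h2, Complex.normSq_eq_conj_mul_self]
  set r : ℝ := ∑ i : Fin n, Complex.normSq (N i j₀) with hr
  have hrpos : 0 < r := by
    have h1 : Complex.normSq (N i₀ j₀) ≤ r :=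
      Finset.single_le_sum (f := fun i => Complex.normSq (N i j₀))
        (fun i _ => Complex.normSq_nonneg _) (Finset.mem_univ i₀)
    have h2 : 0 < Complex.normSq (N i₀ j₀) := Complex.normSq_pos.2 hij
    linarith
  set μ : ℝ := (Real.sqrt r)⁻¹ with hμ
  have hμ2 : μ * μ * r = 1 := by
    have h1 : Real.sqrt r * Real.sqrt r = r := Real.mul_self_sqrt hrpos.le
    have h2 : Real.sqrt r ≠ 0 := (Real.sqrt_pos.2 hrpos).ne'
    rw [hμ]
    field_simp
    rw [sq, h1]
  set K : Matrix (Fin n) (Fin n) ℂ := (μ : ℂ) • N with hKdef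
  have hK : cj K * K = 1 := by
    rw [hKdef, cj_smul, Complex.conj_ofReal, Matrix.smul_mul, Matrix.mul_smul, hL, hadiag,
      smul_smul, smul_smul]
    have : ((μ : ℂ) * (μ : ℂ) * ((r : ℝ) : ℂ)) = 1 := by exact_mod_cast hμ2
    rw [this, one_smul]
  have hKU : ∀ g : G, K * U g = cj (U g) * K := by
    intro g
    rw [hKdef, Matrix.smul_mul, Matrix.mul_smul, hNU g]
  obtain ⟨P, hPu, hP⟩ := exists_real_form K hK
  have hPP : P⁻¹ * P = 1 := Matrix.nonsing_inv_mul _ hPu
  have hPP' : P * P⁻¹ = 1 := Matrix.mul_nonsing_inv _ hPu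
  have hYreal : ∀ g : G, cj (P⁻¹ * U g * P) = P⁻¹ * U g * P := by
    intro g
    have h1 : P * (P⁻¹ * U g * P) = U g * P := by
      rw [← Matrix.mul_assoc, ← Matrix.mul_assoc, hPP', Matrix.one_mul]
    have h2 := congrArg cj h1
    rw [cj_mul P (P⁻¹ * U g * P), cj_mul (U g) P, hP] at h2
    -- K * P * cj Y = cj U * (K * P) = K * U * P
    have h3 : K * (P * cj (P⁻¹ * U g * P)) = K * (U g * P) := by
      rw [← Matrix.mul_assoc, h2, ← Matrix.mul_assoc, ← hKU g, Matrix.mul_assoc]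
    have h4 : P * cj (P⁻¹ * U g * P) = U g * P := by
      have := congrArg (fun Z => cj K * Z) h3
      simp only [← Matrix.mul_assoc, hK, Matrix.one_mul] at this
      exact this
    have h5 : P * cj (P⁻¹ * U g * P) = P * (P⁻¹ * U g * P) := by rw [h4, h1]
    have := congrArg (fun Z => P⁻¹ * Z) h5
    simp only [← Matrix.mul_assoc, hPP, Matrix.one_mul] at this
    exact this
  refine ⟨B⁻¹ * P, ?_, ?_⟩
  · rw [Matrix.det_mul]
    exact (Matrix.isUnit_nonsing_inv_det _ hBdet).mul hPu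
  · intro g
    have hQinv : (B⁻¹ * P)⁻¹ = P⁻¹ * B := by
      apply Matrix.inv_eq_left_inv
      calc P⁻¹ * B * (B⁻¹ * P) = P⁻¹ * (B * B⁻¹) * P := by simp only [Matrix.mul_assoc]
        _ = 1 := by rw [hBB', Matrix.mul_one, hPP]
    have h1 : (B⁻¹ * P)⁻¹ * repMat ρ g * (B⁻¹ * P) = P⁻¹ * U g * P := by
      rw [hQinv]
      simp only [hU, Matrix.mul_assoc]
    rw [h1]
    exact hYreal g

/-- An irreducible character with Frobenius–Schur indicator `1` is afforded by a real
representation. -/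
theorem exists_real_rep_of_fsInd_eq_one (χ : Cfsg.IrrCharacter G)
    (h : fsInd (χ : G → ℂ) = 1) :
    ∃ (n : ℕ) (ρ : Representation ℝ G (Fin n → ℝ)),
      ∀ g : G, ((LinearMap.trace ℝ (Fin n → ℝ) (ρ g) : ℝ) : ℂ) = (χ : G → ℂ) g := by
  classical
  obtain ⟨n, ρ, hρ, hχ⟩ := χ.2
  haveI := hρ
  have hν : fsInd ρ.character = 1 := by rw [hχ]; exact h
  have hreal : ∀ g : G, (ρ.character g).im = 0 := by
    by_contra hnr
    have := (fsInd_trichotomy ρ).2 hnr
    rw [hν] at this
    exact one_ne_zero this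
  obtain ⟨M₀, hM₀, hinv₀⟩ := exists_invariant_of_real ρ hreal
  have hsym : M₀ᵀ = M₀ := by
    have := (transpose_eq_fsInd_smul ρ hreal).2 M₀ hinv₀
    rw [hν, one_smul] at this
    exact this
  obtain ⟨Q, hQu, hQ⟩ := exists_real_matrix_rep ρ M₀ hM₀ hsym hinv₀
  have hQQ : Q⁻¹ * Q = 1 := Matrix.nonsing_inv_mul _ hQu
  have hQQ' : Q * Q⁻¹ = 1 := Matrix.mul_nonsing_inv _ hQu
  have hmapmul : ∀ A B : Matrix (Fin n) (Fin n) ℝ,
      (A * B).map Complex.ofReal = A.map Complex.ofReal * B.map Complex.ofReal :=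
    fun A B => Matrix.map_mul (f := Complex.ofRealHom)
  let Yr : G →* Matrix (Fin n) (Fin n) ℝ :=
    { toFun := fun g => (Q⁻¹ * repMat ρ g * Q).map Complex.re
      map_one' := by
        rw [map_one, Matrix.mul_one, hQQ]
        ext i j
        by_cases hij : i = j <;> simp [Matrix.one_apply, hij]
      map_mul' := by
        intro g k
        apply Matrix.map_injective Complex.ofReal_injective
        show ((Q⁻¹ * repMat ρ (g * k) * Q).map Complex.re).map Complex.ofReal
          = ((Q⁻¹ * repMat ρ g * Q).map Complex.re * (Q⁻¹ * repMat ρ k * Q).map Complex.re).map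
            Complex.ofReal
        rw [hmapmul, map_ofReal_map_re _ (hQ (g * k)), map_ofReal_map_re _ (hQ g),
          map_ofReal_map_re _ (hQ k), map_mul]
        calc Q⁻¹ * (repMat ρ g * repMat ρ k) * Q
            = Q⁻¹ * repMat ρ g * (Q * Q⁻¹) * repMat ρ k * Q := by
              rw [hQQ', Matrix.mul_one]; simp only [Matrix.mul_assoc]
          _ = Q⁻¹ * repMat ρ g * Q * (Q⁻¹ * repMat ρ k * Q) := by simp only [Matrix.mul_assoc] }
  refine ⟨n, matRep Yr, fun g => ?_⟩
  have h1 : LinearMap.trace ℝ (Fin n → ℝ) (matRep Yr g) = (Yr g).trace := character_matRep Yr g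
  rw [h1]
  have h2 : (((Yr g).trace : ℝ) : ℂ) = ((Yr g).map Complex.ofReal).trace := by
    simp [Matrix.trace]
  have h3 : (Yr g).map Complex.ofReal = Q⁻¹ * repMat ρ g * Q := map_ofReal_map_re _ (hQ g)
  rw [h2, h3, Matrix.trace_mul_comm, ← Matrix.mul_assoc, hQQ', Matrix.one_mul, trace_repMat, hχ]

end IndToReal

end Cfsg.Agent.Lib.Helper79
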