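import Mathlib
import Cfsg.Agent.Lib.Helper4.Eigen
import Cfsg.Agent.Lib.Helper20.DetChar
import Cfsg.Agent.Lib.Helper22.Defect
import Cfsg.Agent.Lib.Helper22.SylowAux
import Cfsg.Prelude.Def_Blocks

/-!
# Faithful characters of small degree in the principal block (helper79)

If the principal `p`-block of a perfect group contains a faithful irreducible character of degree
`< 2p`, then every `p`-regular element centralizing a Sylow `p`-subgroup is trivial.
-/

set_option autoImplicit false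

namespace Cfsg.Agent.Lib.Helper79

open Cfsg Cfsg.Agent.Lib.Helper4 Cfsg.Agent.Lib.Helper21 Cfsg.Agent.Lib.Helper22

theorem geom_sum_root (ζ : ℂ) (m : ℕ) (hζ : ζ ^ m = 1) (h1 : ζ ≠ 1) :
    ∑ k ∈ Finset.range m, ζ ^ k = 0 := by
  rw [geom_sum_eq h1 m, hζ, sub_self, zero_div]

open scoped Classical in
/-- Counting the eigenvalues equal to `ε` through power sums. -/
theorem mul_card_eigen {ι : Type*} [Fintype ι] (μ : ι → ℂ) (m : ℕ) (hm : 0 < m)
    (hμ : ∀ i, μ i ^ m = 1) (ε : ℂ) (hε : ε ^ m = 1) :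
    ∑ k ∈ Finset.range m, (∑ i, μ i ^ k) * (ε⁻¹) ^ k =
      (m : ℂ) * ((Finset.univ.filter (fun i => μ i = ε)).card : ℂ) := by
  have hε0 : ε ≠ 0 := by
    intro h0
    rw [h0, zero_pow hm.ne'] at hε
    exact zero_ne_one hε
  have h1 : ∀ i, ∑ k ∈ Finset.range m, μ i ^ k * (ε⁻¹) ^ k =
      if μ i = ε then (m : ℂ) else 0 := by
    intro i
    by_cases hi : μ i = ε
    · rw [if_pos hi, hi]
      have : ∀ k ∈ Finset.range m, ε ^ k * (ε⁻¹) ^ k = 1 := by
        intro k _
        rw [← mul_pow, mul_inv_cancel₀ hε0, one_pow]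
      rw [Finset.sum_congr rfl this, Finset.sum_const, Finset.card_range, nsmul_eq_mul, mul_one]
    · rw [if_neg hi]
      have h2 : ∀ k ∈ Finset.range m, μ i ^ k * (ε⁻¹) ^ k = (μ i * ε⁻¹) ^ k := by
        intro k _
        rw [mul_pow]
      rw [Finset.sum_congr rfl h2]
      apply geom_sum_root
      · rw [mul_pow, hμ i, inv_pow, hε, inv_one, mul_one]
      · intro h3
        apply hi
        have h4 := congrArg (· * ε) h3
        simp only [inv_mul_cancel_right₀ hε0, one_mul] at h4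
        exact h4
  calc ∑ k ∈ Finset.range m, (∑ i, μ i ^ k) * (ε⁻¹) ^ k
      = ∑ k ∈ Finset.range m, ∑ i, μ i ^ k * (ε⁻¹) ^ k := by
        refine Finset.sum_congr rfl fun k _ => ?_
        rw [Finset.sum_mul]
    _ = ∑ i, ∑ k ∈ Finset.range m, μ i ^ k * (ε⁻¹) ^ k := Finset.sum_comm
    _ = ∑ i, (if μ i = ε then (m : ℂ) else 0) := Finset.sum_congr rfl fun i _ => h1 i
    _ = (m : ℂ) * ((Finset.univ.filter (fun i => μ i = ε)).card : ℂ) := by
        rw [← Finset.sum_filter, Finset.sum_const, nsmul_eq_mul, mul_comm]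

section

variable {p : ℕ} [Fact p.Prime] {M : Ideal AlgInt}

open scoped Classical in
/-- Roots of unity `μ i` of order prime to `p`, fewer than `2p` of them, with product `1`, whose
power sums are all congruent to their number: then all of them are `1`. -/
theorem eigen_trivial_of_cong (hM : IsPModular p M) {ι : Type*} [Fintype ι] (μ : ι → ℂ) (m : ℕ)
    (hm0 : 0 < m) (hmp : ¬ p ∣ m) (hμ : ∀ i, μ i ^ m = 1)
    (hcong : ∀ k : ℕ, MemLocalIdeal M ((∑ i, μ i ^ k) - (Fintype.card ι : ℂ)))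
    (hcard : Fintype.card ι < 2 * p) (hdet : ∏ i, μ i = 1) : ∀ i, μ i = 1 := by
  have hp : p.Prime := Fact.out
  -- step A
  have hA : ∀ ε : ℂ, ε ^ m = 1 → ε ≠ 1 → p ∣ (Finset.univ.filter (fun i => μ i = ε)).card := by
    intro ε hε hε1
    have h1 := mul_card_eigen μ m hm0 hμ ε hε
    have hεinv : (ε⁻¹) ^ m = 1 := by rw [inv_pow, hε, inv_one]
    have hεinv1 : ε⁻¹ ≠ 1 := fun h => hε1 (by rw [← inv_inv ε, h, inv_one])
    have hint : IsIntegral ℤ (ε⁻¹) := IsIntegral.of_pow hm0 (by rw [hεinv]; exact isIntegral_one)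
    have h2 : ∑ k ∈ Finset.range m, (∑ i, μ i ^ k) * (ε⁻¹) ^ k =
        ∑ k ∈ Finset.range m, ((∑ i, μ i ^ k) - (Fintype.card ι : ℂ)) * (ε⁻¹) ^ k := by
      have h3 : ∑ k ∈ Finset.range m, ((∑ i, μ i ^ k) - (Fintype.card ι : ℂ)) * (ε⁻¹) ^ k =
          ∑ k ∈ Finset.range m, (∑ i, μ i ^ k) * (ε⁻¹) ^ k -
            (Fintype.card ι : ℂ) * ∑ k ∈ Finset.range m, (ε⁻¹) ^ k := by
        rw [Finset.mul_sum, ← Finset.sum_sub_distrib]
        exact Finset.sum_congr rfl fun k _ => by ring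
      rw [h3, geom_sum_root _ m hεinv hεinv1, mul_zero, sub_zero]
    have h4 : MemLocalIdeal M ((m : ℂ) * ((Finset.univ.filter (fun i => μ i = ε)).card : ℂ)) := by
      rw [← h1, h2]
      refine locIdeal_sum hM _ _ fun k _ => ?_
      exact locIdeal_mul_right hM (hcong k)
        (locRing_of_isIntegral hM (IsIntegral.pow hint k))
    rw [← Nat.cast_mul, locIdeal_natCast_iff hM] at h4
    rcases hp.dvd_mul.mp h4 with h | h
    · exact absurd h hmp
    · exact h
  -- step B
  by_contra hcon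
  push Not at hcon
  obtain ⟨i₀, hi₀⟩ := hcon
  set ε₀ := μ i₀ with hε₀
  set S₀ := Finset.univ.filter (fun i => μ i = ε₀) with hS₀
  have hi₀S : i₀ ∈ S₀ := by rw [hS₀, Finset.mem_filter]; exact ⟨Finset.mem_univ _, rfl⟩
  have hS₀pos : 0 < S₀.card := Finset.card_pos.mpr ⟨i₀, hi₀S⟩
  have hpS₀ : p ∣ S₀.card := hA ε₀ (hμ i₀) hi₀
  have hS₀ge : p ≤ S₀.card := Nat.le_of_dvd hS₀pos hpS₀
  have hall : ∀ i, μ i = 1 ∨ μ i = ε₀ := by
    intro i
    by_contra hne
    push Not at hne
    set S₁ := Finset.univ.filter (fun j => μ j = μ i) with hS₁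
    have hiS : i ∈ S₁ := by rw [hS₁, Finset.mem_filter]; exact ⟨Finset.mem_univ _, rfl⟩
    have hS₁pos : 0 < S₁.card := Finset.card_pos.mpr ⟨i, hiS⟩
    have hpS₁ : p ∣ S₁.card := hA (μ i) (hμ i) hne.1
    have hS₁ge : p ≤ S₁.card := Nat.le_of_dvd hS₁pos hpS₁
    have hdisj : Disjoint S₀ S₁ := by
      rw [Finset.disjoint_left]
      intro j hj0 hj1
      rw [hS₀, Finset.mem_filter] at hj0
      rw [hS₁, Finset.mem_filter] at hj1
      exact hne.2 (hj1.2.symm.trans hj0.2)
    have hle : (S₀ ∪ S₁).card ≤ Fintype.card ι := Finset.card_le_univ _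
    rw [Finset.card_union_of_disjoint hdisj] at hle
    omega
  have hS₀le : S₀.card ≤ Fintype.card ι := Finset.card_le_univ _
  have hS₀eq : S₀.card = p := by
    obtain ⟨j, hj⟩ := hpS₀
    have hj2 : j < 2 := by
      have h5 : p * j < p * 2 := by omega
      exact Nat.lt_of_mul_lt_mul_left h5
    have hj0 : j ≠ 0 := by
      rintro rfl
      rw [mul_zero] at hj
      omega
    have hj1 : j = 1 := by omega
    rw [hj, hj1, mul_one]
  have hprod : ∏ i, μ i = ε₀ ^ p := by
    have h1 : ∀ i ∈ Finset.univ, μ i = if μ i = ε₀ then ε₀ else 1 := by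
      intro i _
      by_cases hi : μ i = ε₀
      · rw [if_pos hi]; exact hi
      · rw [if_neg hi]
        rcases hall i with h | h
        · exact h
        · exact absurd h hi
    rw [Finset.prod_congr rfl h1, Finset.prod_ite, Finset.prod_const, Finset.prod_const_one,
      mul_one, ← hS₀, hS₀eq]
  rw [hprod] at hdet
  have hgcd : ε₀ ^ (p.gcd m) = 1 := pow_gcd_eq_one.mpr ⟨hdet, hμ i₀⟩
  have hcop : p.gcd m = 1 := (Nat.Prime.coprime_iff_not_dvd hp).mpr hmp
  rw [hcop, pow_one] at hgcd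
  exact hi₀ hgcd

end

section

variable {G : Type*} [Group G] [Finite G] {p : ℕ} [Fact p.Prime] {M : Ideal AlgInt}

/-- In a perfect group whose principal block contains a faithful irreducible character of degree
`< 2p`, a `p`-regular element centralizing a Sylow `p`-subgroup is trivial. -/
theorem regular_centralizer_trivial (hM : IsPModular p M) (hperf : commutator G = ⊤)
    (P : Sylow p G) (χ : IrrCharacter G) (hχ : χ ∈ principalBlock M G)
    (hfaith : ∀ g : G, (χ : G → ℂ) g = (χ : G → ℂ) 1 → g = 1)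
    (hdeg : charDegree (χ : G → ℂ) < 2 * p) (y : G)
    (hy : y ∈ Subgroup.centralizer ((P : Subgroup G) : Set G)) (hyreg : ¬ p ∣ orderOf y) :
    y = 1 := by
  classical
  have hp : p.Prime := Fact.out
  obtain ⟨n, ρ, -, hρ⟩ := χ.2
  obtain ⟨ι, hι, hdι, v, μ, hμ, hμm, -, -⟩ := exists_eigenbasis_rep ρ y
  -- values on powers
  have hval : ∀ k : ℕ, (χ : G → ℂ) (y ^ k) = ∑ i, μ i ^ k := by
    intro k
    have h1 : ∀ i, ρ (y ^ k) (v i) = μ i ^ k • v i := by
      intro i
      rw [map_pow]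
      exact Cfsg.Agent.Lib.Helper20.pow_apply_eigen (ρ y) (v i) (μ i) (hμ i) k
    rw [← hρ]
    exact trace_eq_sum_of_eigenbasis v _ _ h1
  have hone : (χ : G → ℂ) 1 = (Fintype.card ι : ℂ) := by
    have h0 := hval 0
    simp only [pow_zero, Finset.sum_const, Finset.card_univ, nsmul_eq_mul, mul_one] at h0
    exact h0
  have hcardlt : Fintype.card ι < 2 * p := by
    rw [charDegree_eq_of_one_eq _ _ hone] at hdeg
    exact hdeg
  have hn0 : (Fintype.card ι : ℂ) ≠ 0 := by
    rw [← hone]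
    exact irr_one_ne_zero χ
  -- the congruences
  have hcong : ∀ k : ℕ, MemLocalIdeal M ((∑ i, μ i ^ k) - (Fintype.card ι : ℂ)) := by
    intro k
    rw [← hval k, ← hone]
    have hmem : y ^ k ∈ Subgroup.centralizer ((P : Subgroup G) : Set G) :=
      Subgroup.pow_mem _ hy k
    have hle : (P : Subgroup G) ≤ Subgroup.centralizer ({y ^ k} : Set G) :=
      (le_centralizer_singleton_iff (P : Subgroup G) (y ^ k)).mpr hmem
    set c := (Subgroup.centralizer ({y ^ k} : Set G)).index with hc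
    have hcp : ¬ p ∣ c := fun h =>
      P.not_dvd_index (dvd_trans h (Subgroup.index_dvd_of_le hle))
    have hc0 : (c : ℂ) ≠ 0 := by
      have : c ≠ 0 := fun h0 => hcp (by rw [h0]; exact dvd_zero p)
      exact_mod_cast this
    have h1 := hχ (y ^ k)
    unfold centralChar at h1
    rw [← hc] at h1
    have hχ1 : (χ : G → ℂ) 1 ≠ 0 := by rw [hone]; exact hn0
    have h2 := locIdeal_mul_right hM h1
      (locRing_mul hM (by rw [hone]; exact locRing_natCast hM (Fintype.card ι))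
        (locRing_inv_natCast hM hcp) : MemLocalRing M ((χ : G → ℂ) 1 * (c : ℂ)⁻¹))
    have h3 : ((c : ℂ) * 1 / 1 - (c : ℂ) * (χ : G → ℂ) (y ^ k) / (χ : G → ℂ) 1) *
        ((χ : G → ℂ) 1 * (c : ℂ)⁻¹) = (χ : G → ℂ) 1 - (χ : G → ℂ) (y ^ k) := by
      field_simp
    rw [h3] at h2
    have h4 := locIdeal_neg h2
    rw [neg_sub] at h4
    exact h4
  -- the determinant
  have hdet : ∏ i, μ i = 1 := by
    rw [← Cfsg.Agent.Lib.Helper20.det_eq_prod_of_eigenbasis v (ρ y) μ hμ]
    let f : G →* ℂ := (LinearMap.det : ((Fin n → ℂ) →ₗ[ℂ] (Fin n → ℂ)) →* ℂ).comp ρ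
    have hker := Abelianization.commutator_subset_ker f.toHomUnits
    rw [hperf] at hker
    have hy1 : f.toHomUnits y = 1 := MonoidHom.mem_ker.mp (hker (Subgroup.mem_top y))
    have hy2 : ((f.toHomUnits y : ℂˣ) : ℂ) = 1 := by rw [hy1]; rfl
    exact hy2
  have hm0 : 0 < orderOf y := orderOf_pos y
  have hall := eigen_trivial_of_cong hM μ (orderOf y) hm0 hyreg hμm hcong hcardlt hdet
  apply hfaith
  have h1 := hval 1
  rw [pow_one] at h1
  rw [h1, hone]
  simp [hall]

/-- The centralizer of a Sylow `p`-subgroup is a `p`-group, under the same hypotheses. -/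
theorem centralizer_sylow_isPGroup (hM : IsPModular p M) (hperf : commutator G = ⊤)
    (P : Sylow p G) (χ : IrrCharacter G) (hχ : χ ∈ principalBlock M G)
    (hfaith : ∀ g : G, (χ : G → ℂ) g = (χ : G → ℂ) 1 → g = 1)
    (hdeg : charDegree (χ : G → ℂ) < 2 * p) :
    IsPGroup p ↥(Subgroup.centralizer ((P : Subgroup G) : Set G)) := by
  have hp : p.Prime := Fact.out
  intro g
  set a := (orderOf (g : G)).factorization p with ha
  refine ⟨a, ?_⟩
  have hord0 : orderOf (g : G) ≠ 0 := (orderOf_pos (g : G)).ne'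
  have hsplit : p ^ a * ordCompl[p] (orderOf (g : G)) = orderOf (g : G) :=
    Nat.ordProj_mul_ordCompl_eq_self _ p
  have hyreg : ¬ p ∣ orderOf ((g : G) ^ p ^ a) := by
    intro hdvd
    have h1 : ((g : G) ^ p ^ a) ^ ordCompl[p] (orderOf (g : G)) = 1 := by
      rw [← pow_mul, hsplit, pow_orderOf_eq_one]
    exact Nat.not_dvd_ordCompl hp hord0 (dvd_trans hdvd (orderOf_dvd_of_pow_eq_one h1))
  have hy1 := regular_centralizer_trivial hM hperf P χ hχ hfaith hdeg ((g : G) ^ p ^ a)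
    (Subgroup.pow_mem _ g.2 _) hyreg
  apply Subtype.ext
  rw [Subgroup.coe_pow, hy1]
  rfl

end

end Cfsg.Agent.Lib.Helper79
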