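import Cfsg.Agent.Lib.Helper98.H90Defs
import Cfsg.Agent.Lib.Helper67.H74EXC
import Cfsg.Agent.Lib.Helper24.H74SUM

/-!
# Project H74, batch 2 (S5990), piece INVE: involutions in odd characteristic

An isometry `g` with `g * g = 1` of a nondegenerate quadratic space of dimension `2d ≥ 6` over a
finite field of odd characteristic, with `dim ker (g + 1)` even, leaves invariant a nondegenerate
subspace of dimension `2k+2` and type `-` whenever `k + 2 ≤ d`.  `invol_fix_ell_of` takes the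
piece SUM (`subtyp_sup`) as a hypothesis.
-/

set_option autoImplicit false

namespace Cfsg.Agent.Lib.Helper98.H74

open Cfsg.Agent.Lib.Helper47 Cfsg.Agent.Lib.Helper98.T73 Module Polynomial

universe u

variable {F : Type u} [Field F] [Fintype F] {V : Type u} [AddCommGroup V] [Module F V]
  [FiniteDimensional F V] {Q : V → F} {B : V → V → F}

omit [Fintype F] [FiniteDimensional F V] in
/-- an eigenspace of an isometric involution is nondegenerate -/
lemma INVE_nd (h2 : (2 : F) ≠ 0) (hQ : IsQuad Q B) (hnd : Nondeg B)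
    (g : Module.End F V) (hgQ : QI Q g) (hg : g * g = 1) (s : F) (hs : s * s = 1)
    (E : Submodule F V) (hE : ∀ x, x ∈ E ↔ g x = s • x) : Nondeg (resForm B E) := by
  have hBg : ∀ x y, B (g x) (g y) = B x y := hQ.isometry hQ g hgQ
  have hgg : ∀ v, g (g v) = v := fun v => by
    have := congrArg (fun f : Module.End F V => f v) hg
    simpa using this
  intro x hx
  have hx0 : (x : V) = 0 := by
    apply hnd
    intro v
    have hmem : v + s • g v ∈ E := by
      rw [hE, map_add, map_smul, hgg, smul_add, smul_smul, hs, one_smul, add_comm]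
    have h1 : B (x : V) (v + s • g v) = 0 := hx ⟨v + s • g v, hmem⟩
    have h3 : B (x : V) (g v) = s * B (x : V) v := by
      rw [← hBg (x : V) (g v), hgg, (hE x).mp x.2, hQ.form.smul_left]
    rw [hQ.form.add_right, sym_smul_right hQ.form, h3] at h1
    have h4 : (2 : F) * B (x : V) v = 0 := by
      linear_combination h1 - B (x : V) v * hs
    rcases mul_eq_zero.mp h4 with h | h
    · exact absurd h h2
    · exact h
  exact Subtype.ext hx0

/-- the core: `X` of dimension at least 4 and `Y` orthogonal, nondegenerate, `g` scalar on each -/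
lemma INVE_core (hf : QFacts F) (hQ : IsQuad Q B)
    (hsum : ∀ (X Y : Submodule F V), (∀ x ∈ X, ∀ y ∈ Y, B x y = 0) → ∀ (k₁ k₂ : ℕ) (ε₁ ε₂ : ℤ),
      SubTyp Q B X k₁ ε₁ → SubTyp Q B Y k₂ ε₂ → SubTyp Q B (X ⊔ Y) (k₁ + k₂ + 1) (ε₁ * ε₂))
    (g : Module.End F V) (X Y : Submodule F V) (hXY : ∀ x ∈ X, ∀ y ∈ Y, B x y = 0)
    (hXnd : Nondeg (resForm B X)) (hYnd : Nondeg (resForm B Y)) (s t : F)
    (hgX : ∀ x ∈ X, g x = s • x) (hgY : ∀ y ∈ Y, g y = t • y) (a b : ℕ)
    (hXd : finrank F X = 2 * a + 4) (hYd : finrank F Y = 2 * b) (k : ℕ) (hk : k ≤ a + b) :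
    ∃ W : Submodule F V, SubTyp Q B W k (-1) ∧ W.map g ≤ W := by
  have hinvX : ∀ W : Submodule F V, W ≤ X → W.map g ≤ W := by
    rintro W hW _ ⟨w, hw, rfl⟩
    rw [hgX w (hW hw)]
    exact W.smul_mem s hw
  have hinvY : ∀ W : Submodule F V, W ≤ Y → W.map g ≤ W := by
    rintro W hW _ ⟨w, hw, rfl⟩
    rw [hgY w (hW hw)]
    exact W.smul_mem t hw
  have hXT : ∃ η : ℤ, SubTyp Q B X (a + 1) η := by
    have hfr : finrank F X = 2 * (a + 1) + 2 := by omega
    rcases hf.typ_exists (a + 1) X (fun x => Q (x : V)) (resForm B X) (hQ.res X) hXnd hfr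
      with h | h
    · exact ⟨1, hXnd, hfr, h⟩
    · exact ⟨-1, hXnd, hfr, h⟩
  obtain ⟨ηX, hXT⟩ := hXT
  by_cases hcase : k = 0 ∨ b = 0
  · obtain ⟨W, hWX, hW⟩ := subtyp_sub hf hQ X (a + 1) ηX hXT k (-1) (Or.inr rfl)
      (Or.inl (by omega))
    exact ⟨W, hW, hinvX W hWX⟩
  · push_neg at hcase
    obtain ⟨hk0, hb0⟩ := hcase
    have hYT : ∃ η : ℤ, (η = 1 ∨ η = -1) ∧ SubTyp Q B Y (b - 1) η := by
      have hfr : finrank F Y = 2 * (b - 1) + 2 := by omega
      rcases hf.typ_exists (b - 1) Y (fun x => Q (x : V)) (resForm B Y) (hQ.res Y) hYnd hfr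
        with h | h
      · exact ⟨1, Or.inl rfl, hYnd, hfr, h⟩
      · exact ⟨-1, Or.inr rfl, hYnd, hfr, h⟩
    obtain ⟨ηY, hηY, hYT⟩ := hYT
    have hex : ∃ kY, kY ≤ k - 1 ∧ kY ≤ b - 1 ∧ k - 1 - kY ≤ a := by
      by_cases hkb : k ≤ b
      · exact ⟨k - 1, le_refl _, by omega, by omega⟩
      · exact ⟨b - 1, by omega, le_refl _, by omega⟩
    obtain ⟨kY, hkY1, hkY2, hkY3⟩ := hex
    have hcond : kY < b - 1 ∨ (kY = b - 1 ∧ ηY = ηY) := by
      rcases Nat.lt_or_ge kY (b - 1) with h | h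
      · exact Or.inl h
      · exact Or.inr ⟨by omega, rfl⟩
    obtain ⟨WY, hWYY, hWY⟩ := subtyp_sub hf hQ Y (b - 1) ηY hYT kY ηY hηY hcond
    have hηY' : -ηY = 1 ∨ -ηY = -1 := by
      rcases hηY with h | h
      · right
        rw [h]
      · left
        rw [h]
        norm_num
    obtain ⟨WX, hWXX, hWX⟩ := subtyp_sub hf hQ X (a + 1) ηX hXT (k - 1 - kY) (-ηY) hηY'
      (Or.inl (by omega))
    have hS := hsum WX WY (fun x hx y hy => hXY x (hWXX hx) y (hWYY hy)) _ _ _ _ hWX hWY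
    have e1 : k - 1 - kY + kY + 1 = k := by omega
    have e2 : -ηY * ηY = -1 := by
      rcases hηY with h | h <;> rw [h] <;> norm_num
    rw [e1, e2] at hS
    refine ⟨WX ⊔ WY, hS, ?_⟩
    rw [Submodule.map_sup]
    exact sup_le_sup (hinvX WX hWXX) (hinvY WY hWYY)

/-- INVE, with the piece SUM as a hypothesis -/
theorem invol_fix_ell_of (hf : QFacts F) (h2 : (2 : F) ≠ 0) (hQ : IsQuad Q B) (hnd : Nondeg B)
    (hsum : ∀ (X Y : Submodule F V), (∀ x ∈ X, ∀ y ∈ Y, B x y = 0) → ∀ (k₁ k₂ : ℕ) (ε₁ ε₂ : ℤ),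
      SubTyp Q B X k₁ ε₁ → SubTyp Q B Y k₂ ε₂ → SubTyp Q B (X ⊔ Y) (k₁ + k₂ + 1) (ε₁ * ε₂))
    (d : ℕ) (hd : 3 ≤ d) (hdim : finrank F V = 2 * d)
    (g : Module.End F V) (hgQ : QI Q g) (hg : g * g = 1)
    (hev : Even (finrank F (LinearMap.ker (g + 1)))) (k : ℕ) (hk : k + 2 ≤ d) :
    ∃ W : Submodule F V, SubTyp Q B W k (-1) ∧ W.map g ≤ W := by
  have hBg : ∀ x y, B (g x) (g y) = B x y := hQ.isometry hQ g hgQ
  have hgg : ∀ v, g (g v) = v := fun v => by
    have := congrArg (fun f : Module.End F V => f v) hg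
    simpa using this
  have hEp : ∀ x, x ∈ LinearMap.ker (g - 1) ↔ g x = (1 : F) • x := by
    intro x
    rw [LinearMap.mem_ker, LinearMap.sub_apply, Module.End.one_apply, one_smul, sub_eq_zero]
  have hEm : ∀ x, x ∈ LinearMap.ker (g + 1) ↔ g x = (-1 : F) • x := by
    intro x
    rw [LinearMap.mem_ker, LinearMap.add_apply, Module.End.one_apply, neg_smul, one_smul,
      add_eq_zero_iff_eq_neg]
  have hndp := INVE_nd h2 hQ hnd g hgQ hg 1 (one_mul 1) _ hEp
  have hndm := INVE_nd h2 hQ hnd g hgQ hg (-1) (by ring) _ hEm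
  have hrange : LinearMap.range (g - 1) = LinearMap.ker (g + 1) := by
    apply le_antisymm
    · rintro _ ⟨v, rfl⟩
      rw [hEm, LinearMap.sub_apply, Module.End.one_apply, map_sub, hgg, neg_smul, one_smul]
      abel
    · intro x hx
      rw [hEm, neg_smul, one_smul] at hx
      refine ⟨(-(2 : F)⁻¹) • x, ?_⟩
      rw [LinearMap.sub_apply, Module.End.one_apply, map_smul, hx, ← smul_sub]
      have e : -x - x = (-2 : F) • x := by
        rw [neg_smul, two_smul]
        abel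
      rw [e, smul_smul]
      have e' : -(2 : F)⁻¹ * -2 = 1 := by
        field_simp
      rw [e', one_smul]
  have hdims : finrank F (LinearMap.ker (g + 1)) + finrank F (LinearMap.ker (g - 1)) = 2 * d := by
    have h1 := LinearMap.finrank_range_add_finrank_ker (g - 1)
    rw [hrange, hdim] at h1
    exact h1
  have horth : ∀ x ∈ LinearMap.ker (g - 1), ∀ y ∈ LinearMap.ker (g + 1), B x y = 0 := by
    intro x hx y hy
    rw [hEp] at hx
    rw [hEm] at hy
    have h1 := hBg x y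
    rw [hx, hy, one_smul, sym_smul_right hQ.form] at h1
    have h4 : (2 : F) * B x y = 0 := by linear_combination -h1
    rcases mul_eq_zero.mp h4 with h | h
    · exact absurd h h2
    · exact h
  have horth' : ∀ x ∈ LinearMap.ker (g + 1), ∀ y ∈ LinearMap.ker (g - 1), B x y = 0 := by
    intro x hx y hy
    rw [sym_comm hQ.form y x]
    exact horth y hy x hx
  obtain ⟨c, hc⟩ := hev
  by_cases hbig : 4 ≤ finrank F (LinearMap.ker (g - 1))
  · obtain ⟨a, ha⟩ : ∃ a, finrank F (LinearMap.ker (g - 1)) = 2 * a + 4 :=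
      ⟨d - c - 2, by omega⟩
    exact INVE_core hf hQ hsum g _ _ horth hndp hndm 1 (-1) (fun x hx => (hEp x).1 hx)
      (fun y hy => (hEm y).1 hy) a c ha (by omega) k (by omega)
  · obtain ⟨a, ha⟩ : ∃ a, finrank F (LinearMap.ker (g + 1)) = 2 * a + 4 := ⟨c - 2, by omega⟩
    obtain ⟨b, hb⟩ : ∃ b, finrank F (LinearMap.ker (g - 1)) = 2 * b := ⟨d - c, by omega⟩
    exact INVE_core hf hQ hsum g _ _ horth' hndm hndp (-1) 1 (fun x hx => (hEm x).1 hx)
      (fun y hy => (hEp y).1 hy) a b ha hb k (by omega)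

/-- INVE -/
theorem invol_fix_ell (hf : QFacts F) (h2 : (2 : F) ≠ 0) (hQ : IsQuad Q B) (hnd : Nondeg B)
    (d : ℕ) (hd : 3 ≤ d) (hdim : finrank F V = 2 * d) (p : ℕ) [Fact p.Prime] [CharP F p]
    (g : Module.End F V) (hgQ : QI Q g) (hg : g * g = 1)
    (hev : Even (finrank F (LinearMap.ker (g + 1)))) (k : ℕ) (hk : k + 2 ≤ d) :
    ∃ W : Submodule F V, SubTyp Q B W k (-1) ∧ W.map g ≤ W := by
  exact invol_fix_ell_of hf h2 hQ hnd (subtyp_sup hf hQ) d hd hdim g hgQ hg hev k hk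

end Cfsg.Agent.Lib.Helper98.H74
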