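import Mathlib
import Cfsg.Agent.Lib.Helper58.JEDefs

/-! Project JE (helper58, S2948), piece FMOD: the module form of JE-FOURS.  An elementary abelian
2-group `𝔸` acts on the elementary abelian 2-group `U` with the offender inequality; `κ` of order 3
is normalized by `𝔸` and inverted by `b`; `W₁` is a `κ`-fixed-point-free `𝔸`-invariant four-group.
Then `[U, κ] = W₁`. -/

set_option autoImplicit false

namespace Cfsg.Agent.Lib.Helper79.JE

open Cfsg.Agent.Lib.Helper58.JE Cfsg.Agent.Lib.Helper72.JL Cfsg.Agent.Lib.Helper72.SC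
  Cfsg.Agent.Lib.Helper78.Jc

universe u

/-- a subgroup `H` with `K ⊆ H ∪ H t⁻¹` has at least half the order of `K` -/
theorem fmod_card_le_two_mul {G : Type*} [Group G] [Finite G] (H K : Subgroup G) (t : G)
    (h : ∀ a ∈ K, a ∉ H → a * t ∈ H) : Nat.card K ≤ 2 * Nat.card H := by
  classical
  have h1 : Nat.card K ≤ Nat.card (H × Bool) := by
    apply Nat.card_le_card_of_injective
      (fun a : K => if ha : (a : G) ∈ H then ((⟨a, ha⟩ : H), true)
        else ((⟨a * t, h a a.2 ha⟩ : H), false))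
    intro a a' haa'
    by_cases h1 : (a : G) ∈ H
    · by_cases h2 : (a' : G) ∈ H
      · simp only [dif_pos h1, dif_pos h2, Prod.mk.injEq, Subtype.mk.injEq, and_true] at haa'
        exact Subtype.ext haa'
      · simp only [dif_pos h1, dif_neg h2, Prod.mk.injEq, Bool.true_eq_false, and_false] at haa'
    · by_cases h2 : (a' : G) ∈ H
      · simp only [dif_neg h1, dif_pos h2, Prod.mk.injEq, Bool.false_eq_true, and_false] at haa'
      · simp only [dif_neg h1, dif_neg h2, Prod.mk.injEq, Subtype.mk.injEq, and_true] at haa'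
        exact Subtype.ext (mul_right_cancel haa')
  rw [Nat.card_prod, Nat.card_eq_fintype_card (α := Bool), Fintype.card_bool] at h1
  omega

/-- a proper subgroup has at most half the order -/
theorem fmod_two_mul_card_le {G : Type*} [Group G] [Finite G] (H K : Subgroup G) (hHK : H ≤ K)
    (x : G) (hxK : x ∈ K) (hxH : x ∉ H) : 2 * Nat.card H ≤ Nat.card K := by
  obtain ⟨m, hm⟩ := Subgroup.card_dvd_of_le hHK
  have hK : 0 < Nat.card K := Nat.card_pos
  have hH : 0 < Nat.card H := Nat.card_pos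
  have hm1 : m ≠ 1 := by
    intro h1
    rw [h1, mul_one] at hm
    have := Subgroup.eq_of_le_of_card_ge hHK hm.le
    rw [← this] at hxK
    exact hxH hxK
  have hm0 : m ≠ 0 := by
    intro h0
    rw [h0, mul_zero] at hm
    omega
  have hm2 : 2 ≤ m := by omega
  calc 2 * Nat.card H ≤ m * Nat.card H := Nat.mul_le_mul_right _ hm2
    _ = Nat.card K := by rw [hm, mul_comm]

section Defs

variable {U : Type u} [CommGroup U] {𝔸 : Type u} [Group 𝔸]

/-- the kernel of the trace `1 + κ + κ²` -/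
def fmodN (κ : MulAut U) : Subgroup U where
  carrier := {x | x * κ x * κ (κ x) = 1}
  one_mem' := by simp
  mul_mem' := by
    intro x y hx hy
    show x * y * κ (x * y) * κ (κ (x * y)) = 1
    simp only [map_mul]
    calc x * y * (κ x * κ y) * (κ (κ x) * κ (κ y))
        = (x * κ x * κ (κ x)) * (y * κ y * κ (κ y)) := by ac_rfl
      _ = 1 := by
        have hx' : x * κ x * κ (κ x) = 1 := hx
        have hy' : y * κ y * κ (κ y) = 1 := hy
        rw [hx', hy', one_mul]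
  inv_mem' := by
    intro x hx
    show x⁻¹ * κ x⁻¹ * κ (κ x⁻¹) = 1
    have hx' : x * κ x * κ (κ x) = 1 := hx
    simp only [map_inv]
    rw [← mul_inv, ← mul_inv, hx', inv_one]

theorem mem_fmodN (κ : MulAut U) (x : U) : x ∈ fmodN κ ↔ x * κ x * κ (κ x) = 1 := Iff.rfl

/-- the fixed points of a subgroup `B` of `𝔸` -/
def fmodFix (ρ : 𝔸 →* MulAut U) (B : Subgroup 𝔸) : Subgroup U where
  carrier := {x | ∀ a ∈ B, ρ a x = x}
  one_mem' := fun a _ => map_one _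
  mul_mem' := by
    intro x y hx hy a ha
    rw [map_mul, hx a ha, hy a ha]
  inv_mem' := by
    intro x hx a ha
    rw [map_inv, hx a ha]

theorem mem_fmodFix (ρ : 𝔸 →* MulAut U) (B : Subgroup 𝔸) (x : U) :
    x ∈ fmodFix ρ B ↔ ∀ a ∈ B, ρ a x = x := Iff.rfl

/-- the fixed points of `𝔸` -/
def fmodFixAll (ρ : 𝔸 →* MulAut U) : Subgroup U where
  carrier := {x | ∀ a : 𝔸, ρ a x = x}
  one_mem' := fun a => map_one _
  mul_mem' := by
    intro x y hx hy a
    rw [map_mul, hx a, hy a]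
  inv_mem' := by
    intro x hx a
    rw [map_inv, hx a]

theorem mem_fmodFixAll (ρ : 𝔸 →* MulAut U) (x : U) :
    x ∈ fmodFixAll ρ ↔ ∀ a : 𝔸, ρ a x = x := Iff.rfl

/-- the fixed points of `β` in `N` -/
def fmodFixN (β : MulAut U) (N : Subgroup U) : Subgroup U where
  carrier := {x | x ∈ N ∧ β x = x}
  one_mem' := ⟨N.one_mem, map_one _⟩
  mul_mem' := by
    intro x y hx hy
    exact ⟨N.mul_mem hx.1 hy.1, by rw [map_mul, hx.2, hy.2]⟩
  inv_mem' := by
    intro x hx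
    exact ⟨N.inv_mem hx.1, by rw [map_inv, hx.2]⟩

theorem mem_fmodFixN (β : MulAut U) (N : Subgroup U) (x : U) :
    x ∈ fmodFixN β N ↔ x ∈ N ∧ β x = x := Iff.rfl

/-- the elements of `𝔸` commuting with `κ` -/
def fmodA1 (ρ : 𝔸 →* MulAut U) (κ : MulAut U) : Subgroup 𝔸 where
  carrier := {a | ρ a * κ * (ρ a)⁻¹ = κ}
  one_mem' := by simp
  mul_mem' := by
    intro x y hx hy
    show ρ (x * y) * κ * (ρ (x * y))⁻¹ = κ
    have hx' : ρ x * κ * (ρ x)⁻¹ = κ := hx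
    have hy' : ρ y * κ * (ρ y)⁻¹ = κ := hy
    rw [map_mul, mul_inv_rev]
    calc ρ x * ρ y * κ * ((ρ y)⁻¹ * (ρ x)⁻¹) = ρ x * (ρ y * κ * (ρ y)⁻¹) * (ρ x)⁻¹ := by group
      _ = κ := by rw [hy', hx']
  inv_mem' := by
    intro x hx
    show ρ x⁻¹ * κ * (ρ x⁻¹)⁻¹ = κ
    have hx' : ρ x * κ * (ρ x)⁻¹ = κ := hx
    rw [map_inv, inv_inv]
    calc (ρ x)⁻¹ * κ * ρ x = (ρ x)⁻¹ * (ρ x * κ * (ρ x)⁻¹) * ρ x := by rw [hx']
      _ = κ := by group

theorem mem_fmodA1 (ρ : 𝔸 →* MulAut U) (κ : MulAut U) (a : 𝔸) :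
    a ∈ fmodA1 ρ κ ↔ ρ a * κ * (ρ a)⁻¹ = κ := Iff.rfl

/-- the stabilizer of `f` in a subgroup `A₁` -/
def fmodStab (ρ : 𝔸 →* MulAut U) (A₁ : Subgroup 𝔸) (f : U) : Subgroup 𝔸 where
  carrier := {a | a ∈ A₁ ∧ ρ a f = f}
  one_mem' := ⟨A₁.one_mem, by simp⟩
  mul_mem' := by
    intro x y hx hy
    refine ⟨A₁.mul_mem hx.1 hy.1, ?_⟩
    rw [map_mul, MulAut.mul_apply, hy.2, hx.2]
  inv_mem' := by
    intro x hx
    refine ⟨A₁.inv_mem hx.1, ?_⟩
    rw [map_inv]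
    have h := hx.2
    rw [MulAut.inv_apply, MulEquiv.symm_apply_eq]
    exact h.symm

theorem mem_fmodStab (ρ : 𝔸 →* MulAut U) (A₁ : Subgroup 𝔸) (f : U) (a : 𝔸) :
    a ∈ fmodStab ρ A₁ f ↔ a ∈ A₁ ∧ ρ a f = f := Iff.rfl

/-- adjoining an element to a subgroup of a group of exponent 2 -/
def fmodAdj (hU2 : ∀ x : U, x * x = 1) (E : Subgroup U) (f : U) : Subgroup U where
  carrier := {x | x ∈ E ∨ x * f ∈ E}
  one_mem' := Or.inl E.one_mem
  mul_mem' := by
    intro x y hx hy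
    rcases hx with hx | hx
    · rcases hy with hy | hy
      · exact Or.inl (E.mul_mem hx hy)
      · right
        rw [mul_assoc]
        exact E.mul_mem hx hy
    · rcases hy with hy | hy
      · right
        have e : x * y * f = (x * f) * y := by ac_rfl
        rw [e]
        exact E.mul_mem hx hy
      · left
        have e : x * y = (x * f) * (y * f) := by
          calc x * y = x * y * (f * f) := by rw [hU2, mul_one]
            _ = (x * f) * (y * f) := by ac_rfl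
        rw [e]
        exact E.mul_mem hx hy
  inv_mem' := by
    intro x hx
    have hinv : x⁻¹ = x := inv_eq_of_mul_eq_one_right (hU2 x)
    rw [hinv]
    exact hx

theorem mem_fmodAdj (hU2 : ∀ x : U, x * x = 1) (E : Subgroup U) (f x : U) :
    x ∈ fmodAdj hU2 E f ↔ x ∈ E ∨ x * f ∈ E := Iff.rfl

end Defs

/-- JE-FMOD -/
theorem fmod (h : HalfStmt.{u}) : FModStmt.{u} := by
  intro U _ _ 𝔸 _ _ ρ κ b W₁ hU2 hAc hA2 hκ3 hbκ hor hoff hW4 hWκ hWfpf hWA
  classical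
  -- basic facts
  have hinv : ∀ x : U, x⁻¹ = x := fun x => inv_eq_of_mul_eq_one_right (hU2 x)
  have hκ3' : ∀ x : U, κ (κ (κ x)) = x := by
    intro x
    have h1 : κ * κ * κ = 1 := by rw [← hκ3, pow_succ, pow_two]
    have h2 := congrArg (fun f : MulAut U => f x) h1
    simpa [MulAut.mul_apply] using h2
  have hα2 : ∀ a : 𝔸, ∀ x : U, ρ a (ρ a x) = x := by
    intro a x
    have h1 : ρ a * ρ a = 1 := by rw [← map_mul, hA2, map_one]
    have h2 := congrArg (fun f : MulAut U => f x) h1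
    simpa [MulAut.mul_apply] using h2
  have hαc : ∀ a a' : 𝔸, ∀ x : U, ρ a (ρ a' x) = ρ a' (ρ a x) := by
    intro a a' x
    have h1 : ρ a * ρ a' = ρ a' * ρ a := by rw [← map_mul, ← map_mul, hAc]
    have h2 := congrArg (fun f : MulAut U => f x) h1
    simpa [MulAut.mul_apply] using h2
  have hκinv : κ⁻¹ = κ * κ := by
    apply inv_eq_of_mul_eq_one_right
    rw [← mul_assoc, ← hκ3, pow_succ, pow_two]
  -- elements inverting `κ`
  have hinvκ : ∀ a : 𝔸, ρ a * κ * (ρ a)⁻¹ = κ⁻¹ → ∀ x : U, ρ a (κ x) = κ (κ (ρ a x)) := by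
    intro a ha x
    have h1 : ρ a * κ = κ * κ * ρ a := by
      rw [← hκinv, ← ha, inv_mul_cancel_right]
    have h2 := congrArg (fun f : MulAut U => f x) h1
    simpa [MulAut.mul_apply] using h2
  -- elements commuting with `κ`
  have hcomκ : ∀ a : 𝔸, a ∈ fmodA1 ρ κ → ∀ x : U, ρ a (κ x) = κ (ρ a x) := by
    intro a ha x
    have ha' : ρ a * κ * (ρ a)⁻¹ = κ := ha
    have h1 : ρ a * κ = κ * ρ a := by
      conv_rhs => rw [← ha']
      rw [inv_mul_cancel_right]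
    have h2 := congrArg (fun f : MulAut U => f x) h1
    simpa [MulAut.mul_apply] using h2
  have hβκ : ∀ x : U, ρ b (κ x) = κ (κ (ρ b x)) := hinvκ b hbκ
  -- the subgroup `N`
  obtain ⟨N, hN⟩ : ∃ N : Subgroup U, N = fmodN κ := ⟨_, rfl⟩
  have hNmem : ∀ x : U, x ∈ N ↔ x * κ x * κ (κ x) = 1 := by
    intro x
    rw [hN]
    exact mem_fmodN κ x
  have hNκ : ∀ n ∈ N, κ n ∈ N := by
    intro n hn
    rw [hNmem] at hn ⊢
    rw [hκ3']
    calc κ n * κ (κ n) * n = n * κ n * κ (κ n) := by ac_rfl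
      _ = 1 := hn
  have hNfpf : ∀ n ∈ N, κ n = n → n = 1 := by
    intro n hn hfix
    rw [hNmem, hfix, hfix, hU2, one_mul] at hn
    exact hn
  have hNν : ∀ x : U, κ x * x ∈ N := by
    intro x
    rw [hNmem]
    simp only [map_mul]
    rw [hκ3']
    calc κ x * x * (κ (κ x) * κ x) * (x * κ (κ x))
        = (x * x) * (κ x * κ x) * (κ (κ x) * κ (κ x)) := by ac_rfl
      _ = 1 := by simp only [hU2, one_mul]
  have hWN : W₁ ≤ N := by
    intro w hw
    rw [hNmem]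
    apply hWfpf _ (W₁.mul_mem (W₁.mul_mem hw (hWκ w hw)) (hWκ _ (hWκ w hw)))
    simp only [map_mul]
    rw [hκ3']
    ac_rfl
  -- `N` is invariant under `𝔸`
  have hNA1 : ∀ a : 𝔸, a ∈ fmodA1 ρ κ → ∀ n ∈ N, ρ a n ∈ N := by
    intro a ha n hn
    rw [hNmem] at hn ⊢
    rw [← hcomκ a ha, ← hcomκ a ha, ← map_mul, ← map_mul, hn, map_one]
  have hNβ : ∀ n ∈ N, ρ b n ∈ N := by
    intro n hn
    rw [hNmem] at hn ⊢
    have e1 : κ (ρ b n) = ρ b (κ (κ n)) := by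
      rw [hβκ, hβκ, hκ3']
    have e2 : κ (κ (ρ b n)) = ρ b (κ n) := by
      rw [hβκ]
    rw [e2, e1, ← map_mul, ← map_mul]
    have e3 : n * κ (κ n) * κ n = n * κ n * κ (κ n) := by ac_rfl
    rw [e3, hn, map_one]
  -- structure of `W₁`
  have hWcases : ∀ w ∈ W₁, w ≠ 1 → ∀ x ∈ W₁, x = 1 ∨ x = w ∨ x = κ w ∨ x = κ (κ w) := by
    intro w hw hw1 x hx
    have h1 : κ w ≠ w := fun e => hw1 (hWfpf w hw e)
    have h2 : κ (κ w) ≠ κ w := fun e => h1 (κ.injective e)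
    have h3 : κ (κ w) ≠ w := by
      intro e
      apply h1
      have := congrArg κ e
      rw [hκ3'] at this
      exact this.symm
    have h4 : κ w ≠ 1 := fun e => hw1 (by rw [← map_one κ] at e; exact κ.injective e)
    have h5 : κ (κ w) ≠ 1 := fun e => h4 (by rw [← map_one κ] at e; exact κ.injective e)
    let s : Finset U := {1, w, κ w, κ (κ w)}
    have hs4 : s.card = 4 := by
      rw [Finset.card_insert_of_notMem, Finset.card_insert_of_notMem, Finset.card_insert_of_notMem,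
        Finset.card_singleton]
      · simp only [Finset.mem_singleton]
        exact fun e => h2 e.symm
      · simp only [Finset.mem_insert, Finset.mem_singleton, not_or]
        exact ⟨fun e => h1 e.symm, fun e => h3 e.symm⟩
      · simp only [Finset.mem_insert, Finset.mem_singleton, not_or]
        exact ⟨fun e => hw1 e.symm, fun e => h4 e.symm, fun e => h5 e.symm⟩
    have hsW : (s : Set U) ⊆ (W₁ : Set U) := by
      intro y hy
      simp only [s, Finset.coe_insert, Finset.coe_singleton, Set.mem_insert_iff,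
        Set.mem_singleton_iff] at hy
      rcases hy with rfl | rfl | rfl | rfl
      · exact W₁.one_mem
      · exact hw
      · exact hWκ _ hw
      · exact hWκ _ (hWκ _ hw)
    have hWn : (W₁ : Set U).ncard = 4 := by
      rw [← hW4]
      exact (Nat.card_coe_set_eq (W₁ : Set U)).symm
    have heq : (s : Set U) = (W₁ : Set U) := by
      apply Set.eq_of_subset_of_ncard_le hsW _ (Set.toFinite _)
      rw [hWn, Set.ncard_coe_finset, hs4]
    have hxs : x ∈ (s : Set U) := by rw [heq]; exact hx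
    simpa [s] using hxs
  -- `A₁` centralizes `W₁`
  have hA1W : ∀ a : 𝔸, a ∈ fmodA1 ρ κ → ∀ w ∈ W₁, ρ a w = w := by
    intro a ha w hw
    by_cases hw1 : w = 1
    · rw [hw1, map_one]
    · rcases hWcases w hw hw1 (ρ a w) (hWA a w hw) with e | e | e | e
      · exfalso
        apply hw1
        rw [← map_one (ρ a)] at e
        exact (ρ a).injective e
      · exact e
      · exfalso
        have h1 := hα2 a w
        rw [e, hcomκ a ha, e] at h1
        have h2 := congrArg κ h1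
        rw [hκ3'] at h2
        exact hw1 (hWfpf w hw h2.symm)
      · exfalso
        have h1 := hα2 a w
        rw [e, hcomκ a ha, hcomκ a ha, e, hκ3'] at h1
        exact hw1 (hWfpf w hw h1)
  -- `𝔸 = A₁ ∪ A₁ b`
  have hA1idx : Nat.card 𝔸 ≤ 2 * Nat.card ↥(fmodA1 ρ κ) := by
    have h1 := fmod_card_le_two_mul (fmodA1 ρ κ) ⊤ b (by
      intro a _ ha
      rw [mem_fmodA1] at ha ⊢
      have ha' : ρ a * κ * (ρ a)⁻¹ = κ⁻¹ := (hor a).resolve_left ha
      rw [map_mul, mul_inv_rev]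
      calc ρ a * ρ b * κ * ((ρ b)⁻¹ * (ρ a)⁻¹)
          = ρ a * (ρ b * κ * (ρ b)⁻¹) * (ρ a)⁻¹ := by simp only [mul_assoc]
        _ = (ρ a * κ * (ρ a)⁻¹)⁻¹ := by rw [hbκ]; simp only [mul_inv_rev, inv_inv, mul_assoc]
        _ = κ := by rw [ha', inv_inv])
    rw [Subgroup.card_top] at h1
    exact h1
  -- the fixed points `E` of `A₁` and `CA` of `𝔸`
  obtain ⟨E, hE⟩ : ∃ E : Subgroup U, E = fmodFix ρ (fmodA1 ρ κ) := ⟨_, rfl⟩
  obtain ⟨CA, hCA⟩ : ∃ CA : Subgroup U, CA = fmodFixAll ρ := ⟨_, rfl⟩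
  have hEmem : ∀ x : U, x ∈ E ↔ ∀ a ∈ fmodA1 ρ κ, ρ a x = x := by
    intro x
    rw [hE]
    exact mem_fmodFix ρ _ x
  have hCAmem : ∀ x : U, x ∈ CA ↔ ∀ a : 𝔸, ρ a x = x := by
    intro x
    rw [hCA]
    exact mem_fmodFixAll ρ x
  have hEκ : ∀ e ∈ E, κ e ∈ E := by
    intro e he
    rw [hEmem] at he ⊢
    intro a ha
    rw [hcomκ a ha, he a ha]
  have hEβ : ∀ e ∈ E, ρ b e ∈ E := by
    intro e he
    rw [hEmem] at he ⊢
    intro a ha
    rw [hαc, he a ha]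
  have hCAE : CA ≤ E := by
    intro x hx
    rw [hCAmem] at hx
    rw [hEmem]
    exact fun a _ => hx a
  have hWE : W₁ ≤ E := by
    intro w hw
    rw [hEmem]
    exact fun a ha => hA1W a ha w hw
  have hoff1 : Nat.card ↥E ≤ 2 * Nat.card ↥CA := by
    have h1 := hoff (fmodA1 ρ κ)
    have e1 : Nat.card {u : U // ∀ a ∈ fmodA1 ρ κ, ρ a u = u} = Nat.card ↥E := by rw [hE]; rfl
    have e2 : Nat.card {u : U // ∀ a : 𝔸, ρ a u = u} = Nat.card ↥CA := by rw [hCA]; rfl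
    rw [e1, e2] at h1
    have hpos : 0 < Nat.card ↥(fmodA1 ρ κ) := Nat.card_pos
    have h2 : Nat.card ↥(fmodA1 ρ κ) * Nat.card ↥E
        ≤ Nat.card ↥(fmodA1 ρ κ) * (2 * Nat.card ↥CA) := by
      calc Nat.card ↥(fmodA1 ρ κ) * Nat.card ↥E ≤ Nat.card 𝔸 * Nat.card ↥CA := h1
        _ ≤ (2 * Nat.card ↥(fmodA1 ρ κ)) * Nat.card ↥CA := Nat.mul_le_mul_right _ hA1idx
        _ = Nat.card ↥(fmodA1 ρ κ) * (2 * Nat.card ↥CA) := by ring
    exact Nat.le_of_mul_le_mul_left h2 hpos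
  have hββ : ρ b * ρ b = 1 := by rw [← map_mul, hA2, map_one]
  -- STEP 1: `E ⊓ N = W₁`
  obtain ⟨Z, hZ⟩ : ∃ Z : Subgroup U, Z = E ⊓ N := ⟨_, rfl⟩
  have hZmem : ∀ x : U, x ∈ Z ↔ x ∈ E ∧ x ∈ N := by
    intro x
    rw [hZ]
    exact Subgroup.mem_inf
  have hhalfZ := h U κ (ρ b) Z hU2 hκ3 hββ hbκ
    (fun n hn => (hZmem _).mpr ⟨hEκ n ((hZmem n).mp hn).1, hNκ n ((hZmem n).mp hn).2⟩)
    (fun n hn => (hZmem _).mpr ⟨hEβ n ((hZmem n).mp hn).1, hNβ n ((hZmem n).mp hn).2⟩)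
    (fun n hn => hNfpf n ((hZmem n).mp hn).2)
  have e3 : Nat.card {n : U // n ∈ Z ∧ ρ b n = n} = Nat.card ↥(fmodFixN (ρ b) Z) := rfl
  rw [e3] at hhalfZ
  have hτE : ∀ e ∈ E, e * κ e * κ (κ e) ∈ E :=
    fun e he => E.mul_mem (E.mul_mem he (hEκ e he)) (hEκ _ (hEκ e he))
  have hπZ : ∀ e ∈ CA, κ e * κ (κ e) ∈ fmodFixN (ρ b) Z := by
    intro e he
    have heE := hCAE he
    have hbe : ρ b e = e := (hCAmem e).mp he b
    rw [mem_fmodFixN, hZmem]
    refine ⟨⟨E.mul_mem (hEκ e heE) (hEκ _ (hEκ e heE)), ?_⟩, ?_⟩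
    · have h1 := hNν (κ e)
      rwa [mul_comm] at h1
    · simp only [map_mul, hβκ, hbe, hκ3']
      exact mul_comm _ _
  have hdec : ∀ e : U, e = (e * κ e * κ (κ e)) * (κ e * κ (κ e)) := by
    intro e
    calc e = e * (κ e * κ e) * (κ (κ e) * κ (κ e)) := by simp only [hU2, mul_one]
      _ = (e * κ e * κ (κ e)) * (κ e * κ (κ e)) := by ac_rfl
  have hinj : Nat.card ↥Z * Nat.card ↥CA ≤ Nat.card ↥E * Nat.card ↥(fmodFixN (ρ b) Z) := by
    rw [← Nat.card_prod, ← Nat.card_prod]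
    apply Nat.card_le_card_of_injective
      (fun p : ↥Z × ↥CA => ((⟨(p.1 : U) * ((p.2 : U) * κ p.2 * κ (κ p.2)),
          E.mul_mem ((hZmem _).mp p.1.2).1 (hτE _ (hCAE p.2.2))⟩ : ↥E),
        (⟨κ (p.2 : U) * κ (κ p.2), hπZ _ p.2.2⟩ : ↥(fmodFixN (ρ b) Z))))
    rintro ⟨⟨z, hz⟩, ⟨e, he⟩⟩ ⟨⟨z', hz'⟩, ⟨e', he'⟩⟩ heq
    simp only [Prod.mk.injEq, Subtype.mk.injEq] at heq
    obtain ⟨h1, h2⟩ := heq
    have hx : z * z' = (e * κ e * κ (κ e)) * (e' * κ e' * κ (κ e')) := by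
      have h3 : z * z' * ((e * κ e * κ (κ e)) * (e' * κ e' * κ (κ e'))) = 1 := by
        calc z * z' * ((e * κ e * κ (κ e)) * (e' * κ e' * κ (κ e')))
            = (z * (e * κ e * κ (κ e))) * (z' * (e' * κ e' * κ (κ e'))) := by ac_rfl
          _ = 1 := by rw [h1, hU2]
      have h4 := eq_inv_of_mul_eq_one_left h3
      rw [hinv] at h4
      exact h4
    have hzz' : z * z' = 1 := by
      apply hNfpf _ (N.mul_mem ((hZmem _).mp hz).2 ((hZmem _).mp hz').2)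
      rw [hx]
      simp only [map_mul, hκ3']
      ac_rfl
    have hzeq : z = z' := by
      have h3 := eq_inv_of_mul_eq_one_left hzz'
      rw [hinv] at h3
      exact h3
    subst hzeq
    have hτ : e * κ e * κ (κ e) = e' * κ e' * κ (κ e') := mul_left_cancel h1
    have hee : e = e' := by
      calc e = (e * κ e * κ (κ e)) * (κ e * κ (κ e)) := hdec e
        _ = (e' * κ e' * κ (κ e')) * (κ e' * κ (κ e')) := by rw [hτ, h2]
        _ = e' := (hdec e').symm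
    subst hee
    rfl
  have hZ4 : Nat.card ↥Z ≤ 4 := by
    obtain ⟨c, hc⟩ : ∃ c, c = Nat.card ↥(fmodFixN (ρ b) Z) := ⟨_, rfl⟩
    rw [← hc] at hhalfZ hinj
    have hCApos : 0 < Nat.card ↥CA := Nat.card_pos
    have hcpos : 0 < c := by rw [hc]; exact Nat.card_pos
    have h1 : Nat.card ↥Z * Nat.card ↥CA ≤ (2 * c) * Nat.card ↥CA := by
      calc Nat.card ↥Z * Nat.card ↥CA ≤ Nat.card ↥E * c := hinj
        _ ≤ (2 * Nat.card ↥CA) * c := Nat.mul_le_mul_right _ hoff1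
        _ = (2 * c) * Nat.card ↥CA := by ring
    have h2 : Nat.card ↥Z ≤ 2 * c := Nat.le_of_mul_le_mul_right h1 hCApos
    rw [← hhalfZ] at h2 ⊢
    have h3 : c ≤ 2 := by
      have h4 : c * c ≤ 2 * c := by rw [← pow_two]; exact h2
      exact Nat.le_of_mul_le_mul_right h4 hcpos
    nlinarith
  have hWZ : W₁ ≤ Z := fun w hw => (hZmem w).mpr ⟨hWE hw, hWN hw⟩
  have hZW : Z = W₁ := (Subgroup.eq_of_le_of_card_ge hWZ (by rw [hW4]; exact hZ4)).symm
  -- STEP 2: `N = W₁`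
  intro u
  rw [hinv]
  by_contra hcon
  have hx₀N : κ u * u ∈ N := hNν u
  have hhalfN := h U κ (ρ b) N hU2 hκ3 hββ hbκ hNκ hNβ hNfpf
  have e4 : Nat.card {n : U // n ∈ N ∧ ρ b n = n} = Nat.card ↥(fmodFixN (ρ b) N) := rfl
  rw [e4] at hhalfN
  have hhalfW := h U κ (ρ b) W₁ hU2 hκ3 hββ hbκ hWκ (fun w hw => hWA b w hw) hWfpf
  have e5 : Nat.card {n : U // n ∈ W₁ ∧ ρ b n = n} = Nat.card ↥(fmodFixN (ρ b) W₁) := rfl
  rw [e5, hW4] at hhalfW
  obtain ⟨Y, hY⟩ : ∃ Y : Subgroup U, Y = fmodFixN (ρ b) N := ⟨_, rfl⟩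
  obtain ⟨Z₀, hZ₀⟩ : ∃ Z₀ : Subgroup U, Z₀ = fmodFixN (ρ b) W₁ := ⟨_, rfl⟩
  rw [← hY] at hhalfN
  rw [← hZ₀] at hhalfW
  have hYmem : ∀ x : U, x ∈ Y ↔ x ∈ N ∧ ρ b x = x := by
    intro x
    rw [hY]
    exact mem_fmodFixN _ _ x
  have hZ₀mem : ∀ x : U, x ∈ Z₀ ↔ x ∈ W₁ ∧ ρ b x = x := by
    intro x
    rw [hZ₀]
    exact mem_fmodFixN _ _ x
  have hZ₀2 : Nat.card ↥Z₀ = 2 := by
    have h1 : Nat.card ↥Z₀ ^ 2 = 2 ^ 2 := by rw [hhalfW]; norm_num
    exact Nat.pow_left_injective (by norm_num) h1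
  have hN8 : 8 ≤ Nat.card ↥N := by
    have h1 := fmod_two_mul_card_le W₁ N hWN (κ u * u) hx₀N hcon
    rw [hW4] at h1
    exact h1
  have hY3 : 3 ≤ Nat.card ↥Y := by
    by_contra hlt
    have h1 : Nat.card ↥Y ≤ 2 := by omega
    have h2 : Nat.card ↥Y ^ 2 ≤ 2 ^ 2 := Nat.pow_le_pow_left h1 2
    rw [hhalfN] at h2
    omega
  -- an element of `Y` outside `W₁`
  have hexY : ∃ y ∈ Y, y ∉ W₁ := by
    by_contra hno
    push_neg at hno
    have hYZ₀ : Y ≤ Z₀ := by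
      intro y hy
      rw [hZ₀mem]
      exact ⟨hno y hy, ((hYmem y).mp hy).2⟩
    have h1 := Subgroup.card_le_of_le hYZ₀
    omega
  -- an element of `W₁` not fixed by `b`
  have hexW : ∃ w ∈ W₁, ρ b w ≠ w := by
    by_contra hno
    push_neg at hno
    have hWZ₀ : W₁ ≤ Z₀ := by
      intro w hw
      rw [hZ₀mem]
      exact ⟨hw, hno w hw⟩
    have h1 := Subgroup.card_le_of_le hWZ₀
    omega
  obtain ⟨w₁, hw₁W, hw₁b⟩ := hexW
  have hCAE2 : 2 * Nat.card ↥CA ≤ Nat.card ↥E :=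
    fmod_two_mul_card_le CA E hCAE w₁ (hWE hw₁W) (fun hw => hw₁b ((hCAmem w₁).mp hw b))
  -- uniqueness of the nonidentity element of `Z₀`
  have hZ₀uniq : ∀ x ∈ Z₀, ∀ y ∈ Z₀, x ≠ 1 → y ≠ 1 → x = y := by
    intro x hx y hy hx1 hy1
    obtain ⟨z, -, hz⟩ := (Nat.card_eq_two_iff' (1 : ↥Z₀)).mp hZ₀2
    have h1 := hz ⟨x, hx⟩ (fun e => hx1 (congrArg Subtype.val e))
    have h2 := hz ⟨y, hy⟩ (fun e => hy1 (congrArg Subtype.val e))
    exact congrArg Subtype.val (h1.trans h2.symm)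
  -- a minimal element `f` of `Y ∖ W₁`
  obtain ⟨f, ⟨hfY, hfW⟩, hfmin⟩ := Set.exists_min_image {y : U | y ∈ Y ∧ y ∉ W₁}
    (fun y => Set.ncard {a : 𝔸 | a ∈ fmodA1 ρ κ ∧ ρ a y * y ≠ 1}) (Set.toFinite _)
    (by obtain ⟨y, hy, hyW⟩ := hexY; exact ⟨y, hy, hyW⟩)
  have hfN : f ∈ N := ((hYmem f).mp hfY).1
  have hfb : ρ b f = f := ((hYmem f).mp hfY).2
  have hδ : ∀ a ∈ fmodA1 ρ κ, ρ a f * f ∈ Z₀ := by
    intro a ha
    have hδY : ρ a f * f ∈ Y := by
      rw [hYmem]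
      refine ⟨N.mul_mem (hNA1 a ha f hfN) hfN, ?_⟩
      rw [map_mul, hαc, hfb]
    rw [hZ₀mem]
    refine ⟨?_, ((hYmem _).mp hδY).2⟩
    by_contra hnW
    have hmin := hfmin (ρ a f * f) ⟨hδY, hnW⟩
    have hlt : Set.ncard {a' : 𝔸 | a' ∈ fmodA1 ρ κ ∧ ρ a' (ρ a f * f) * (ρ a f * f) ≠ 1}
        < Set.ncard {a' : 𝔸 | a' ∈ fmodA1 ρ κ ∧ ρ a' f * f ≠ 1} := by
      apply Set.ncard_lt_ncard _ (Set.toFinite _)
      constructor
      · rintro a' ⟨ha', hne⟩
        refine ⟨ha', ?_⟩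
        intro h1
        apply hne
        have e : ρ a' (ρ a f * f) * (ρ a f * f) = ρ a (ρ a' f * f) * (ρ a' f * f) := by
          simp only [map_mul]
          rw [hαc a' a f]
          ac_rfl
        rw [e, h1, map_one, one_mul]
      · intro hsub
        have hmem : a ∈ {a' : 𝔸 | a' ∈ fmodA1 ρ κ ∧ ρ a' f * f ≠ 1} :=
          ⟨ha, fun h1 => hnW (by rw [h1]; exact W₁.one_mem)⟩
        apply (hsub hmem).2
        rw [map_mul, hα2]
        calc f * ρ a f * (ρ a f * f) = (f * f) * (ρ a f * ρ a f) := by ac_rfl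
          _ = 1 := by simp only [hU2, one_mul]
    exact absurd hmin (not_le.mpr hlt)
  -- the stabilizer `B` of `f` in `A₁`
  obtain ⟨B, hB⟩ : ∃ B : Subgroup 𝔸, B = fmodStab ρ (fmodA1 ρ κ) f := ⟨_, rfl⟩
  have hBmem : ∀ a : 𝔸, a ∈ B ↔ a ∈ fmodA1 ρ κ ∧ ρ a f = f := by
    intro a
    rw [hB]
    exact mem_fmodStab _ _ _ a
  have hA1B : Nat.card ↥(fmodA1 ρ κ) ≤ 2 * Nat.card ↥B := by
    by_cases hall : ∀ a ∈ fmodA1 ρ κ, ρ a f = f
    · apply fmod_card_le_two_mul B (fmodA1 ρ κ) 1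
      intro a ha hnB
      exact absurd ((hBmem a).mpr ⟨ha, hall a ha⟩) hnB
    · push_neg at hall
      obtain ⟨a₀, ha₀, hne₀⟩ := hall
      apply fmod_card_le_two_mul B (fmodA1 ρ κ) a₀
      intro a ha hnB
      have hne : ρ a f ≠ f := fun e => hnB ((hBmem a).mpr ⟨ha, e⟩)
      have key : ∀ a' : 𝔸, ρ a' f ≠ f → ρ a' f * f ≠ 1 := by
        intro a' hne' h1
        apply hne'
        have h2 := eq_inv_of_mul_eq_one_left h1
        rw [hinv] at h2
        exact h2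
      have hww : ρ a f * f = ρ a₀ f * f :=
        hZ₀uniq _ (hδ a ha) _ (hδ a₀ ha₀) (key a hne) (key a₀ hne₀)
      obtain ⟨w₀, hw₀⟩ : ∃ w₀ : U, w₀ = ρ a₀ f * f := ⟨_, rfl⟩
      have hw₀W : w₀ ∈ W₁ := by
        rw [hw₀]
        exact ((hZ₀mem _).mp (hδ a₀ ha₀)).1
      have e1 : ρ a₀ f = w₀ * f := by rw [hw₀, mul_assoc, hU2, mul_one]
      have e2 : ρ a f = w₀ * f := by rw [hw₀, ← hww, mul_assoc, hU2, mul_one]
      rw [hBmem]
      refine ⟨(fmodA1 ρ κ).mul_mem ha ha₀, ?_⟩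
      rw [map_mul, MulAut.mul_apply, e1, map_mul, hA1W a ha w₀ hw₀W, e2, ← mul_assoc, hU2,
        one_mul]
  -- `C_U(B)` contains `E`, `f` and `κ f`
  have hfE : f ∉ E := fun hfE => hfW (by rw [← hZW]; exact (hZmem f).mpr ⟨hfE, hfN⟩)
  have hκκf : κ (κ f) = κ f * f := by
    have h1 := (hNmem f).mp hfN
    have h2 := eq_inv_of_mul_eq_one_right h1
    rw [hinv] at h2
    rw [h2, mul_comm]
  have hκfE : κ f ∉ fmodAdj hU2 E f := by
    rw [mem_fmodAdj]
    rintro (h1 | h1)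
    · apply hfE
      have h2 := hEκ _ (hEκ _ h1)
      rwa [hκ3'] at h2
    · apply hfE
      rw [← hκκf] at h1
      have h2 := hEκ _ h1
      rwa [hκ3'] at h2
  have hfE1 : f ∈ fmodAdj hU2 E f := by
    rw [mem_fmodAdj]
    right
    rw [hU2]
    exact E.one_mem
  have hEE1 : E ≤ fmodAdj hU2 E f := fun x hx => Or.inl hx
  have hE1E2 : fmodAdj hU2 E f ≤ fmodAdj hU2 (fmodAdj hU2 E f) (κ f) := fun x hx => Or.inl hx
  have hκfE2 : κ f ∈ fmodAdj hU2 (fmodAdj hU2 E f) (κ f) := by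
    rw [mem_fmodAdj]
    right
    rw [hU2]
    exact Subgroup.one_mem _
  have hc1 : 2 * Nat.card ↥E ≤ Nat.card ↥(fmodAdj hU2 E f) :=
    fmod_two_mul_card_le _ _ hEE1 f hfE1 hfE
  have hc2 : 2 * Nat.card ↥(fmodAdj hU2 E f)
      ≤ Nat.card ↥(fmodAdj hU2 (fmodAdj hU2 E f) (κ f)) :=
    fmod_two_mul_card_le _ _ hE1E2 (κ f) hκfE2 hκfE
  have hE2F : fmodAdj hU2 (fmodAdj hU2 E f) (κ f) ≤ fmodFix ρ B := by
    have hEF : E ≤ fmodFix ρ B := by
      intro x hx a ha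
      exact (hEmem x).mp hx a ((hBmem a).mp ha).1
    have hfF : f ∈ fmodFix ρ B := fun a ha => ((hBmem a).mp ha).2
    have hκfF : κ f ∈ fmodFix ρ B := by
      intro a ha
      rw [hcomκ a ((hBmem a).mp ha).1, ((hBmem a).mp ha).2]
    have hE1F : fmodAdj hU2 E f ≤ fmodFix ρ B := by
      rintro x (hx | hx)
      · exact hEF hx
      · have e : x = (x * f) * f := by rw [mul_assoc, hU2, mul_one]
        rw [e]
        exact Subgroup.mul_mem _ (hEF hx) hfF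
    rintro x (hx | hx)
    · exact hE1F hx
    · have e : x = (x * κ f) * κ f := by rw [mul_assoc, hU2, mul_one]
      rw [e]
      exact Subgroup.mul_mem _ (hE1F hx) hκfF
  have hc3 := Subgroup.card_le_of_le hE2F
  -- the offender inequality for `B`
  have h6 := hoff B
  have e6 : Nat.card {u : U // ∀ a ∈ B, ρ a u = u} = Nat.card ↥(fmodFix ρ B) := rfl
  have e7 : Nat.card {u : U // ∀ a : 𝔸, ρ a u = u} = Nat.card ↥CA := by rw [hCA]; rfl
  rw [e6, e7] at h6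
  have hBpos : 0 < Nat.card ↥B := Nat.card_pos
  have hCApos : 0 < Nat.card ↥CA := Nat.card_pos
  have h7 : Nat.card ↥B * (4 * Nat.card ↥E) ≤ Nat.card ↥B * (4 * Nat.card ↥CA) := by
    calc Nat.card ↥B * (4 * Nat.card ↥E) ≤ Nat.card ↥B * Nat.card ↥(fmodFix ρ B) :=
          Nat.mul_le_mul_left _ (by omega)
      _ ≤ Nat.card 𝔸 * Nat.card ↥CA := h6
      _ ≤ (4 * Nat.card ↥B) * Nat.card ↥CA := Nat.mul_le_mul_right _ (by omega)
      _ = Nat.card ↥B * (4 * Nat.card ↥CA) := by ring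
  have h8 := Nat.le_of_mul_le_mul_left h7 hBpos
  omega

end Cfsg.Agent.Lib.Helper79.JE
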