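import Mathlib
import Cfsg.Agent.Lib.Helper80.GenDec
import Cfsg.Agent.Lib.Helper81.IrrEquiv
import Cfsg.Agent.Lib.Helper84.IndHom

/-!
# Rank of unions of blocks and transport of ranks (helper79)

* `kr_blockRank_image`: the `p`-regular rank is invariant under transport along isomorphisms.
* `kr_card_union`, `kr_blockRank_union`: number of characters and `p`-regular rank of a union
  of blocks are the sums over the blocks.
-/

set_option autoImplicit false
set_option linter.style.haveILetI false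

namespace Cfsg.Agent.Lib.Helper79

open Cfsg Cfsg.Agent.Lib.Helper4 Cfsg.Agent.Lib.Helper21 Cfsg.Agent.Lib.Helper22
  Cfsg.Agent.Lib.Helper81
open scoped ComplexConjugate

section RankTransport

variable {K K' : Type*} [Group K] [Group K']

theorem kr_pReg_comp (p : ℕ) (φ : K ≃* K') (θ : K → ℂ) :
    pRegularPart p (fun x : K' => θ (φ.symm x)) = fun x : K' => pRegularPart p θ (φ.symm x) := by
  funext x
  by_cases h : p ∣ orderOf x
  · rw [pRegularPart_of_sing _ h, pRegularPart_of_sing _ (by rwa [MulEquiv.orderOf_eq])]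
  · rw [pRegularPart_of_reg _ h, pRegularPart_of_reg _ (by rwa [MulEquiv.orderOf_eq])]

/-- The `p`-regular rank is invariant under transport along a group isomorphism. -/
theorem kr_blockRank_image (p : ℕ) (φ : K ≃* K') (e : Set (IrrCharacter K)) :
    blockRank p (irrMap φ '' e) = blockRank p e := by
  unfold blockRank
  have h : Submodule.span ℂ ((fun χ : IrrCharacter K' => pRegularPart p (χ : K' → ℂ)) ''
        (irrMap φ '' e)) =
      (Submodule.span ℂ ((fun χ : IrrCharacter K => pRegularPart p (χ : K → ℂ)) '' e)).map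
        ((LinearEquiv.funCongrLeft ℂ ℂ φ.symm.toEquiv : (K → ℂ) ≃ₗ[ℂ] (K' → ℂ)) :
          (K → ℂ) →ₗ[ℂ] (K' → ℂ)) := by
    rw [Submodule.map_span, Set.image_image, Set.image_image]
    congr 1
    refine Set.image_congr fun χ _ => ?_
    exact kr_pReg_comp p φ (χ : K → ℂ)
  rw [h]
  exact LinearEquiv.finrank_map_eq _ _

end RankTransport

section Union

variable {G : Type*} [Group G] {p : ℕ} {M : Ideal AlgInt}

open scoped Classical in
/-- A weighted count over a union of blocks is the sum of the weighted counts of the blocks. -/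
theorem kr_union_weight [Fintype (IrrCharacter G)] (hM : IsPModular p M)
    (P : Set (IrrCharacter G) → Prop) (hP : ∀ β, P β → IsPBlock M β)
    (U : Set (IrrCharacter G)) (hU : ∀ χ, χ ∈ U ↔ ∃ β, χ ∈ β ∧ P β) (c : IrrCharacter G → ℂ) :
    ∑ χ : IrrCharacter G, (if χ ∈ U then c χ else 0) =
      ∑ᶠ β ∈ {β : Set (IrrCharacter G) | P β},
        ∑ χ : IrrCharacter G, (if χ ∈ β then c χ else 0) := by
  have hfin : {β : Set (IrrCharacter G) | P β}.Finite := Set.toFinite _
  rw [finsum_mem_eq_finite_toFinset_sum _ hfin, Finset.sum_comm]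
  refine Finset.sum_congr rfl fun χ _ => ?_
  by_cases hχ : χ ∈ U
  · obtain ⟨β₀, hχβ₀, hβ₀⟩ := (hU χ).mp hχ
    rw [if_pos hχ]
    rw [Finset.sum_eq_single β₀]
    · rw [if_pos hχβ₀]
    · intro β hβ hne
      rw [Set.Finite.mem_toFinset] at hβ
      rw [if_neg]
      intro hχβ
      exact hne (block_eq_of_mem_of_mem hM (hP β hβ) (hP β₀ hβ₀) χ hχβ hχβ₀)
    · intro h
      exact absurd ((Set.Finite.mem_toFinset hfin).mpr hβ₀) h
  · rw [if_neg hχ]
    symm
    apply Finset.sum_eq_zero
    intro β hβ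
    rw [Set.Finite.mem_toFinset] at hβ
    rw [if_neg]
    intro hχβ
    exact hχ ((hU χ).mpr ⟨β, hχβ, hβ⟩)

open scoped Classical in
theorem kr_card_eq_sum [Fintype (IrrCharacter G)] (U : Set (IrrCharacter G)) :
    (Nat.card U : ℂ) = ∑ χ : IrrCharacter G, (if χ ∈ U then (1 : ℂ) else 0) := by
  rw [Finset.sum_boole, Nat.card_eq_fintype_card, Fintype.card_subtype]

/-- The number of characters in a union of blocks. -/
theorem kr_card_union [Finite G] (hM : IsPModular p M)
    (P : Set (IrrCharacter G) → Prop) (hP : ∀ β, P β → IsPBlock M β) :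
    Nat.card {ψ : IrrCharacter G | ∃ β, ψ ∈ β ∧ P β} =
      ∑ᶠ β ∈ {β : Set (IrrCharacter G) | P β}, Nat.card β := by
  classical
  letI := Fintype.ofFinite (IrrCharacter G)
  have hfin : {β : Set (IrrCharacter G) | P β}.Finite := Set.toFinite _
  obtain ⟨U, hU⟩ : ∃ U : Set (IrrCharacter G), U = {ψ : IrrCharacter G | ∃ β, ψ ∈ β ∧ P β} :=
    ⟨_, rfl⟩
  rw [← hU]
  have hU' : ∀ χ, χ ∈ U ↔ ∃ β, χ ∈ β ∧ P β := by
    intro χ; rw [hU]; rfl
  apply Nat.cast_injective (R := ℂ)
  rw [kr_card_eq_sum, kr_union_weight hM P hP U hU' (fun _ => 1)]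
  rw [Nat.cast_finsum_mem hfin]
  refine finsum_mem_congr rfl fun β _ => ?_
  rw [kr_card_eq_sum]

open scoped Classical in
/-- The trace formula for the `p`-regular rank of a set of characters closed under the
expansion of `p`-regular parts. -/
theorem kr_blockRank_eq_sum [Fintype G] [Fintype (IrrCharacter G)] (U : Set (IrrCharacter G))
    (hexpU : ∀ χ ∈ U, ∀ y : G, pRegularPart p (χ : G → ℂ) y = ∑ ψ : IrrCharacter G,
      (if ψ ∈ U then classInner (pRegularPart p (χ : G → ℂ)) (ψ : G → ℂ) * (ψ : G → ℂ) y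
        else 0)) :
    (blockRank p U : ℂ) = ∑ χ : IrrCharacter G,
      (if χ ∈ U then classInner (pRegularPart p (χ : G → ℂ)) (χ : G → ℂ) else 0) := by
  let b : {χ : IrrCharacter G // χ ∈ U} → (G → ℂ) := fun i => (i.1 : G → ℂ)
  have hli : LinearIndependent ℂ b :=
    (irr_linearIndependent (G := G)).comp Subtype.val Subtype.val_injective
  let E : Submodule ℂ (G → ℂ) := Submodule.span ℂ (Set.range b)
  have hsum : ∀ g : IrrCharacter G → ℂ, ∑ χ : IrrCharacter G, (if χ ∈ U then g χ else 0) =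
      ∑ i : {χ : IrrCharacter G // χ ∈ U}, g i.1 := by
    intro g
    rw [← Finset.sum_filter]
    exact Finset.sum_subtype _ (by simp) _
  have hexp : ∀ i : {χ : IrrCharacter G // χ ∈ U}, regL G p (b i) =
      ∑ j : {χ : IrrCharacter G // χ ∈ U}, classInner (pRegularPart p (b i)) (b j) • b j := by
    intro i
    funext y
    rw [regL_apply, hexpU i.1 i.2 y, hsum]
    simp only [Finset.sum_apply, Pi.smul_apply, smul_eq_mul, b]
  have hρE : ∀ v ∈ E, regL G p v ∈ E := by
    intro v hv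
    have hle : E ≤ E.comap (regL G p) := by
      refine Submodule.span_le.mpr ?_
      rintro _ ⟨i, rfl⟩
      show regL G p (b i) ∈ E
      rw [hexp i]
      exact Submodule.sum_mem _ fun j _ =>
        Submodule.smul_mem _ _ (Submodule.subset_span ⟨j, rfl⟩)
    exact hle hv
  let f : E →ₗ[ℂ] E := (regL G p).restrict hρE
  have hidem : IsIdempotentElem f := by
    refine LinearMap.ext fun v => Subtype.ext ?_
    show regL G p (regL G p (v : G → ℂ)) = regL G p (v : G → ℂ)
    simp only [regL_apply, pRegularPart_idem]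
  let 𝔟 : Module.Basis {χ : IrrCharacter G // χ ∈ U} ℂ E := Module.Basis.span hli
  have h𝔟 : ∀ i, ((𝔟 i : E) : G → ℂ) = b i := by
    intro i
    show ((Module.Basis.span hli i : E) : G → ℂ) = b i
    rw [Module.Basis.span_apply]
  have hf𝔟 : ∀ i, f (𝔟 i) =
      ∑ j, classInner (pRegularPart p (b i)) (b j) • 𝔟 j := by
    intro i
    apply Subtype.ext
    rw [Submodule.coe_sum]
    simp only [Submodule.coe_smul, h𝔟]
    rw [← hexp i]
    show regL G p ((𝔟 i : E) : G → ℂ) = _
    rw [h𝔟]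
  have htrace : LinearMap.trace ℂ E f =
      ∑ i, classInner (pRegularPart p (b i)) (b i) := by
    rw [LinearMap.trace_eq_matrix_trace ℂ 𝔟 f, Matrix.trace]
    refine Finset.sum_congr rfl fun i _ => ?_
    rw [Matrix.diag_apply, LinearMap.toMatrix_apply, hf𝔟 i, Module.Basis.repr_sum_self]
  have hrank : LinearMap.trace ℂ E f = (Module.finrank ℂ (LinearMap.range f) : ℂ) :=
    trace_idem_eq_finrank f hidem
  have hmap : (LinearMap.range f).map E.subtype =
      Submodule.span ℂ ((fun χ : IrrCharacter G => pRegularPart p (χ : G → ℂ)) '' U) := by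
    have h1 : E.subtype ∘ₗ f = regL G p ∘ₗ E.subtype := by
      refine LinearMap.ext fun v => ?_
      rfl
    rw [← LinearMap.range_comp, h1, LinearMap.range_comp, Submodule.range_subtype,
      Submodule.map_span]
    congr 1
    ext θ
    constructor
    · rintro ⟨_, ⟨i, rfl⟩, rfl⟩
      exact ⟨i.1, i.2, rfl⟩
    · rintro ⟨χ, hχ, rfl⟩
      exact ⟨_, ⟨⟨χ, hχ⟩, rfl⟩, rfl⟩
  have hbr : blockRank p U = Module.finrank ℂ (LinearMap.range f) := by
    unfold blockRank
    rw [← hmap, Submodule.finrank_map_subtype_eq]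
  rw [hbr, ← hrank, htrace, hsum]

/-- The `p`-regular rank of a union of blocks is the sum of the ranks of the blocks. -/
theorem kr_blockRank_union [Finite G] (hM : IsPModular p M)
    (P : Set (IrrCharacter G) → Prop) (hP : ∀ β, P β → IsPBlock M β) :
    blockRank p {ψ : IrrCharacter G | ∃ β, ψ ∈ β ∧ P β} =
      ∑ᶠ β ∈ {β : Set (IrrCharacter G) | P β}, blockRank p β := by
  classical
  letI := Fintype.ofFinite G
  letI := Fintype.ofFinite (IrrCharacter G)
  have hfin : {β : Set (IrrCharacter G) | P β}.Finite := Set.toFinite _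
  obtain ⟨U, hU⟩ : ∃ U : Set (IrrCharacter G), U = {ψ : IrrCharacter G | ∃ β, ψ ∈ β ∧ P β} :=
    ⟨_, rfl⟩
  rw [← hU]
  have hU' : ∀ χ, χ ∈ U ↔ ∃ β, χ ∈ β ∧ P β := by
    intro χ; rw [hU]; rfl
  apply Nat.cast_injective (R := ℂ)
  have hexpU : ∀ χ ∈ U, ∀ y : G,
      pRegularPart p (χ : G → ℂ) y = ∑ ψ : IrrCharacter G,
      (if ψ ∈ U then
        classInner (pRegularPart p (χ : G → ℂ)) (ψ : G → ℂ) * (ψ : G → ℂ) y else 0) := by
    intro χ hχ y
    obtain ⟨β₀, hχβ₀, hβ₀⟩ := (hU' χ).mp hχ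
    rw [pRegularPart_expansion hM β₀ (hP β₀ hβ₀) χ hχβ₀ y]
    refine Finset.sum_congr rfl fun ψ _ => ?_
    by_cases hψ : ψ ∈ β₀
    · rw [if_pos hψ, if_pos ((hU' ψ).mpr ⟨β₀, hψ, hβ₀⟩)]
    · rw [if_neg hψ]
      have h0 := Cfsg.Agent.Lib.Helper80.GenDec.inner_reg_eq_zero hM (hP β₀ hβ₀) hχβ₀ hψ
      by_cases hψU : ψ ∈ U
      · rw [if_pos hψU, h0, zero_mul]
      · rw [if_neg hψU]
  have h1 := kr_blockRank_eq_sum U hexpU
  rw [h1, kr_union_weight hM P hP U hU'
    (fun χ => classInner (pRegularPart p (χ : G → ℂ)) (χ : G → ℂ))]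
  rw [Nat.cast_finsum_mem hfin]
  refine finsum_mem_congr rfl fun β hβ => ?_
  exact (blockRank_eq_sum hM β (hP β hβ)).symm

end Union

end Cfsg.Agent.Lib.Helper79
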