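import Mathlib
import Cfsg.Agent.Lib.Helper79.KRa
import Cfsg.Agent.S4511
import Cfsg.Agent.S0919

/-!
# The local count `k - l` of the characters of a subgroup lying in blocks inducing a given block
(helper79)
-/

set_option autoImplicit false
set_option linter.style.haveILetI false

namespace Cfsg.Agent.Lib.Helper79

open Cfsg Cfsg.Agent.Lib.Helper4 Cfsg.Agent.Lib.Helper21 Cfsg.Agent.Lib.Helper22
  Cfsg.Agent.Lib.Helper81 Cfsg.Agent.Lib.Helper84
open scoped ComplexConjugate

section Defs

variable {G : Type*} [Group G]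

/-- the irreducible characters of `K` lying in blocks that induce `b` -/
def krSet (M : Ideal AlgInt) (b : Set (IrrCharacter G)) (K : Subgroup G) :
    Set (IrrCharacter K) :=
  {ψ | ∃ β : Set (IrrCharacter K), ψ ∈ β ∧ IsInducedBlock M K β b}

/-- the sum of the ranks of the blocks of `E` inducing `b` -/
noncomputable def krLam (p : ℕ) (M : Ideal AlgInt) (b : Set (IrrCharacter G))
    (E : Subgroup G) : ℕ :=
  ∑ᶠ e ∈ {e : Set (IrrCharacter E) | IsInducedBlock M E e b}, blockRank p e

/-- `|K| (k - l)` for the characters of `K` in blocks inducing `b` -/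
noncomputable def krF (p : ℕ) (M : Ideal AlgInt) (b : Set (IrrCharacter G))
    (K : Subgroup G) : ℤ :=
  (Nat.card K : ℤ) * ((Nat.card (krSet M b K) : ℤ) - (blockRank p (krSet M b K) : ℤ))

noncomputable def krPhi (p : ℕ) (M : Ideal AlgInt) (b : Set (IrrCharacter G))
    (E : Subgroup G) : ℤ :=
  (Nat.card E : ℤ) * (krLam p M b E : ℤ)

/-- the centralizer of `x` in `K`, as a subgroup of `G` -/
def krCentEquiv (K : Subgroup G) (x : K) :
    ↥(Subgroup.centralizer ({x} : Set K)) ≃*
      ↥(K ⊓ Subgroup.centralizer ({(x : G)} : Set G)) where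
  toFun c := ⟨((c : K) : G), Subgroup.mem_inf.mpr ⟨(c : K).2, by
    rw [Subgroup.mem_centralizer_iff]
    intro h hh
    rw [Set.mem_singleton_iff] at hh
    rw [hh]
    have := (Subgroup.mem_centralizer_iff.mp c.2) x (Set.mem_singleton x)
    exact congrArg Subtype.val this⟩⟩
  invFun d := ⟨⟨(d : G), (Subgroup.mem_inf.mp d.2).1⟩, by
    rw [Subgroup.mem_centralizer_iff]
    intro h hh
    rw [Set.mem_singleton_iff] at hh
    rw [hh]
    apply Subtype.ext
    exact (Subgroup.mem_centralizer_iff.mp (Subgroup.mem_inf.mp d.2).2) (x : G)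
      (Set.mem_singleton _)⟩
  left_inv c := rfl
  right_inv d := rfl
  map_mul' a b := rfl

end Defs

section Transport

variable {G : Type*} [Group G] [Finite G] {p : ℕ} [Fact p.Prime] {M : Ideal AlgInt}

/-- Blocks of `C_K(x)` inducing (through `K`) the block `b` of `G` correspond to the blocks of
`K ⊓ C_G(x)` inducing `b`. -/
theorem kr_transport (hM : IsPModular p M) (b : Set (IrrCharacter G)) (K : Subgroup G) (x : K)
    (hx : ∃ k : ℕ, orderOf x = p ^ k) :
    ∑ᶠ β ∈ {β : Set (IrrCharacter K) | IsInducedBlock M K β b},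
      ∑ᶠ e' ∈ {e' : Set (IrrCharacter (Subgroup.centralizer ({x} : Set K))) |
          IsInducedBlock M (Subgroup.centralizer ({x} : Set K)) e' β}, blockRank p e' =
    krLam p M b (K ⊓ Subgroup.centralizer ({(x : G)} : Set G)) := by
  classical
  set φ := krCentEquiv K x with hφ
  set ι' : ↥(Subgroup.centralizer ({x} : Set K)) →* K :=
    (Subgroup.centralizer ({x} : Set K)).subtype with hι'
  set κ : K →* G := K.subtype with hκ
  set ι : ↥(K ⊓ Subgroup.centralizer ({(x : G)} : Set G)) →* G :=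
    (K ⊓ Subgroup.centralizer ({(x : G)} : Set G)).subtype with hι
  have hc1 : (κ.comp ι').comp φ.symm.toMonoidHom = ι := by
    ext d; rfl
  have hc2 : ι.comp φ.symm.symm.toMonoidHom = κ.comp ι' := by
    ext c; rfl
  have hdisj : ({β : Set (IrrCharacter K) | IsInducedBlock M K β b}).PairwiseDisjoint
      (fun β => {e' : Set (IrrCharacter (Subgroup.centralizer ({x} : Set K))) |
          IsInducedBlock M (Subgroup.centralizer ({x} : Set K)) e' β}) := by
    intro β₁ _ β₂ _ hne
    rw [Function.onFun, Set.disjoint_left]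
    intro e' h1 h2
    exact hne (indHom_unique hM (ι := ι') h1 h2)
  rw [← finsum_mem_biUnion hdisj (Set.toFinite _) (fun _ _ => Set.toFinite _)]
  unfold krLam
  refine finsum_mem_eq_of_bijOn (fun e' => irrMap φ '' e') ⟨?_, ?_, ?_⟩ ?_
  · intro e' he'
    simp only [Set.mem_iUnion, Set.mem_ofPred_eq, exists_prop] at he'
    obtain ⟨β, hβ, he'β⟩ := he'
    have h1 : IndHom M ι' e' β := he'β
    have h2 : IndHom M κ β b := hβ
    have h3 := IndHom.trans hM h1 h2
    have h4 := indHom_irrMap_source φ (κ.comp ι') e' b h3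
    rw [hc1] at h4
    exact h4
  · intro e₁ _ e₂ _ h
    exact (Set.image_injective.mpr (irrMap_injective φ)) h
  · intro e he
    have he' : IndHom M ι e b := he
    have h5 := indHom_irrMap_source φ.symm ι e b he'
    rw [hc2] at h5
    have hblk : IsPBlock M (irrMap φ.symm '' e) := h5.1
    have hP : IsPGroup p (Subgroup.zpowers x) := by
      obtain ⟨k, hk⟩ := hx
      apply IsPGroup.of_card (n := k)
      rw [Nat.card_zpowers, hk]
    have hcomm : ∀ c ∈ Subgroup.centralizer ({x} : Set K), ∀ h ∈ Subgroup.zpowers x,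
        h * c = c * h := by
      intro c hc h hh
      obtain ⟨n, rfl⟩ := Subgroup.mem_zpowers_iff.mp hh
      have h0 : Commute x c := (Subgroup.mem_centralizer_iff.mp hc) x (Set.mem_singleton x)
      exact (h0.zpow_left n).eq
    have hdef := Cfsg.Agent.S0919.result p M hM (Subgroup.zpowers x)
      (Subgroup.centralizer ({x} : Set K)) hP
      (by
        rw [Subgroup.zpowers_le]
        rw [Subgroup.mem_centralizer_iff]
        intro h hh
        rw [Set.mem_singleton_iff] at hh
        rw [hh])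
      (by
        apply Subgroup.centralizer_le
        intro y hy
        rw [Set.mem_singleton_iff] at hy
        rw [hy]
        exact Subgroup.mem_zpowers x)
      (by
        intro c hc
        apply Subgroup.centralizer_le_normalizer
        rw [Subgroup.mem_centralizer_iff]
        intro h hh
        exact hcomm c hc h hh)
      (irrMap φ.symm '' e) hblk
    obtain ⟨β, hβ⟩ := hdef
    have h1 : IndHom M ι' (irrMap φ.symm '' e) β := hβ
    have h6 : IndHom M κ β b := IndHom.of_comp hM h1 h5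
    refine ⟨irrMap φ.symm '' e, ?_, image_irrMap_symm_image φ e⟩
    simp only [Set.mem_iUnion, Set.mem_ofPred_eq, exists_prop]
    exact ⟨β, h6, hβ⟩
  · intro e' _
    exact (kr_blockRank_image p φ e').symm

end Transport

section Avg

variable {H : Type*} [Group H] [Fintype H] [DecidableEq H]

theorem kr_orderOf_conj (d x : H) : orderOf (d * x * d⁻¹) = orderOf x := by
  have := MulEquiv.orderOf_eq (MulAut.conj d) x
  rwa [MulAut.conj_apply] at this

open scoped Classical in
theorem kr_fiber_card (x y : H) :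
    ((Finset.univ.filter (fun d : H => d * x * d⁻¹ = y)).card : ℤ) =
      if IsConj x y then (Nat.card (Subgroup.centralizer ({y} : Set H)) : ℤ) else 0 := by
  by_cases hxy : IsConj x y
  · rw [if_pos hxy]
    obtain ⟨d₀, hd₀⟩ := isConj_iff.mp hxy
    have h1 : Nat.card (Subgroup.centralizer ({y} : Set H)) =
        (Finset.univ.filter (fun z : H => z ∈ Subgroup.centralizer ({y} : Set H))).card := by
      rw [Nat.card_eq_fintype_card, Fintype.card_subtype]
    rw [h1]
    congr 1
    refine Finset.card_bij (fun d _ => d * d₀⁻¹) ?_ ?_ ?_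
    · intro d hd
      rw [Finset.mem_filter] at hd ⊢
      refine ⟨Finset.mem_univ _, ?_⟩
      rw [Subgroup.mem_centralizer_iff]
      intro h hh
      rw [Set.mem_singleton_iff] at hh
      rw [hh, ← hd₀]
      have := hd.2
      rw [← hd₀] at this
      calc d₀ * x * d₀⁻¹ * (d * d₀⁻¹) = d * x * d⁻¹ * (d * d₀⁻¹) := by rw [this]
        _ = d * d₀⁻¹ * (d₀ * x * d₀⁻¹) := by group
    · intro d₁ _ d₂ _ h
      exact mul_right_cancel h
    · intro z hz
      rw [Finset.mem_filter] at hz
      refine ⟨z * d₀, ?_, by group⟩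
      rw [Finset.mem_filter]
      refine ⟨Finset.mem_univ _, ?_⟩
      have hz2 := (Subgroup.mem_centralizer_iff.mp hz.2) y (Set.mem_singleton y)
      calc z * d₀ * x * (z * d₀)⁻¹ = z * (d₀ * x * d₀⁻¹) * z⁻¹ := by group
        _ = z * y * z⁻¹ := by rw [hd₀]
        _ = y * z * z⁻¹ := by rw [← hz2]
        _ = y := by group
  · rw [if_neg hxy]
    have : Finset.univ.filter (fun d : H => d * x * d⁻¹ = y) = ∅ := by
      rw [Finset.filter_eq_empty_iff]
      intro d _ hd
      exact hxy (isConj_iff.mpr ⟨d, hd⟩)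
    rw [this]
    simp

open scoped Classical in
/-- Averaging a formula valid for every system of representatives of the classes of
`p`-elements over the conjugates of one system. -/
theorem kr_average (p : ℕ) (g : H → ℤ) (c : ℤ)
    (hc : ∀ X : Finset H, (∀ x ∈ X, ∃ k : ℕ, orderOf x = p ^ k) →
      (∀ y : H, (∃ k : ℕ, orderOf y = p ^ k) → ∃! x, x ∈ X ∧ IsConj y x) →
      c = ∑ x ∈ X.erase 1, g x) :
    (Nat.card H : ℤ) * c = ∑ y : H, if (y ≠ 1 ∧ ∃ k : ℕ, orderOf y = p ^ k) then
      (Nat.card (Subgroup.centralizer ({y} : Set H)) : ℤ) * g y else 0 := by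
  set rep : H → H := fun y => Quotient.out (ConjClasses.mk y) with hrepdef
  have hrep : ∀ y, IsConj y (rep y) := by
    intro y
    exact ConjClasses.mk_eq_mk_iff_isConj.mp (Quotient.out_eq (ConjClasses.mk y)).symm
  have hrep_eq : ∀ y y', IsConj y y' → rep y = rep y' := by
    intro y y' h
    show Quotient.out (ConjClasses.mk y) = Quotient.out (ConjClasses.mk y')
    rw [ConjClasses.mk_eq_mk_iff_isConj.mpr h]
  have hPconj : ∀ y y' : H, IsConj y y' → (∃ k : ℕ, orderOf y = p ^ k) →
      ∃ k : ℕ, orderOf y' = p ^ k := by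
    intro y y' h ⟨k, hk⟩
    obtain ⟨d, rfl⟩ := isConj_iff.mp h
    exact ⟨k, by rw [kr_orderOf_conj, hk]⟩
  set X₀ : Finset H := (Finset.univ.filter (fun y : H => ∃ k : ℕ, orderOf y = p ^ k)).image rep
    with hX₀def
  have hX₀ : ∀ x ∈ X₀, ∃ k : ℕ, orderOf x = p ^ k := by
    intro x hx
    rw [hX₀def, Finset.mem_image] at hx
    obtain ⟨y, hy, rfl⟩ := hx
    rw [Finset.mem_filter] at hy
    exact hPconj y _ (hrep y) hy.2
  have hX₀rep : ∀ y : H, (∃ k : ℕ, orderOf y = p ^ k) → ∃! x, x ∈ X₀ ∧ IsConj y x := by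
    intro y hy
    refine ⟨rep y, ⟨?_, hrep y⟩, ?_⟩
    · rw [hX₀def, Finset.mem_image]
      exact ⟨y, Finset.mem_filter.mpr ⟨Finset.mem_univ _, hy⟩, rfl⟩
    · rintro x' ⟨hx', hc'⟩
      rw [hX₀def, Finset.mem_image] at hx'
      obtain ⟨y', -, rfl⟩ := hx'
      exact (hrep_eq y y' (hc'.trans (hrep y').symm)).symm
  -- conjugate systems
  have hcd : ∀ d : H, c = ∑ x ∈ X₀.erase 1, g (d * x * d⁻¹) := by
    intro d
    have hinj : Function.Injective (fun x : H => d * x * d⁻¹) := by
      intro a b hab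
      have hab' : d * a * d⁻¹ = d * b * d⁻¹ := hab
      exact mul_left_cancel (mul_right_cancel hab')
    have h1 := hc (X₀.image (fun x : H => d * x * d⁻¹)) (by
      intro x hx
      rw [Finset.mem_image] at hx
      obtain ⟨x', hx', rfl⟩ := hx
      obtain ⟨k, hk⟩ := hX₀ x' hx'
      exact ⟨k, by rw [kr_orderOf_conj, hk]⟩) (by
      intro y hy
      obtain ⟨x₀, ⟨hx₀, hyx₀⟩, huniq⟩ := hX₀rep y hy
      refine ⟨d * x₀ * d⁻¹, ⟨Finset.mem_image.mpr ⟨x₀, hx₀, rfl⟩,
        hyx₀.trans (isConj_iff.mpr ⟨d, rfl⟩)⟩, ?_⟩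
      rintro x' ⟨hx', hc'⟩
      rw [Finset.mem_image] at hx'
      obtain ⟨x'', hx'', rfl⟩ := hx'
      have : x'' = x₀ := huniq x'' ⟨hx'', hc'.trans (isConj_iff.mpr ⟨d⁻¹, by group⟩)⟩
      rw [this])
    rw [h1]
    have h2 : (X₀.image (fun x : H => d * x * d⁻¹)).erase 1 =
        (X₀.erase 1).image (fun x : H => d * x * d⁻¹) := by
      rw [Finset.image_erase hinj]
      congr 1
      group
    rw [h2, Finset.sum_image (fun a _ b _ hab => hinj hab)]
  -- sum over d
  have hsum : (Nat.card H : ℤ) * c = ∑ x ∈ X₀.erase 1, ∑ d : H, g (d * x * d⁻¹) := by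
    rw [Finset.sum_comm]
    rw [← Finset.sum_congr rfl (fun d _ => hcd d)]
    rw [Finset.sum_const, Finset.card_univ, Nat.card_eq_fintype_card]
    simp
  have hfib : ∀ x : H, ∑ d : H, g (d * x * d⁻¹) = ∑ y : H,
      if IsConj x y then (Nat.card (Subgroup.centralizer ({y} : Set H)) : ℤ) * g y else 0 := by
    intro x
    rw [← Finset.sum_fiberwise' Finset.univ (fun d : H => d * x * d⁻¹) g]
    refine Finset.sum_congr rfl fun y _ => ?_
    rw [Finset.sum_const, nsmul_eq_mul, kr_fiber_card]
    split_ifs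
    · rfl
    · rw [zero_mul]
  rw [hsum, Finset.sum_congr rfl (fun x _ => hfib x), Finset.sum_comm]
  refine Finset.sum_congr rfl fun y _ => ?_
  by_cases hy : y ≠ 1 ∧ ∃ k : ℕ, orderOf y = p ^ k
  · rw [if_pos hy]
    obtain ⟨x₀, ⟨hx₀, hyx₀⟩, huniq⟩ := hX₀rep y hy.2
    have hx₀1 : x₀ ≠ 1 := by
      rintro rfl
      exact hy.1 (isConj_one_left.mp hyx₀)
    rw [Finset.sum_eq_single x₀]
    · rw [if_pos hyx₀.symm]
    · intro x hx hne
      rw [if_neg]
      intro hxy
      exact hne (huniq x ⟨Finset.mem_of_mem_erase hx, hxy.symm⟩)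
    · intro h
      exact absurd (Finset.mem_erase.mpr ⟨hx₀1, hx₀⟩) h
  · rw [if_neg hy]
    apply Finset.sum_eq_zero
    intro x hx
    rw [if_neg]
    intro hxy
    apply hy
    rw [Finset.mem_erase] at hx
    refine ⟨?_, hPconj x y hxy (hX₀ x hx.2)⟩
    rintro rfl
    exact hx.1 (isConj_one_left.mp hxy)

end Avg

section Main

variable {G : Type*} [Group G] [Fintype G] {p : ℕ} [Fact p.Prime] {M : Ideal AlgInt}

/-- `k - l` for the characters of `K` in blocks inducing `b`, in terms of a system of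
representatives of the classes of `p`-elements of `K`. -/
theorem kr_rep_formula (hM : IsPModular p M) (b : Set (IrrCharacter G)) (K : Subgroup G)
    [DecidableEq K] (X : Finset K) (hX : ∀ x ∈ X, ∃ k : ℕ, orderOf x = p ^ k)
    (hXrep : ∀ g : K, (∃ k : ℕ, orderOf g = p ^ k) → ∃! x, x ∈ X ∧ IsConj g x) :
    (Nat.card (krSet M b K) : ℤ) - (blockRank p (krSet M b K) : ℤ) =
      ∑ x ∈ X.erase 1, (krLam p M b (K ⊓ Subgroup.centralizer ({(x : G)} : Set G)) : ℤ) := by
  have hfin : {β : Set (IrrCharacter K) | IsInducedBlock M K β b}.Finite := Set.toFinite _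
  have h1 : Nat.card (krSet M b K) =
      ∑ᶠ β ∈ {β : Set (IrrCharacter K) | IsInducedBlock M K β b}, Nat.card β :=
    kr_card_union hM (fun β => IsInducedBlock M K β b) (fun β h => h.1)
  have h2 : blockRank p (krSet M b K) = krLam p M b K :=
    kr_blockRank_union hM (fun β => IsInducedBlock M K β b) (fun β h => h.1)
  have h3 : ∑ᶠ β ∈ {β : Set (IrrCharacter K) | IsInducedBlock M K β b}, Nat.card β =
      ∑ x ∈ X, krLam p M b (K ⊓ Subgroup.centralizer ({(x : G)} : Set G)) := by
    rw [finsum_mem_congr rfl (fun β hβ => Cfsg.Agent.S4511.result p M hM β hβ.1 X hX hXrep)]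
    rw [finsum_mem_eq_finite_toFinset_sum _ hfin, Finset.sum_comm]
    refine Finset.sum_congr rfl fun x hx => ?_
    rw [← kr_transport hM b K x (hX x hx), finsum_mem_eq_finite_toFinset_sum _ hfin]
  have h1X : (1 : K) ∈ X := by
    obtain ⟨x, ⟨hx, hc⟩, -⟩ := hXrep 1 ⟨0, by simp⟩
    rw [isConj_one_right] at hc
    rwa [hc] at hx
  have h4 : krLam p M b (K ⊓ Subgroup.centralizer ({((1 : K) : G)} : Set G)) =
      krLam p M b K := by
    congr 1
    rw [inf_eq_left]
    intro k _
    rw [Subgroup.mem_centralizer_iff]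
    intro h hh
    rw [Set.mem_singleton_iff] at hh
    rw [hh]
    simp
  rw [h1, h2, h3, ← Finset.add_sum_erase X _ h1X, h4]
  push_cast
  ring

open scoped Classical in
/-- The local formula: `|K| (k - l)` for the characters of `K` in blocks inducing `b` is the sum
over the nontrivial `p`-elements `x` of `K` of `|K ⊓ C(x)|` times the total rank of the blocks of
`K ⊓ C(x)` inducing `b`. -/
theorem kr_F_eq (hM : IsPModular p M) (b : Set (IrrCharacter G)) (K : Subgroup G) :
    krF p M b K = ∑ x : G, if (x ∈ K ∧ x ≠ 1 ∧ ∃ k : ℕ, orderOf x = p ^ k) then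
      krPhi p M b (K ⊓ Subgroup.centralizer ({x} : Set G)) else 0 := by
  have key := kr_average (H := K) p
    (fun y => (krLam p M b (K ⊓ Subgroup.centralizer ({(y : G)} : Set G)) : ℤ))
    ((Nat.card (krSet M b K) : ℤ) - (blockRank p (krSet M b K) : ℤ))
    (fun X hX hXrep => kr_rep_formula hM b K X hX hXrep)
  unfold krF
  rw [key]
  symm
  have hsplit : ∀ x : G, (if (x ∈ K ∧ x ≠ 1 ∧ ∃ k : ℕ, orderOf x = p ^ k) then
      krPhi p M b (K ⊓ Subgroup.centralizer ({x} : Set G)) else 0) =
      if x ∈ K then (if (x ≠ 1 ∧ ∃ k : ℕ, orderOf x = p ^ k) then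
        krPhi p M b (K ⊓ Subgroup.centralizer ({x} : Set G)) else 0) else 0 := by
    intro x
    rw [ite_and]
  rw [Finset.sum_congr rfl (fun x _ => hsplit x), ← Finset.sum_filter]
  rw [Finset.sum_subtype (Finset.univ.filter (fun x : G => x ∈ K)) (p := fun x : G => x ∈ K)
    (by intro x; simp)]
  refine Finset.sum_congr rfl fun y _ => ?_
  have hiff : ((y : G) ≠ 1 ∧ ∃ k : ℕ, orderOf (y : G) = p ^ k) ↔
      (y ≠ 1 ∧ ∃ k : ℕ, orderOf y = p ^ k) := by
    rw [Subgroup.orderOf_coe]
    constructor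
    · rintro ⟨h1, h2⟩
      exact ⟨fun h => h1 (by rw [h]; rfl), h2⟩
    · rintro ⟨h1, h2⟩
      exact ⟨fun h => h1 (Subtype.ext h), h2⟩
  have hval : krPhi p M b (K ⊓ Subgroup.centralizer ({(y : G)} : Set G)) =
      (Nat.card (Subgroup.centralizer ({y} : Set K)) : ℤ) *
        (krLam p M b (K ⊓ Subgroup.centralizer ({(y : G)} : Set G)) : ℤ) := by
    unfold krPhi
    rw [Nat.card_congr (krCentEquiv K y).toEquiv]
  by_cases hy : y ≠ 1 ∧ ∃ k : ℕ, orderOf y = p ^ k
  · rw [if_pos hy, if_pos (hiff.mpr hy), hval]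
  · rw [if_neg hy, if_neg (fun h => hy (hiff.mp h))]

end Main

section Top

variable {G : Type*} [Group G] [Finite G] {p : ℕ} {M : Ideal AlgInt}

theorem kr_indHom_id (hM : IsPModular p M) (b : Set (IrrCharacter G)) (hb : IsPBlock M b) :
    IndHom M (MonoidHom.id G) b b := by
  classical
  letI := Fintype.ofFinite G
  refine ⟨hb, hb, fun ξ hξ χ hχ g => ?_⟩
  have h1 : indSum (MonoidHom.id G) (ξ : G → ℂ) g = centralChar (ξ : G → ℂ) g := by
    rw [indSum_irr_eq_classes]
    have hc : IsConj g (Quotient.out (ConjClasses.mk g)) :=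
      ConjClasses.mk_eq_mk_iff_isConj.mp (Quotient.out_eq (ConjClasses.mk g)).symm
    rw [Finset.sum_eq_single (ConjClasses.mk g)]
    · rw [if_pos (by simpa using hc), one_mul]
      exact (Cfsg.Agent.Lib.Helper79.centralChar_eq_of_isConj _ (isClassFunction_irr ξ) hc).symm
    · intro C _ hC
      rw [if_neg, zero_mul]
      intro h
      apply hC
      rw [← Quotient.out_eq C]
      have h' : IsConj g (Quotient.out C) := by simpa using h
      exact (ConjClasses.mk_eq_mk_iff_isConj.mpr h').symm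
    · intro h
      exact absurd (Finset.mem_univ _) h
  rw [h1]
  have hsb : SameBlock M (χ : G → ℂ) (ξ : G → ℂ) := by
    have : ξ ∈ blockOf M (χ : G → ℂ) := by
      rw [← Cfsg.Agent.Lib.Helper79.blockOf_eq_of_mem hM hb hχ]
      exact hξ
    exact this
  exact Cfsg.Agent.Lib.Helper79.sameBlock_symm' hM hsb g

theorem kr_top_set (hM : IsPModular p M) (b : Set (IrrCharacter G)) (hb : IsPBlock M b) :
    krSet M b (⊤ : Subgroup G) = irrMap (Subgroup.topEquiv (G := G)).symm '' b := by
  set φ : ↥(⊤ : Subgroup G) ≃* G := Subgroup.topEquiv with hφ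
  ext ψ
  constructor
  · rintro ⟨β, hψβ, hβ⟩
    have h1 : IndHom M (⊤ : Subgroup G).subtype β b := hβ
    have h2 := indHom_irrMap_source φ (⊤ : Subgroup G).subtype β b h1
    have hc : ((⊤ : Subgroup G).subtype).comp φ.symm.toMonoidHom = MonoidHom.id G := by
      ext g; rfl
    rw [hc] at h2
    have h3 := kr_indHom_id hM (irrMap φ '' β) h2.1
    have h4 : irrMap φ '' β = b := indHom_unique hM h3 h2
    rw [mem_image_irrMap_iff, ← h4]
    exact ⟨ψ, hψβ, rfl⟩
  · rintro ⟨χ, hχ, rfl⟩
    refine ⟨irrMap φ.symm '' b, ⟨χ, hχ, rfl⟩, ?_⟩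
    have h1 := indHom_irrMap_source φ.symm (MonoidHom.id G) b b (kr_indHom_id hM b hb)
    have hc : (MonoidHom.id G).comp φ.symm.symm.toMonoidHom = (⊤ : Subgroup G).subtype := by
      ext g; rfl
    rw [hc] at h1
    exact h1

theorem kr_F_top (hM : IsPModular p M) (b : Set (IrrCharacter G)) (hb : IsPBlock M b) :
    krF p M b (⊤ : Subgroup G) =
      (Nat.card G : ℤ) * ((Nat.card b : ℤ) - (blockRank p b : ℤ)) := by
  unfold krF
  rw [kr_top_set hM b hb, kr_blockRank_image,
    Nat.card_image_of_injective (irrMap_injective _),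
    Nat.card_congr (Subgroup.topEquiv (G := G)).toEquiv]

end Top

end Cfsg.Agent.Lib.Helper79
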