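import Mathlib

/-!
# The sign-reversing involution on pairs (normal chain of `p`-subgroups, `p`-element) (helper79)

For a chain `s` of nontrivial `p`-subgroups all normalizing each other and a nontrivial
`p`-element `x` normalizing every member, toggling the subgroup
`krR s x = L ⊔ ⟨x^T⟩` (`L` the join of the members not containing `x`, `T` the join of all members)
is an involution preserving `N(s) ⊓ C(x)`.
-/

set_option autoImplicit false
set_option linter.style.haveILetI false

namespace Cfsg.Agent.Lib.Helper79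

section KRStab

variable {G : Type*} [Group G]

/-- `g` conjugates `Q` into itself -/
def krStab (g : G) (Q : Subgroup G) : Prop := Q.map (MulAut.conj g).toMonoidHom ≤ Q

theorem krStab_iff (g : G) (Q : Subgroup G) : krStab g Q ↔ ∀ q ∈ Q, g * q * g⁻¹ ∈ Q := by
  unfold krStab
  constructor
  · intro h q hq
    exact h ⟨q, hq, rfl⟩
  · rintro h _ ⟨q, hq, rfl⟩
    exact h q hq

theorem krStab_of_mem_normalizer {g : G} {Q : Subgroup G}
    (h : g ∈ Subgroup.normalizer (Q : Set G)) : krStab g Q := by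
  rw [krStab_iff]
  intro q hq
  exact (Subgroup.mem_normalizer_iff.mp h q).mp hq

theorem mem_normalizer_of_krStab [Finite G] {g : G} {Q : Subgroup G} (h : krStab g Q) :
    g ∈ Subgroup.normalizer (Q : Set G) := by
  rw [krStab_iff] at h
  rw [Subgroup.mem_normalizer_iff]
  intro q
  refine ⟨h q, fun hq => ?_⟩
  let f : Q → Q := fun q => ⟨g * q * g⁻¹, h q q.2⟩
  have hinj : Function.Injective f := by
    intro a b hab
    have h1 : g * (a : G) * g⁻¹ = g * (b : G) * g⁻¹ := congrArg Subtype.val hab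
    exact Subtype.ext (mul_left_cancel (mul_right_cancel h1))
  have hsurj := Finite.surjective_of_injective hinj
  obtain ⟨q', hq'⟩ := hsurj ⟨g * q * g⁻¹, hq⟩
  have h1 : g * (q' : G) * g⁻¹ = g * q * g⁻¹ := congrArg Subtype.val hq'
  have h2 : (q' : G) = q := mul_left_cancel (mul_right_cancel h1)
  rw [← h2]
  exact q'.2

theorem krStab_bot (g : G) : krStab g (⊥ : Subgroup G) := by
  unfold krStab
  rw [Subgroup.map_bot]

theorem krStab_sup {g : G} {A B : Subgroup G} (hA : krStab g A) (hB : krStab g B) :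
    krStab g (A ⊔ B) := by
  unfold krStab at *
  rw [Subgroup.map_sup]
  exact sup_le_sup hA hB

theorem krStab_finset_sup {g : G} (t : Finset (Subgroup G)) (h : ∀ Q ∈ t, krStab g Q) :
    krStab g (t.sup id) :=
  Finset.sup_induction (krStab_bot g) (fun _ ha _ hb => krStab_sup ha hb) h

/-- the subgroup generated by the `T`-conjugates of `x` -/
def krNcl (T : Subgroup G) (x : G) : Subgroup G :=
  Subgroup.closure {y | ∃ t ∈ T, y = t * x * t⁻¹}

theorem mem_krNcl_self (T : Subgroup G) (x : G) : x ∈ krNcl T x :=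
  Subgroup.subset_closure ⟨1, T.one_mem, by simp⟩

theorem krNcl_mono {T T' : Subgroup G} (h : T ≤ T') (x : G) : krNcl T x ≤ krNcl T' x :=
  Subgroup.closure_mono (by rintro y ⟨t, ht, rfl⟩; exact ⟨t, h ht, rfl⟩)

theorem krNcl_le {T Q : Subgroup G} {x : G} (h : ∀ t ∈ T, t * x * t⁻¹ ∈ Q) : krNcl T x ≤ Q :=
  (Subgroup.closure_le Q).mpr (by rintro y ⟨t, ht, rfl⟩; exact h t ht)

theorem krStab_ncl {g : G} {T : Subgroup G} {x : G} (hT : krStab g T)
    (hx : ∃ t₀ ∈ T, g * x * g⁻¹ = t₀ * x * t₀⁻¹) : krStab g (krNcl T x) := by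
  unfold krStab krNcl
  rw [MonoidHom.map_closure]
  apply Subgroup.closure_mono
  rintro _ ⟨y, ⟨t, ht, rfl⟩, rfl⟩
  obtain ⟨t₀, ht₀, h0⟩ := hx
  refine ⟨g * t * g⁻¹ * t₀, T.mul_mem ((krStab_iff g T).mp hT t ht) ht₀, ?_⟩
  show g * (t * x * t⁻¹) * g⁻¹ = g * t * g⁻¹ * t₀ * x * (g * t * g⁻¹ * t₀)⁻¹
  calc g * (t * x * t⁻¹) * g⁻¹ = (g * t * g⁻¹) * (g * x * g⁻¹) * (g * t * g⁻¹)⁻¹ := by group
    _ = (g * t * g⁻¹) * (t₀ * x * t₀⁻¹) * (g * t * g⁻¹)⁻¹ := by rw [h0]
    _ = g * t * g⁻¹ * t₀ * x * (g * t * g⁻¹ * t₀)⁻¹ := by group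

theorem kr_chain_sup_mem (t : Finset (Subgroup G))
    (hc : ∀ Q ∈ t, ∀ R ∈ t, Q ≤ R ∨ R ≤ Q) (hne : t.Nonempty) : t.sup id ∈ t := by
  classical
  induction t using Finset.induction_on with
  | empty => exact absurd hne (by simp)
  | insert a t ha ih =>
    rw [Finset.sup_insert]
    by_cases hte : t.Nonempty
    · have h1 := ih (fun Q hQ R hR =>
        hc Q (Finset.mem_insert_of_mem hQ) R (Finset.mem_insert_of_mem hR)) hte
      rcases hc a (Finset.mem_insert_self a t) _ (Finset.mem_insert_of_mem h1) with h | h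
      · rw [id, sup_eq_right.mpr h]
        exact Finset.mem_insert_of_mem h1
      · rw [id, sup_eq_left.mpr h]
        exact Finset.mem_insert_self a t
    · rw [Finset.not_nonempty_iff_eq_empty] at hte
      subst hte
      simp

/-- A `p`-group generated by a subgroup `L` and the conjugates of `x` is generated by `L`
and `x`. -/
theorem kr_pgroup_gen [Finite G] (p : ℕ) [Fact p.Prime] (R L : Subgroup G) (hR : IsPGroup p R)
    (hLR : L ≤ R) (x : G) (hxR : x ∈ R) (h : R ≤ L ⊔ krNcl R x) :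
    R ≤ L ⊔ Subgroup.zpowers x := by
  set L' : Subgroup R := L.subgroupOf R with hL'
  set x' : R := ⟨x, hxR⟩ with hx'
  haveI hnil : Group.IsNilpotent R := hR.isNilpotent
  have hnc : NormalizerCondition R := normalizerCondition_of_isNilpotent
  rcases eq_top_or_exists_le_coatom (L' ⊔ Subgroup.zpowers x') with htop | ⟨M', hM', hle⟩
  · intro r hr
    have h1 : (⟨r, hr⟩ : R) ∈ L' ⊔ Subgroup.zpowers x' := by
      rw [htop]; exact Subgroup.mem_top _
    have h2 : r ∈ (L' ⊔ Subgroup.zpowers x').map R.subtype := ⟨⟨r, hr⟩, h1, rfl⟩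
    rw [Subgroup.map_sup, Subgroup.subgroupOf_map_subtype, MonoidHom.map_zpowers] at h2
    have hle2 : L ⊓ R ⊔ Subgroup.zpowers x ≤ L ⊔ Subgroup.zpowers x :=
      sup_le_sup_right inf_le_left _
    exact hle2 h2
  · exfalso
    have hMn : M'.Normal := Subgroup.NormalizerCondition.normal_of_coatom M' hnc hM'
    have hx'M : x' ∈ M' := hle (Subgroup.mem_sup_right (Subgroup.mem_zpowers x'))
    have hLM : L ≤ M'.map R.subtype := by
      intro l hl
      exact ⟨⟨l, hLR hl⟩, hle (Subgroup.mem_sup_left (Subgroup.mem_subgroupOf.mpr hl)), rfl⟩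
    have hNM : krNcl R x ≤ M'.map R.subtype := by
      apply krNcl_le
      intro t ht
      exact ⟨⟨t, ht⟩ * x' * ⟨t, ht⟩⁻¹, hMn.conj_mem x' hx'M ⟨t, ht⟩, rfl⟩
    have hRM : R ≤ M'.map R.subtype := h.trans (sup_le hLM hNM)
    apply hM'.1
    rw [eq_top_iff]
    intro r _
    obtain ⟨m, hm, hmr⟩ := hRM r.2
    have : m = r := Subtype.ext hmr
    rwa [← this]

end KRStab

section KRChain

variable {G : Type*} [Group G]

/-- chains (possibly empty) of nontrivial `p`-subgroups normalizing each other -/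
def krNC (p : ℕ) (s : Finset (Subgroup G)) : Prop :=
  (∀ Q ∈ s, ∀ R ∈ s, Q ≤ R ∨ R ≤ Q) ∧ (∀ Q ∈ s, Q ≠ ⊥ ∧ IsPGroup p Q) ∧
    (∀ Q ∈ s, ∀ R ∈ s, R ≤ Subgroup.normalizer ((Q : Subgroup G) : Set G))

/-- the stabilizer of a chain -/
def krN (s : Finset (Subgroup G)) : Subgroup G :=
  ⨅ Q ∈ s, Subgroup.normalizer ((Q : Subgroup G) : Set G)

theorem mem_krN (s : Finset (Subgroup G)) (x : G) :
    x ∈ krN s ↔ ∀ Q ∈ s, x ∈ Subgroup.normalizer ((Q : Subgroup G) : Set G) := by
  unfold krN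
  simp only [Subgroup.mem_iInf]

open Classical in
/-- the join of the members not containing `x` -/
noncomputable def krL (s : Finset (Subgroup G)) (x : G) : Subgroup G :=
  (s.filter (fun Q => x ∉ Q)).sup id

/-- the join of the members -/
def krT (s : Finset (Subgroup G)) : Subgroup G := s.sup id

/-- the subgroup toggled by the involution -/
noncomputable def krR (s : Finset (Subgroup G)) (x : G) : Subgroup G :=
  krL s x ⊔ krNcl (krT s) x

open Classical in
/-- the involution -/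
noncomputable def krTog (s : Finset (Subgroup G)) (x : G) : Finset (Subgroup G) :=
  if krR s x ∈ s then s.erase (krR s x) else insert (krR s x) s

/-- admissible pairs -/
def krPair (p : ℕ) (s : Finset (Subgroup G)) (x : G) : Prop :=
  krNC p s ∧ x ∈ krN s ∧ x ≠ 1 ∧ ∃ k : ℕ, orderOf x = p ^ k

variable {p : ℕ} {s : Finset (Subgroup G)} {x : G}

theorem krL_not_mem (h : krPair p s x) : x ∉ krL s x := by
  classical
  unfold krL
  by_cases hne : (s.filter (fun Q => x ∉ Q)).Nonempty
  · have h1 := kr_chain_sup_mem _ (fun Q hQ R hR =>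
      h.1.1 Q (Finset.mem_of_mem_filter Q hQ) R (Finset.mem_of_mem_filter R hR)) hne
    exact (Finset.mem_filter.mp h1).2
  · rw [Finset.not_nonempty_iff_eq_empty] at hne
    rw [hne, Finset.sup_empty]
    intro h1
    exact h.2.2.1 (Subgroup.mem_bot.mp h1)

theorem le_krL {Q : Subgroup G} (hQ : Q ∈ s) (hxQ : x ∉ Q) : Q ≤ krL s x := by
  classical
  unfold krL
  exact Finset.le_sup (f := id) (Finset.mem_filter.mpr ⟨hQ, hxQ⟩)

theorem krL_le (h : krPair p s x) {Q : Subgroup G} (hQ : Q ∈ s) (hxQ : x ∈ Q) :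
    krL s x ≤ Q := by
  classical
  unfold krL
  apply Finset.sup_le
  intro Q' hQ'
  rw [Finset.mem_filter] at hQ'
  rcases h.1.1 Q' hQ'.1 Q hQ with h1 | h1
  · exact h1
  · exact absurd (h1 hxQ) hQ'.2

theorem le_krT {Q : Subgroup G} (hQ : Q ∈ s) : Q ≤ krT s :=
  Finset.le_sup (f := id) hQ

theorem krT_le_normalizer (h : krPair p s x) {Q : Subgroup G} (hQ : Q ∈ s) :
    krT s ≤ Subgroup.normalizer ((Q : Subgroup G) : Set G) :=
  Finset.sup_le fun R hR => h.1.2.2 Q hQ R hR

theorem krStab_L {g : G} (hg : ∀ Q ∈ s, krStab g Q) : krStab g (krL s x) := by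
  classical
  unfold krL
  exact krStab_finset_sup _ fun Q hQ => hg Q (Finset.mem_of_mem_filter Q hQ)

theorem krStab_T {g : G} (hg : ∀ Q ∈ s, krStab g Q) : krStab g (krT s) :=
  krStab_finset_sup _ hg

theorem mem_krR : x ∈ krR s x :=
  Subgroup.mem_sup_right (mem_krNcl_self _ x)

theorem le_krR {Q : Subgroup G} (hQ : Q ∈ s) (hxQ : x ∉ Q) : Q ≤ krR s x :=
  (le_krL hQ hxQ).trans le_sup_left

theorem krR_le (h : krPair p s x) {Q : Subgroup G} (hQ : Q ∈ s) (hxQ : x ∈ Q) :
    krR s x ≤ Q := by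
  refine sup_le (krL_le h hQ hxQ) (krNcl_le fun t ht => ?_)
  exact (Subgroup.mem_normalizer_iff.mp (krT_le_normalizer h hQ ht) x).mp hxQ

theorem krR_le_normalizer (h : krPair p s x) {Q : Subgroup G} (hQ : Q ∈ s) :
    krR s x ≤ Subgroup.normalizer ((Q : Subgroup G) : Set G) := by
  classical
  refine sup_le ?_ (krNcl_le fun t ht => ?_)
  · unfold krL
    exact Finset.sup_le fun Q' hQ' => h.1.2.2 Q hQ Q' (Finset.mem_of_mem_filter Q' hQ')
  · exact Subgroup.mul_mem _ (Subgroup.mul_mem _ (krT_le_normalizer h hQ ht)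
      ((mem_krN s x).mp h.2.1 Q hQ)) (Subgroup.inv_mem _ (krT_le_normalizer h hQ ht))

theorem krStab_R {g : G} (hg : ∀ Q ∈ s, krStab g Q)
    (hx : ∃ t₀ ∈ krT s, g * x * g⁻¹ = t₀ * x * t₀⁻¹) : krStab g (krR s x) :=
  krStab_sup (krStab_L hg) (krStab_ncl (krStab_T hg) hx)

theorem le_normalizer_krR [Finite G] (h : krPair p s x) {Q : Subgroup G} (hQ : Q ∈ s) :
    Q ≤ Subgroup.normalizer ((krR s x : Subgroup G) : Set G) := by
  intro q hq
  apply mem_normalizer_of_krStab
  exact krStab_R (fun Q' hQ' => krStab_of_mem_normalizer (h.1.2.2 Q' hQ' Q hQ hq))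
    ⟨q, le_krT hQ hq, rfl⟩

theorem x_mem_normalizer_krR [Finite G] (h : krPair p s x) :
    x ∈ Subgroup.normalizer ((krR s x : Subgroup G) : Set G) := by
  apply mem_normalizer_of_krStab
  exact krStab_R (fun Q' hQ' => krStab_of_mem_normalizer ((mem_krN s x).mp h.2.1 Q' hQ'))
    ⟨1, Subgroup.one_mem _, by group⟩

theorem cent_mem_normalizer_krR [Finite G] {g : G} (hg : g ∈ krN s) (hgx : x * g = g * x) :
    g ∈ Subgroup.normalizer ((krR s x : Subgroup G) : Set G) := by
  apply mem_normalizer_of_krStab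
  refine krStab_R (fun Q' hQ' => krStab_of_mem_normalizer ((mem_krN s g).mp hg Q' hQ'))
    ⟨1, Subgroup.one_mem _, ?_⟩
  rw [← hgx]
  group

theorem krR_ne_bot (h : krPair p s x) : krR s x ≠ ⊥ := by
  intro h1
  have h2 : x ∈ krR s x := mem_krR
  rw [h1] at h2
  exact h.2.2.1 (Subgroup.mem_bot.mp h2)

theorem krR_pgroup [Finite G] [Fact p.Prime] (h : krPair p s x) : IsPGroup p (krR s x) := by
  classical
  by_cases hex : ∃ Q ∈ s, x ∈ Q
  · obtain ⟨Q, hQ, hxQ⟩ := hex
    exact (h.1.2.1 Q hQ).2.to_le (krR_le h hQ hxQ)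
  · push Not at hex
    have hLT : krL s x = krT s := by
      unfold krL krT
      rw [Finset.filter_true_of_mem (fun Q hQ => hex Q hQ)]
    have hTp : IsPGroup p (krT s) := by
      by_cases hne : s.Nonempty
      · exact (h.1.2.1 _ (kr_chain_sup_mem s h.1.1 hne)).2
      · rw [Finset.not_nonempty_iff_eq_empty] at hne
        unfold krT
        rw [hne, Finset.sup_empty]
        exact IsPGroup.of_bot
    have hxT : Subgroup.zpowers x ≤ Subgroup.normalizer ((krT s : Subgroup G) : Set G) := by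
      rw [Subgroup.zpowers_le]
      exact mem_normalizer_of_krStab (krStab_T fun Q hQ =>
        krStab_of_mem_normalizer ((mem_krN s x).mp h.2.1 Q hQ))
    have hzp : IsPGroup p (Subgroup.zpowers x) := by
      obtain ⟨k, hk⟩ := h.2.2.2
      apply IsPGroup.of_card (n := k)
      rw [Nat.card_zpowers, hk]
    have h1 := IsPGroup.to_sup_of_normal_right' hzp hTp hxT
    refine h1.to_le (sup_le ?_ (krNcl_le fun t ht => ?_))
    · rw [hLT]
      exact le_sup_right
    · exact Subgroup.mul_mem _ (Subgroup.mul_mem _ (Subgroup.mem_sup_right ht)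
        (Subgroup.mem_sup_left (Subgroup.mem_zpowers x)))
        (Subgroup.inv_mem _ (Subgroup.mem_sup_right ht))

open Classical in
/-- inserting `krR s x` -/
theorem kr_ins [Finite G] [Fact p.Prime] (h : krPair p s x) (hR : krR s x ∉ s) :
    krPair p (insert (krR s x) s) x ∧
      krN (insert (krR s x) s) ⊓ Subgroup.centralizer ({x} : Set G) =
        krN s ⊓ Subgroup.centralizer ({x} : Set G) ∧
      krR (insert (krR s x) s) x = krR s x := by
  classical
  have hcomp : ∀ Q ∈ s, Q ≤ krR s x ∨ krR s x ≤ Q := by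
    intro Q hQ
    by_cases hxQ : x ∈ Q
    · exact Or.inr (krR_le h hQ hxQ)
    · exact Or.inl (le_krR hQ hxQ)
  refine ⟨⟨⟨?_, ?_, ?_⟩, ?_, h.2.2.1, h.2.2.2⟩, ?_, ?_⟩
  · intro Q hQ Q' hQ'
    rw [Finset.mem_insert] at hQ hQ'
    rcases hQ with rfl | hQ <;> rcases hQ' with rfl | hQ'
    · exact Or.inl le_rfl
    · exact (hcomp Q' hQ').symm
    · exact hcomp Q hQ
    · exact h.1.1 Q hQ Q' hQ'
  · intro Q hQ
    rw [Finset.mem_insert] at hQ
    rcases hQ with rfl | hQ
    · exact ⟨krR_ne_bot h, krR_pgroup h⟩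
    · exact h.1.2.1 Q hQ
  · intro Q hQ Q' hQ'
    rw [Finset.mem_insert] at hQ hQ'
    rcases hQ with rfl | hQ <;> rcases hQ' with rfl | hQ'
    · exact Subgroup.le_normalizer
    · exact le_normalizer_krR h hQ'
    · exact krR_le_normalizer h hQ
    · exact h.1.2.2 Q hQ Q' hQ'
  · rw [mem_krN]
    intro Q hQ
    rw [Finset.mem_insert] at hQ
    rcases hQ with rfl | hQ
    · exact x_mem_normalizer_krR h
    · exact (mem_krN s x).mp h.2.1 Q hQ
  · apply le_antisymm
    · intro g hg
      rw [Subgroup.mem_inf] at hg ⊢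
      refine ⟨?_, hg.2⟩
      rw [mem_krN]
      intro Q hQ
      exact (mem_krN _ g).mp hg.1 Q (Finset.mem_insert_of_mem hQ)
    · intro g hg
      rw [Subgroup.mem_inf] at hg ⊢
      refine ⟨?_, hg.2⟩
      rw [mem_krN]
      intro Q hQ
      rw [Finset.mem_insert] at hQ
      rcases hQ with rfl | hQ
      · exact cent_mem_normalizer_krR hg.1
          ((Subgroup.mem_centralizer_iff.mp hg.2) x (Set.mem_singleton x))
      · exact (mem_krN s g).mp hg.1 Q hQ
  · have hL : krL (insert (krR s x) s) x = krL s x := by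
      unfold krL
      rw [Finset.filter_insert, if_neg (not_not.mpr mem_krR)]
    have hT : krT (insert (krR s x) s) = krR s x ⊔ krT s := by
      unfold krT
      rw [Finset.sup_insert]
      rfl
    have hTn : krR s x ⊔ krT s ≤ Subgroup.normalizer ((krR s x : Subgroup G) : Set G) :=
      sup_le Subgroup.le_normalizer (Finset.sup_le fun Q hQ => le_normalizer_krR h hQ)
    apply le_antisymm
    · show krL (insert (krR s x) s) x ⊔ krNcl (krT (insert (krR s x) s)) x ≤ krR s x
      rw [hL, hT]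
      refine sup_le le_sup_left (krNcl_le fun u hu => ?_)
      exact (Subgroup.mem_normalizer_iff.mp (hTn hu) x).mp mem_krR
    · show krL s x ⊔ krNcl (krT s) x ≤
        krL (insert (krR s x) s) x ⊔ krNcl (krT (insert (krR s x) s)) x
      rw [hL, hT]
      exact sup_le_sup_left (krNcl_mono le_sup_right x) _

open Classical in
/-- erasing `krR s x` -/
theorem kr_era [Finite G] [Fact p.Prime] (h : krPair p s x) (hR : krR s x ∈ s) :
    krPair p (s.erase (krR s x)) x ∧ krR (s.erase (krR s x)) x = krR s x := by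
  classical
  have hsub : ∀ Q ∈ s.erase (krR s x), Q ∈ s := fun Q hQ => Finset.mem_of_mem_erase hQ
  refine ⟨⟨⟨fun Q hQ Q' hQ' => h.1.1 Q (hsub Q hQ) Q' (hsub Q' hQ'),
    fun Q hQ => h.1.2.1 Q (hsub Q hQ),
    fun Q hQ Q' hQ' => h.1.2.2 Q (hsub Q hQ) Q' (hsub Q' hQ')⟩, ?_, h.2.2.1, h.2.2.2⟩, ?_⟩
  · rw [mem_krN]
    intro Q hQ
    exact (mem_krN s x).mp h.2.1 Q (hsub Q hQ)
  · have hL : krL (s.erase (krR s x)) x = krL s x := by
      unfold krL
      rw [Finset.filter_erase, Finset.erase_eq_of_notMem]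
      intro h1
      exact (Finset.mem_filter.mp h1).2 mem_krR
    have hT : krT (s.erase (krR s x)) ≤ krT s := Finset.sup_mono (Finset.erase_subset _ _)
    apply le_antisymm
    · show krL (s.erase (krR s x)) x ⊔ krNcl (krT (s.erase (krR s x))) x ≤
        krL s x ⊔ krNcl (krT s) x
      rw [hL]
      exact sup_le_sup_left (krNcl_mono hT x) _
    · show krR s x ≤ krL (s.erase (krR s x)) x ⊔ krNcl (krT (s.erase (krR s x))) x
      rw [hL]
      by_cases hex : ∃ Q ∈ s, Q ≠ krR s x ∧ x ∈ Q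
      · obtain ⟨Q, hQ, hQR, hxQ⟩ := hex
        have hQT : Q ≤ krT (s.erase (krR s x)) :=
          Finset.le_sup (f := id) (Finset.mem_erase.mpr ⟨hQR, hQ⟩)
        have hTT : krT s ≤ krT (s.erase (krR s x)) := by
          apply Finset.sup_le
          intro Q' hQ'
          by_cases hQ'R : Q' = krR s x
          · rw [hQ'R]
            exact (krR_le h hQ hxQ).trans hQT
          · exact Finset.le_sup (f := id) (Finset.mem_erase.mpr ⟨hQ'R, hQ'⟩)
        exact sup_le_sup_left (krNcl_mono hTT x) _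
      · push Not at hex
        have hTR : krT s ≤ krR s x := by
          apply Finset.sup_le
          intro Q' hQ'
          by_cases hQ'R : Q' = krR s x
          · rw [hQ'R]
            exact le_rfl
          · exact le_krR hQ' (hex Q' hQ' hQ'R)
        have h1 : krR s x ≤ krL s x ⊔ krNcl (krR s x) x :=
          sup_le_sup_left (krNcl_mono hTR x) _
        have h2 := kr_pgroup_gen p (krR s x) (krL s x) (h.1.2.1 _ hR).2 le_sup_left x mem_krR h1
        refine h2.trans (sup_le_sup_left ?_ _)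
        rw [Subgroup.zpowers_le]
        exact mem_krNcl_self _ x

/-- the toggle is a sign-reversing involution preserving `N(s) ⊓ C(x)` -/
theorem kr_tog_spec [Finite G] [Fact p.Prime] (h : krPair p s x) :
    krPair p (krTog s x) x ∧
      krN (krTog s x) ⊓ Subgroup.centralizer ({x} : Set G) =
        krN s ⊓ Subgroup.centralizer ({x} : Set G) ∧
      krTog (krTog s x) x = s ∧ (-1 : ℤ) ^ (krTog s x).card = -(-1 : ℤ) ^ s.card ∧
      krTog s x ≠ s := by
  classical
  by_cases hR : krR s x ∈ s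
  · obtain ⟨hp', hR'⟩ := kr_era h hR
    have hR'' : krR (s.erase (krR s x)) x ∉ s.erase (krR s x) := by
      rw [hR']
      exact Finset.notMem_erase _ _
    obtain ⟨-, hN, -⟩ := kr_ins hp' hR''
    rw [hR', Finset.insert_erase hR] at hN
    have htog : krTog s x = s.erase (krR s x) := by
      unfold krTog
      rw [if_pos hR]
    rw [htog]
    refine ⟨hp', hN.symm, ?_, ?_, ?_⟩
    · unfold krTog
      rw [if_neg hR'', hR', Finset.insert_erase hR]
    · rw [← Finset.card_erase_add_one hR, pow_succ]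
      ring
    · intro h1
      have h2 : krR s x ∈ s.erase (krR s x) := by
        rw [h1]
        exact hR
      exact Finset.notMem_erase _ _ h2
  · obtain ⟨hp', hN, hRR⟩ := kr_ins h hR
    have htog : krTog s x = insert (krR s x) s := by
      unfold krTog
      rw [if_neg hR]
    rw [htog]
    refine ⟨hp', hN, ?_, ?_, ?_⟩
    · unfold krTog
      rw [hRR, if_pos (Finset.mem_insert_self _ _), Finset.erase_insert hR]
    · rw [Finset.card_insert_of_notMem hR, pow_succ]
      ring
    · intro h1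
      apply hR
      have h2 : krR s x ∈ insert (krR s x) s := Finset.mem_insert_self _ _
      rwa [h1] at h2

open Classical in
/-- The alternating sum over admissible pairs vanishes. -/
theorem kr_chain_sum [Fintype G] (p : ℕ) [Fact p.Prime] (Φ : Subgroup G → ℤ) :
    ∑ᶠ s ∈ {s : Finset (Subgroup G) | krNC p s}, (-1 : ℤ) ^ s.card *
      ∑ x : G, (if (x ∈ krN s ∧ x ≠ 1 ∧ ∃ k : ℕ, orderOf x = p ^ k) then
        Φ (krN s ⊓ Subgroup.centralizer ({x} : Set G)) else 0) = 0 := by
  letI : Fintype (Finset (Subgroup G)) := Fintype.ofFinite _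
  rw [finsum_mem_eq_finite_toFinset_sum _ (Set.toFinite _)]
  have h0 : ∀ s ∈ (Set.toFinite {s : Finset (Subgroup G) | krNC p s}).toFinset,
      (-1 : ℤ) ^ s.card *
      ∑ x : G, (if (x ∈ krN s ∧ x ≠ 1 ∧ ∃ k : ℕ, orderOf x = p ^ k) then
        Φ (krN s ⊓ Subgroup.centralizer ({x} : Set G)) else 0) =
      ∑ x : G, (if (x ∈ krN s ∧ x ≠ 1 ∧ ∃ k : ℕ, orderOf x = p ^ k) then
        (-1 : ℤ) ^ s.card * Φ (krN s ⊓ Subgroup.centralizer ({x} : Set G)) else 0) := by
    intro s _
    rw [Finset.mul_sum]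
    refine Finset.sum_congr rfl fun x _ => ?_
    split_ifs
    · rfl
    · rw [mul_zero]
  rw [Finset.sum_congr rfl h0]
  rw [← Finset.sum_product' (Set.toFinite {s : Finset (Subgroup G) | krNC p s}).toFinset
    (Finset.univ : Finset G) (fun s x =>
      if (x ∈ krN s ∧ x ≠ 1 ∧ ∃ k : ℕ, orderOf x = p ^ k) then
        (-1 : ℤ) ^ s.card * Φ (krN s ⊓ Subgroup.centralizer ({x} : Set G)) else 0)]
  rw [← Finset.sum_filter]
  have hpair : ∀ a ∈ ((Set.toFinite {s : Finset (Subgroup G) | krNC p s}).toFinset ×ˢ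
      (Finset.univ : Finset G)).filter
        (fun a => a.2 ∈ krN a.1 ∧ a.2 ≠ 1 ∧ ∃ k : ℕ, orderOf a.2 = p ^ k),
      krPair p a.1 a.2 := by
    intro a ha
    rw [Finset.mem_filter, Finset.mem_product, Set.Finite.mem_toFinset] at ha
    exact ⟨ha.1.1, ha.2⟩
  refine Finset.sum_involution (fun a _ => (krTog a.1 a.2, a.2)) ?_ ?_ ?_ ?_
  · intro a ha
    obtain ⟨-, hN, -, hsign, -⟩ := kr_tog_spec (hpair a ha)
    show (-1 : ℤ) ^ a.1.card * Φ (krN a.1 ⊓ Subgroup.centralizer ({a.2} : Set G)) +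
      (-1 : ℤ) ^ (krTog a.1 a.2).card *
        Φ (krN (krTog a.1 a.2) ⊓ Subgroup.centralizer ({a.2} : Set G)) = 0
    rw [hN, hsign]
    ring
  · intro a ha _ h2
    obtain ⟨-, -, -, -, hne⟩ := kr_tog_spec (hpair a ha)
    exact hne (congrArg Prod.fst h2)
  · intro a ha
    obtain ⟨hp', -, -, -, -⟩ := kr_tog_spec (hpair a ha)
    rw [Finset.mem_filter, Finset.mem_product, Set.Finite.mem_toFinset]
    exact ⟨⟨hp'.1, Finset.mem_univ _⟩, hp'.2⟩
  · intro a ha
    obtain ⟨-, -, hinv, -, -⟩ := kr_tog_spec (hpair a ha)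
    exact Prod.ext hinv rfl

end KRChain

end Cfsg.Agent.Lib.Helper79
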