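import Mathlib
import Cfsg.Agent.S0942
import Cfsg.Agent.Lib.Helper22.PPart
import Cfsg.Agent.Lib.Helper79.Klein7

/-!
# Principal 2-block characters are constant on 2-singular elements when Sylow 2-subgroups are
Klein four-groups (helper79)
-/

set_option autoImplicit false

namespace Cfsg.Agent.Lib.Helper79

open Cfsg Cfsg.Agent.Lib.Helper4 Cfsg.Agent.Lib.Helper21 Cfsg.Agent.Lib.Helper22
open Subgroup
open scoped ComplexConjugate Pointwise

section

variable {G : Type*} [Group G] [Finite G] {M : Ideal AlgInt}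

/-- If a Sylow 2-subgroup has exponent two, every 2-element squares to one, and lies in a Sylow
2-subgroup. -/
theorem exists_sylow_mem_of_two_power (x : G) (hx : ∃ k : ℕ, orderOf x = 2 ^ k) :
    ∃ Q : Sylow 2 G, x ∈ (Q : Subgroup G) := by
  haveI : Fact (Nat.Prime 2) := ⟨Nat.prime_two⟩
  obtain ⟨k, hk⟩ := hx
  have hpg : IsPGroup 2 (zpowers x) := IsPGroup.of_card (n := k) (by rw [Nat.card_zpowers, hk])
  obtain ⟨Q, hQ⟩ := hpg.exists_le_sylow
  exact ⟨Q, hQ (mem_zpowers x)⟩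

theorem sq_eq_one_of_mem_sylow (P : Sylow 2 G) (hexp : ∀ x ∈ (P : Subgroup G), x * x = 1)
    (Q : Sylow 2 G) {x : G} (hx : x ∈ (Q : Subgroup G)) : x * x = 1 := by
  haveI : Fact (Nat.Prime 2) := ⟨Nat.prime_two⟩
  obtain ⟨g, hg⟩ := MulAction.exists_smul_eq G P Q
  rw [← hg, Sylow.smul_def, Sylow.pointwise_smul_def,
    Subgroup.mem_pointwise_smul_iff_inv_smul_mem] at hx
  have h1 := hexp _ hx
  rw [MulAut.smul_def, ← map_mul] at h1
  exact (MulEquiv.map_eq_one_iff (MulAut.conj g)⁻¹).mp h1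

/-- With Klein four Sylow 2-subgroups, a character of the principal 2-block takes at a 2-singular
element the value it takes at some involution. -/
theorem principal_singular_value (hM : IsPModular 2 M) (P : Sylow 2 G) (hP : Nat.card P = 4)
    (hexp : ∀ x ∈ (P : Subgroup G), x * x = 1) (χ : IrrCharacter G)
    (hχ : χ ∈ principalBlock M G) (g : G) (hg : 2 ∣ orderOf g) :
    ∃ z : G, orderOf z = 2 ∧ (χ : G → ℂ) g = (χ : G → ℂ) z := by
  haveI : Fact (Nat.Prime 2) := ⟨Nat.prime_two⟩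
  obtain ⟨x, y, hxy, hcomm, hk, hy⟩ := exists_isPPart Nat.prime_two g
  have hx1 : x ≠ 1 := by
    intro h
    rw [h, one_mul] at hxy
    rw [hxy] at hy
    exact hy hg
  obtain ⟨Q, hxQ⟩ := exists_sylow_mem_of_two_power x hk
  have hx2 : orderOf x = 2 := orderOf_eq_two_of_sq (sq_eq_one_of_mem_sylow P hexp Q hxQ) hx1
  have hQ : Nat.card Q = 4 := by
    rw [Sylow.card_eq_multiplicity, ← Sylow.card_eq_multiplicity P, hP]
  have hKi := index_pPrimeCore_centralizer Q hQ hxQ hx2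
  have hKi' : (pPrimeCore 2 (centralizer ({x} : Set G))).index = 2 ^ 2 := by rw [hKi]; norm_num
  haveI hKn : (pPrimeCore 2 (centralizer ({x} : Set G))).Normal :=
    Cfsg.Agent.Lib.Helper81.pPrimeCore_normal 2
  have hyC : y ∈ centralizer ({x} : Set G) := mem_centralizer_singleton_of_commute hcomm
  have hy' : ¬ 2 ∣ orderOf (⟨y, hyC⟩ : centralizer ({x} : Set G)) := by
    rw [← Subgroup.orderOf_coe]; exact hy
  have hyK : (⟨y, hyC⟩ : centralizer ({x} : Set G)) ∈ pPrimeCore 2 (centralizer ({x} : Set G)) :=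
    (mem_iff_pRegular_of_index (pPrimeCore 2 (centralizer ({x} : Set G))) 2 hKi'
      (Cfsg.Agent.Lib.Helper81.pPrimeCore_coprime (G := centralizer ({x} : Set G)) 2) _).mpr hy'
  have hv : y ∈ centralizerPPrimeCore 2 x := ⟨⟨y, hyC⟩, hyK, rfl⟩
  refine ⟨x, hx2, ?_⟩
  rw [← hxy]
  exact Cfsg.Agent.S0942.result 2 M hM x ⟨1, by rw [hx2, pow_one]⟩ y hv χ hχ

end

section

variable {G : Type*} [Group G] [Fintype G]

/-- Inner product of a combination of four irreducible characters with an irreducible one. -/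
theorem classInner_lin4 (c₀ c₁ c₂ c₃ : ℂ) (χ₀ χ₁ χ₂ χ₃ ψ : IrrCharacter G) :
    classInner (fun g => c₀ * (χ₀ : G → ℂ) g + c₁ * (χ₁ : G → ℂ) g + c₂ * (χ₂ : G → ℂ) g +
      c₃ * (χ₃ : G → ℂ) g) (ψ : G → ℂ) =
      c₀ * classInner (χ₀ : G → ℂ) (ψ : G → ℂ) + c₁ * classInner (χ₁ : G → ℂ) (ψ : G → ℂ) +
      c₂ * classInner (χ₂ : G → ℂ) (ψ : G → ℂ) + c₃ * classInner (χ₃ : G → ℂ) (ψ : G → ℂ) := by
  simp only [classInner, Finset.mul_sum, ← Finset.sum_add_distrib]
  refine Finset.sum_congr rfl fun g _ => ?_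
  ring

end

end Cfsg.Agent.Lib.Helper79
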