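import Mathlib
import Cfsg.Agent.Lib.Helper17.O72BRA
import Cfsg.Agent.Lib.Helper76.O72R2A
import Cfsg.Agent.Lib.Helper3.O72R2DIAG
import Cfsg.Agent.Lib.Helper42.O72R2PAIR
import Cfsg.Agent.Lib.Helper46.O72TISUB
import Cfsg.Agent.Lib.Helper51.NegOne
import Cfsg.Agent.Lib.Helper52.GeoOmega
import Cfsg.Agent.Lib.Helper54.OrthSpin
import Cfsg.Prelude.Def_GeometricClasses

/-!
Project O72 (S5972), piece R2EQ: when `-1` is a square, an involution of `Ω` in dimension `2d+1`
fixes a totally singular `d`-space.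
-/

set_option autoImplicit false
set_option linter.unusedSectionVars false
set_option linter.unusedVariables false

namespace Cfsg.Agent.Lib.Helper98.O72

open Module Matrix Cfsg Cfsg.Agent.Lib.Helper96.Sp Cfsg.Agent.Lib.Helper51
open scoped MatrixGroups

section Concrete

variable {ι : Type} [Fintype ι] [DecidableEq ι] {F : Type*} [Field F] [Fintype F]

/-- an involution in `Ω` is the product of the reflections in an orthogonal basis of its
`(-1)`-eigenspace -/
theorem r2eq_reflList (Q : QuadraticForm F (ι → F)) (h2 : (2 : F) ≠ 0)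
    (g : isometryGroup F ⇑Q) (hg2 : ((g : GL ι F) : Matrix ι ι F) * ((g : GL ι F) : Matrix ι ι F) = 1)
    (vs : List (ι → F)) (hvsQ : ∀ v ∈ vs, Q v ≠ 0)
    (hpw : vs.Pairwise (fun v w => QuadraticMap.polar ⇑Q v w = 0))
    (hspan : Submodule.span F {v | v ∈ vs}
      = LinearMap.ker (Matrix.toLin' ((g : GL ι F) : Matrix ι ι F) + 1)) :
    reflList Q vs hvsQ = g := by
  apply isometry_ext Q
  rw [coe_reflList]
  obtain ⟨M, hM⟩ : ∃ M : Matrix ι ι F, M = ((g : GL ι F) : Matrix ι ι F) := ⟨_, rfl⟩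
  obtain ⟨P, hP⟩ : ∃ P : Matrix ι ι F, P = (vs.map (fun v => reflectionMatrix ⇑Q v)).prod :=
    ⟨_, rfl⟩
  rw [← hM] at hg2 hspan ⊢
  rw [← hP]
  have hMM : ∀ u, M *ᵥ (M *ᵥ u) = u := by
    intro u
    rw [Matrix.mulVec_mulVec, hg2, Matrix.one_mulVec]
  have hneg : ∀ u ∈ Submodule.span F {v | v ∈ vs}, P *ᵥ u = -u := by
    intro u hu
    induction hu using Submodule.span_induction with
    | mem v hv =>
      rw [hP]
      exact prod_refl_neg Q vs hvsQ hpw v hv
    | zero => simp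
    | add a b _ _ ha hb => rw [Matrix.mulVec_add, ha, hb, neg_add]
    | smul c a _ ha => rw [Matrix.mulVec_smul, ha, smul_neg]
  have hmemK : ∀ v ∈ vs, M *ᵥ v = -v := by
    intro v hv
    have h1 : v ∈ LinearMap.ker (Matrix.toLin' M + 1) := by
      rw [← hspan]
      exact Submodule.subset_span hv
    rw [LinearMap.mem_ker, LinearMap.add_apply, Matrix.toLin'_apply] at h1
    exact eq_neg_of_add_eq_zero_left h1
  apply Matrix.toLin'.injective
  apply LinearMap.ext
  intro w
  rw [Matrix.toLin'_apply, Matrix.toLin'_apply]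
  have ha : P *ᵥ (w + M *ᵥ w) = w + M *ᵥ w := by
    rw [hP]
    apply prod_refl_fixed Q vs
    intro v hv
    have h1 := isometry_polar Q g v (w + M *ᵥ w)
    rw [← hM, hmemK v hv, Matrix.mulVec_add, hMM, QuadraticMap.polar_neg_left,
      add_comm (M *ᵥ w) w] at h1
    have h3 : (2 : F) * QuadraticMap.polar ⇑Q v (w + M *ᵥ w) = 0 := by
      linear_combination -h1
    rcases mul_eq_zero.mp h3 with h | h
    · exact absurd h h2
    · exact h
  have hb : P *ᵥ (w - M *ᵥ w) = -(w - M *ᵥ w) := by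
    apply hneg
    rw [hspan, LinearMap.mem_ker, LinearMap.add_apply, Matrix.toLin'_apply, Matrix.mulVec_sub,
      hMM]
    simp
  have hw : w = (2 : F)⁻¹ • ((w + M *ᵥ w) + (w - M *ᵥ w)) := by
    rw [add_add_sub_cancel, ← two_smul F w, smul_smul, inv_mul_cancel₀ h2, one_smul]
  calc P *ᵥ w = P *ᵥ ((2 : F)⁻¹ • ((w + M *ᵥ w) + (w - M *ᵥ w))) := by rw [← hw]
    _ = (2 : F)⁻¹ • ((w + M *ᵥ w) - (w - M *ᵥ w)) := by
      rw [Matrix.mulVec_smul, Matrix.mulVec_add, ha, hb, ← sub_eq_add_neg]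
    _ = M *ᵥ w := by
      have h5 : (w + M *ᵥ w) - (w - M *ᵥ w) = (2 : F) • (M *ᵥ w) := by
        rw [two_smul]
        abel
      rw [h5, smul_smul, inv_mul_cancel₀ h2, one_smul]

/-- PIECE R2EQ: when `-1` is a square, an involution of `Ω` in dimension `2d+1` fixes a
totally singular `d`-space. -/
theorem exists_ts_of_invol_mem_omega (Q : QuadraticForm F (ι → F)) (h2 : (2 : F) ≠ 0)
    (hQ : (QuadraticMap.polarBilin Q).Nondegenerate) (hsq : IsSquare (-1 : F)) (d : ℕ)
    (hcard : Fintype.card ι = 2 * d + 1) (x : GL ι F) (hx : x ∈ Cfsg.Geo.omegaGL ⇑Q)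
    (hx2 : x * x = 1) :
    ∃ W : Submodule F (ι → F), finrank F W = d ∧ (∀ w ∈ W, Q w = 0) ∧
      W.map (Matrix.toLin' (x : Matrix ι ι F)) ≤ W := by
  classical
  obtain ⟨g, hg, rfl⟩ := Cfsg.Agent.Lib.Helper52.exists_of_mem_omegaGL Q hx
  obtain ⟨B, hB⟩ : ∃ B : LinearMap.BilinForm F (ι → F), B = QuadraticMap.polarBilin Q := ⟨_, rfl⟩
  obtain ⟨T, hTdef⟩ : ∃ T : Module.End F (ι → F),
      T = Matrix.toLin' ((g : GL ι F) : Matrix ι ι F) := ⟨_, rfl⟩
  have hS : B.IsSymm := by
    refine ⟨fun a b => ?_⟩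
    rw [hB, QuadraticMap.polarBilin_apply_apply, QuadraticMap.polarBilin_apply_apply,
      QuadraticMap.polar_comm]
  have hN : ND B ⊤ := by rw [hB]; exact br_nd Q hQ
  have hT : Isom B T := by rw [hB, hTdef]; exact br_isom_of_mem Q g
  have hM2 : ((g : GL ι F) : Matrix ι ι F) * ((g : GL ι F) : Matrix ι ι F) = 1 := by
    have h := congrArg Units.val hx2
    rwa [Units.val_mul, Units.val_one] at h
  have hT2 : T * T = 1 := by
    rw [hTdef, Module.End.mul_eq_comp, ← Matrix.toLin'_mul, hM2, Matrix.toLin'_one]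
    rfl
  obtain ⟨hKp, hKm, hOrth, hfin⟩ := invol_decomp hS h2 hN T hT hT2
  obtain ⟨vs, hvsK, hpw, hne, hlen, hspan⟩ :=
    exists_orth_list hS h2 (LinearMap.ker (T + 1)) hKm
  have hBvv : ∀ v, B v v = 2 * Q v := fun v => by
    rw [hB, QuadraticMap.polarBilin_apply_apply, polar_self]
  have hvsQ : ∀ v ∈ vs, Q v ≠ 0 := by
    intro v hv h0
    apply hne v hv
    rw [hBvv, h0, mul_zero]
  have hpw' : vs.Pairwise (fun v w => QuadraticMap.polar ⇑Q v w = 0) := by
    refine hpw.imp ?_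
    intro a b hab
    rw [hB, QuadraticMap.polarBilin_apply_apply] at hab
    exact hab
  have hgg : reflList Q vs hvsQ = g :=
    r2eq_reflList Q h2 g hM2 vs hvsQ hpw' (by rw [hspan, hTdef])
  -- parities
  have hdet : Cfsg.Agent.Lib.Helper54.detO Q g = 1 :=
    MonoidHom.mem_ker.mp (Abelianization.commutator_subset_ker _ hg)
  rw [← hgg, Cfsg.Agent.Lib.Helper54.detO_reflList] at hdet
  have hlenEven : Even vs.length := by
    have hne1 : (-1 : Fˣ) ≠ 1 := by
      intro h
      have h3 := congrArg Units.val h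
      rw [Units.val_neg, Units.val_one] at h3
      apply h2
      linear_combination -h3
    exact (neg_one_pow_eq_one_iff_even hne1).mp hdet
  have hspin : spinChar Q 2 g = 1 := spinChar_eq_one_of_mem Q 2 g hg
  rw [← hgg, spinChar_reflList Q h2 2 h2 vs hvsQ] at hspin
  have hc1'' := (neg_one_pow_eq_one_iff_even (by decide)).mp hspin
  have hc1 : Even (vs.countP (fun v => decide (IsSquare (B v v)))) := by
    convert hc1'' using 2
    funext v
    simp only [hBvv]
  have hc2 : Even (vs.countP (fun v => decide (¬ IsSquare (B v v)))) := by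
    have e := List.length_eq_countP_add_countP (fun v => decide (IsSquare (B v v))) (l := vs)
    have e2 : vs.countP (fun v => decide (¬ IsSquare (B v v)))
        = vs.countP (fun a => decide (¬ (decide (IsSquare (B a a)) = true))) := by
      apply List.countP_congr
      intro v _
      simp
    rw [e2]
    rw [e] at hlenEven
    exact (Nat.even_add.mp hlenEven).mp hc1
  obtain ⟨U₂, hU₂le, hU₂ti, hU₂dim⟩ := exists_ti_of_pairs hS h2 hsq vs hpw hne hc1 hc2
  rw [hspan] at hU₂le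
  have hfinV : finrank F (ι → F) = 2 * d + 1 := by
    rw [Module.finrank_fintype_fun_eq_card, hcard]
  obtain ⟨U₁, hU₁le, hU₁ti, hU₁dim⟩ := exists_ti_sub hS h2 hN (LinearMap.ker (T - 1)) hKp
    (d - finrank F U₂) (by omega)
  obtain ⟨hinv, hti, hdim⟩ :=
    exists_ti_inv_of_eigen hS h2 hN T hT hT2 U₁ U₂ hU₁le hU₂le hU₁ti hU₂ti
  refine ⟨U₁ ⊔ U₂, ?_, ?_, ?_⟩
  · rw [hdim, hU₁dim]
    omega
  · rw [hB] at hti
    exact (br_ts_iff Q h2 _).mpr hti
  · rw [hTdef] at hinv
    exact hinv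

end Concrete

end Cfsg.Agent.Lib.Helper98.O72
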