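import Mathlib
import Cfsg.Prelude.Def_GeometricClasses
import Cfsg.Prelude.Def_LieClassical
import Cfsg.Agent.Lib.Helper19.SUPU7
import Cfsg.Agent.Lib.Helper20.SUPU4

/-! Project OMP (helper71), piece O4: a group of isometries of a non-degenerate quadratic form in
odd dimension `n` whose commutant has a field subalgebra `K` of degree `n` in its centre is
scalar.  Proof: every `x ∈ L` lies in `K` (`U4_cent`); `y := x - x⁻¹ ∈ K` is skew for the polar
form, so `G * y` is a skew-symmetric matrix (`G` the Gram matrix) of odd size, hence singular; as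
`G` is invertible, `y` is singular, so `y = 0` in the field `K`; then `x * x = 1` and `x = ± 1`. -/

set_option autoImplicit false

namespace Cfsg.Agent.Lib.Helper79.OMPO4

open Matrix Cfsg.Geo
open Cfsg.Agent.Lib.Helper19.SUPU7 (U7_gram U7_mat_ext)
open Cfsg.Agent.Lib.Helper20.SUPU4 (U4_cent)

variable {n : ℕ} {F : Type*} [Field F] [Fintype F]

/-- O4: a group of isometries (`n` odd) whose commutant has a field subalgebra of degree `n` in its
centre is scalar. -/
theorem O4 (Q : (Fin n → F) → F) (hQ : IsNondegenerateQuadraticForm Q) (h2 : (2 : F) ≠ 0)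
    (hodd : Odd n) (L : Subgroup (GL (Fin n) F)) (hfix : FixesQuadForm (matrixSet L) Q)
    (K : Subalgebra F (Matrix (Fin n) (Fin n) F)) (hK : IsFieldSubalgebra n K)
    (hKc : ∀ z ∈ K, (∀ x ∈ L, z * x.1 = x.1 * z) ∧
      ∀ X : Matrix (Fin n) (Fin n) F, (∀ x ∈ L, X * x.1 = x.1 * X) → z * X = X * z) :
    L ≤ scalars (Fin n) F := by
  classical
  have hn : 1 ≤ n := by
    obtain ⟨k, hk⟩ := hodd
    omega
  obtain ⟨G, hG⟩ := U7_gram (QuadraticMap.polar Q) hQ.polar_bilinear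
  have htr : ∀ (A : Matrix (Fin n) (Fin n) F) (u z : Fin n → F),
      u ⬝ᵥ (Aᵀ *ᵥ z) = (A *ᵥ u) ⬝ᵥ z := by
    intro A u z
    rw [Matrix.mulVec_transpose, dotProduct_comm, ← Matrix.dotProduct_mulVec, dotProduct_comm]
  have hGs : Gᵀ = G := by
    apply U7_mat_ext
    intro u v
    rw [htr, dotProduct_comm, ← hG, ← hG, QuadraticMap.polar_comm]
  have hGdet : G.det ≠ 0 := by
    intro h0
    obtain ⟨w, hw0, hw⟩ := Matrix.exists_mulVec_eq_zero_iff.mpr h0
    obtain ⟨x, hx⟩ := (hQ.nondegenerate w hw0).1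
    apply hx
    rw [hG, hw, dotProduct_zero]
  have hpol : ∀ x ∈ L, ∀ u v,
      QuadraticMap.polar Q (x.1 *ᵥ u) (x.1 *ᵥ v) = QuadraticMap.polar Q u v := by
    intro x hx u v
    have hs : x.1 ∈ matrixSet L := ⟨x, hx, rfl⟩
    unfold QuadraticMap.polar
    rw [← Matrix.mulVec_add, hfix _ hs, hfix _ hs, hfix _ hs]
  have hadj : ∀ g ∈ L, g.1ᵀ * G * g.1 = G := by
    intro g hg
    apply U7_mat_ext
    intro u v
    rw [← hG u v, ← hpol g hg u v, hG, ← Matrix.mulVec_mulVec, ← Matrix.mulVec_mulVec, htr]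
  have hmemK : ∀ x ∈ L, x.1 ∈ K :=
    fun x hx => U4_cent hn K hK x.1 (fun z hz => (hKc z hz).1 x hx)
  intro x hx
  have hxi : x⁻¹ ∈ L := L.inv_mem hx
  have hxK := hmemK x hx
  have hxiK := hmemK x⁻¹ hxi
  have hxxi : x.1 * (x⁻¹).1 = 1 := by
    rw [← Units.val_mul, mul_inv_cancel, Units.val_one]
  have hxix : (x⁻¹).1 * x.1 = 1 := by
    rw [← Units.val_mul, inv_mul_cancel, Units.val_one]
  have e1 : x.1ᵀ * G = G * (x⁻¹).1 := by
    have h := hadj x hx
    calc x.1ᵀ * G = x.1ᵀ * G * (x.1 * (x⁻¹).1) := by rw [hxxi, mul_one]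
      _ = (x.1ᵀ * G * x.1) * (x⁻¹).1 := by rw [mul_assoc, mul_assoc, mul_assoc]
      _ = G * (x⁻¹).1 := by rw [h]
  have e2 : (x⁻¹).1ᵀ * G = G * x.1 := by
    have h := hadj x⁻¹ hxi
    calc (x⁻¹).1ᵀ * G = (x⁻¹).1ᵀ * G * ((x⁻¹).1 * x.1) := by rw [hxix, mul_one]
      _ = ((x⁻¹).1ᵀ * G * (x⁻¹).1) * x.1 := by rw [mul_assoc, mul_assoc, mul_assoc]
      _ = G * x.1 := by rw [h]
  obtain ⟨y, hy⟩ : ∃ y : Matrix (Fin n) (Fin n) F, y = x.1 - (x⁻¹).1 := ⟨_, rfl⟩
  have hyK : y ∈ K := by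
    rw [hy]
    exact K.sub_mem hxK hxiK
  have hskew : (G * y)ᵀ = -(G * y) := by
    rw [Matrix.transpose_mul, hGs, hy, Matrix.transpose_sub, sub_mul, e1, e2, mul_sub]
    abel
  have hdet0 : (G * y).det = 0 := by
    have h1 : (G * y).det = -(G * y).det := by
      conv_lhs => rw [← Matrix.det_transpose, hskew, Matrix.det_neg, Fintype.card_fin,
        hodd.neg_one_pow]
      ring
    have h3 : (2 : F) * (G * y).det = 0 := by
      linear_combination h1
    rcases mul_eq_zero.mp h3 with h | h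
    · exact absurd h h2
    · exact h
  have hy0 : y = 0 := by
    by_contra hne
    obtain ⟨y', -, hyy'⟩ := hK.inv y hyK hne
    have h1 : y.det * y'.det = 1 := by
      rw [← Matrix.det_mul, hyy', Matrix.det_one]
    rw [Matrix.det_mul] at hdet0
    rcases mul_eq_zero.mp hdet0 with h | h
    · exact hGdet h
    · rw [h, zero_mul] at h1
      exact zero_ne_one h1
  have hxeq : x.1 = (x⁻¹).1 := by
    rw [hy] at hy0
    exact sub_eq_zero.mp hy0
  have hsq : x.1 * x.1 = 1 := by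
    conv_lhs => rw [hxeq]
    rw [← hxeq] at hxix
    rw [← hxeq]
    exact hxix
  rw [mem_scalars_iff]
  by_cases h1 : x.1 - 1 = 0
  · refine ⟨1, ?_⟩
    rw [Units.val_one, one_smul]
    exact sub_eq_zero.mp h1
  · have hmem : x.1 - 1 ∈ K := K.sub_mem hxK K.one_mem
    obtain ⟨z, hzK, hz⟩ := hK.inv _ hmem h1
    have hz' : z * (x.1 - 1) = 1 := by rw [hK.comm z hzK _ hmem]; exact hz
    have h3 : (x.1 - 1) * (x.1 + 1) = 0 := by
      rw [sub_mul, mul_add, one_mul, mul_one, hsq]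
      abel
    have h4 : x.1 + 1 = 0 := by
      calc x.1 + 1 = (z * (x.1 - 1)) * (x.1 + 1) := by rw [hz', one_mul]
        _ = z * ((x.1 - 1) * (x.1 + 1)) := by rw [mul_assoc]
        _ = 0 := by rw [h3, mul_zero]
    refine ⟨-1, ?_⟩
    rw [Units.val_neg, Units.val_one, neg_smul, one_smul]
    exact eq_neg_of_add_eq_zero_left h4

end Cfsg.Agent.Lib.Helper79.OMPO4
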