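import Mathlib
import Cfsg.Agent.Lib.Helper22.PTDefs
import Cfsg.Agent.Lib.Helper68.BFPDEC
import Cfsg.Agent.Lib.Helper33.TIFour

/-! Project PT (helper22, S4705), piece BLKR2: the two exceptional characters `χ₁`, `χ₂` of the
block, from the family `Y` and the sums `RestP` over the remaining characters. -/

set_option autoImplicit false

namespace Cfsg.Agent.Lib.Helper79.PT

open Cfsg Cfsg.Agent.Lib.Helper22.BFD Cfsg.Agent.Lib.Helper22.PT
open scoped ComplexConjugate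

universe u

variable {G : Type u} [Group G] [Fintype G]

/-- the degree of a character which is constant `n` on the non-trivial powers of `z` -/
theorem blkr2_deg (p : ℕ) [Fact p.Prime] (w : ℂ) (hw : IsPrimitiveRoot w p) (z : G)
    (hz : z ^ p = 1) (φ : G → ℂ) (hφ : IsCharacter G φ) (n : ℤ)
    (hn : ∀ t : ZMod p, t ≠ 0 → φ (z ^ t.val) = (n : ℂ)) :
    ∃ D a0 : ℕ, φ 1 = (D : ℂ) ∧ (D : ℤ) + ((p : ℤ) - 1) * n = p * a0 := by
  classical
  have hp : p.Prime := Fact.out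
  haveI : NeZero p := ⟨hp.ne_zero⟩
  obtain ⟨a, ha⟩ := Cfsg.Agent.Lib.Helper68.BFT.pdec p w hw φ hφ z hz
  have h1 : φ 1 = ((∑ v : ZMod p, a v : ℕ) : ℂ) := by
    have h0 := ha 0
    simp only [ZMod.val_zero, pow_zero, mul_zero, mul_one] at h0
    rw [h0]
    push_cast
    rfl
  refine ⟨∑ v : ZMod p, a v, a 0, h1, ?_⟩
  have hs1 : ∑ t : ZMod p, φ (z ^ t.val) = (p : ℂ) * (a 0 : ℂ) := by
    calc ∑ t : ZMod p, φ (z ^ t.val)
        = ∑ t : ZMod p, ∑ u : ZMod p, (a u : ℂ) * w ^ (u * t).val :=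
          Finset.sum_congr rfl (fun t _ => ha t)
      _ = ∑ u : ZMod p, ∑ t : ZMod p, (a u : ℂ) * w ^ (u * t).val := Finset.sum_comm
      _ = ∑ u : ZMod p, (a u : ℂ) * (if u = 0 then (p : ℂ) else 0) := by
          apply Finset.sum_congr rfl
          intro u _
          rw [← Finset.mul_sum, Cfsg.Agent.Lib.Helper33.TI.sum_pow_val p w hw]
      _ = (p : ℂ) * (a 0 : ℂ) := by
          rw [Finset.sum_eq_single (0 : ZMod p)]
          · rw [if_pos rfl, mul_comm]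
          · intro v _ hv
            rw [if_neg hv, mul_zero]
          · intro h'
            exact absurd (Finset.mem_univ _) h'
  have hs2 : ∑ t : ZMod p, φ (z ^ t.val) = φ 1 + ((p : ℂ) - 1) * (n : ℂ) := by
    rw [← Finset.add_sum_erase Finset.univ _ (Finset.mem_univ (0 : ZMod p))]
    simp only [ZMod.val_zero, pow_zero]
    congr 1
    rw [Finset.sum_congr rfl (fun t ht => hn t (Finset.ne_of_mem_erase ht)), Finset.sum_const,
      Finset.card_erase_of_mem (Finset.mem_univ _), Finset.card_univ, ZMod.card, nsmul_eq_mul,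
      Nat.cast_sub hp.one_le, Nat.cast_one]
  have h2 : ((∑ v : ZMod p, a v : ℕ) : ℂ) + ((p : ℂ) - 1) * (n : ℂ) = (p : ℂ) * (a 0 : ℂ) := by
    rw [← hs1, hs2, h1]
  exact_mod_cast h2

/-- PIECE BLKR2 -/
theorem blkR2 [Fintype (IrrCharacter G)] (p : ℕ) [Fact p.Prime] (w : ℂ)
    (hw : IsPrimitiveRoot w p) (z : G) (ζ : G → ℂ) (h : Hyp G p z ζ) (hl : Loc G p z ζ)
    (u : ZMod p) (hu : u ≠ 0) (Y : (ZMod p)ˣ → IrrCharacter G)
    (hY : YFam p w z ζ u Y) (hR : RestP p z (cz ζ) Y) :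
    ∃ χ₁ χ₂ : IrrCharacter G, Blk G p w z (cz ζ) u χ₁ χ₂ Y := by
  classical
  have hp : p.Prime := Fact.out
  haveI : Fact (1 < p) := ⟨hp.one_lt⟩
  haveI : NeZero p := ⟨hp.ne_zero⟩
  have hp5 := h.p5
  have hzp : z ^ p = 1 := by rw [← h.ord]; exact pow_orderOf_eq_one z
  obtain ⟨hY1, hYzc, hYval, hYdeg, hYreg, hYeq⟩ := hY
  obtain ⟨hRn, hR2, hR3⟩ := hR
  -- the integer constants
  have hN : ∀ φ : IrrCharacter G, ∃ n : ℤ,
      ((ZC (cz ζ) φ.1 ∧ ∀ k, φ ≠ Y k) → ∀ t : ZMod p, t ≠ 0 → φ.1 (z ^ t.val) = (n : ℂ)) ∧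
      (¬ (ZC (cz ζ) φ.1 ∧ ∀ k, φ ≠ Y k) → n = 0) := by
    intro φ
    by_cases hφ : ZC (cz ζ) φ.1 ∧ ∀ k, φ ≠ Y k
    · obtain ⟨n, hn⟩ := hRn φ hφ.1 hφ.2
      exact ⟨n, fun _ => hn, fun h' => absurd hφ h'⟩
    · exact ⟨0, fun h' => absurd h' hφ, fun _ => rfl⟩
  choose N hN1 hN0 using hN
  have hz1 : z ^ (1 : ZMod p).val = z := by rw [ZMod.val_one, pow_one]
  have hNz : ∀ φ : IrrCharacter G, (ZC (cz ζ) φ.1 ∧ ∀ k, φ ≠ Y k) → φ.1 z = (N φ : ℂ) := by
    intro φ hφ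
    have h1 := hN1 φ hφ 1 one_ne_zero
    rwa [hz1] at h1
  have hRof : ∀ φ : IrrCharacter G, N φ ≠ 0 → (ZC (cz ζ) φ.1 ∧ ∀ k, φ ≠ Y k) := by
    intro φ hφ
    by_contra hno
    exact hφ (hN0 φ hno)
  -- `∑ N² = 2`
  have hsq : ∑ φ : IrrCharacter G, (N φ) ^ 2 = 2 := by
    have h1 : ∑ φ : IrrCharacter G, ((N φ : ℂ)) ^ 2 = 2 := by
      rw [← hR2]
      apply Finset.sum_congr rfl
      intro φ _
      by_cases hφ : ZC (cz ζ) φ.1 ∧ ∀ k, φ ≠ Y k
      · rw [if_pos hφ, hNz φ hφ, map_intCast]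
        ring
      · rw [if_neg hφ, hN0 φ hφ]
        simp
    exact_mod_cast h1
  have hnonneg : ∀ s : Finset (IrrCharacter G), 0 ≤ ∑ φ ∈ s, (N φ) ^ 2 :=
    fun s => Finset.sum_nonneg (fun φ _ => sq_nonneg _)
  -- the first exceptional character
  have hexa : ∃ φa : IrrCharacter G, N φa ≠ 0 := by
    by_contra hno
    push_neg at hno
    have h1 : ∑ φ : IrrCharacter G, (N φ) ^ 2 = 0 :=
      Finset.sum_eq_zero (fun φ _ => by rw [hno φ]; ring)
    omega
  obtain ⟨φa, hφa⟩ := hexa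
  have hsplit_a : (N φa) ^ 2 + ∑ φ ∈ Finset.univ.erase φa, (N φ) ^ 2
      = ∑ φ : IrrCharacter G, (N φ) ^ 2 :=
    Finset.add_sum_erase Finset.univ (fun φ => (N φ) ^ 2) (Finset.mem_univ φa)
  have ha : N φa = 1 ∨ N φa = -1 := by
    have h1 : (N φa) ^ 2 ≤ 2 := by
      have h2 := hnonneg (Finset.univ.erase φa)
      linarith
    have h2 : N φa < 2 := by nlinarith
    have h3 : -2 < N φa := by nlinarith
    omega
  have ha1 : (N φa) ^ 2 = 1 := by
    rcases ha with e | e <;> rw [e] <;> norm_num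
  -- the second exceptional character
  have hrest1 : ∑ φ ∈ Finset.univ.erase φa, (N φ) ^ 2 = 1 := by linarith
  have hexb : ∃ φb ∈ Finset.univ.erase φa, N φb ≠ 0 := by
    by_contra hno
    push_neg at hno
    have h1 : ∑ φ ∈ Finset.univ.erase φa, (N φ) ^ 2 = 0 :=
      Finset.sum_eq_zero (fun φ hφ => by rw [hno φ hφ]; ring)
    omega
  obtain ⟨φb, hφb_mem, hφb⟩ := hexb
  have hba : φb ≠ φa := (Finset.mem_erase.mp hφb_mem).1
  have hsplit_b : (N φb) ^ 2 + ∑ φ ∈ (Finset.univ.erase φa).erase φb, (N φ) ^ 2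
      = ∑ φ ∈ Finset.univ.erase φa, (N φ) ^ 2 :=
    Finset.add_sum_erase (Finset.univ.erase φa) (fun φ => (N φ) ^ 2) hφb_mem
  have hb : N φb = 1 ∨ N φb = -1 := by
    have h1 : (N φb) ^ 2 ≤ 1 := by
      have h2 := hnonneg ((Finset.univ.erase φa).erase φb)
      linarith
    have h2 : N φb < 2 := by nlinarith
    have h3 : -2 < N φb := by nlinarith
    omega
  have hb1 : (N φb) ^ 2 = 1 := by
    rcases hb with e | e <;> rw [e] <;> norm_num
  have hrest0 : ∑ φ ∈ (Finset.univ.erase φa).erase φb, (N φ) ^ 2 = 0 := by linarith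
  have hothers : ∀ φ : IrrCharacter G, φ ≠ φa → φ ≠ φb → N φ = 0 := by
    intro φ h1 h2
    have hmem : φ ∈ (Finset.univ.erase φa).erase φb :=
      Finset.mem_erase.mpr ⟨h2, Finset.mem_erase.mpr ⟨h1, Finset.mem_univ _⟩⟩
    have h3 := (Finset.sum_eq_zero_iff_of_nonneg (fun φ _ => sq_nonneg (N φ))).mp hrest0 φ hmem
    exact pow_eq_zero_iff (two_ne_zero) |>.mp h3
  have hRa := hRof φa hφa
  have hRb := hRof φb hφb
  -- degrees
  have hchar : ∀ φ : IrrCharacter G, IsCharacter G φ.1 := by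
    intro φ
    obtain ⟨n, ρ, -, hρ⟩ := φ.2
    exact ⟨n, ρ, hρ⟩
  obtain ⟨Da, a0a, hDa, hcongA⟩ := blkr2_deg p w hw z hzp φa.1 (hchar φa) (N φa) (hN1 φa hRa)
  obtain ⟨Db, a0b, hDb, hcongB⟩ := blkr2_deg p w hw z hzp φb.1 (hchar φb) (N φb) (hN1 φb hRb)
  have hsum3 : (Da : ℤ) * N φa + (Db : ℤ) * N φb = -((p : ℤ) - 2) := by
    have h1 : (Da : ℂ) * (N φa : ℂ) + (Db : ℂ) * (N φb : ℂ) = -((p : ℂ) - 2) := by
      rw [← hR3, Finset.sum_eq_add φa φb hba.symm]
      · rw [if_pos hRa, if_pos hRb, hNz φa hRa, hNz φb hRb, hDa, hDb, map_intCast,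
          map_intCast]
      · intro φ _ h12
        by_cases hφ : ZC (cz ζ) φ.1 ∧ ∀ k, φ ≠ Y k
        · rw [if_pos hφ, hNz φ hφ, hothers φ h12.1 h12.2]
          simp
        · rw [if_neg hφ]
      · intro h'
        exact absurd (Finset.mem_univ _) h'
      · intro h'
        exact absurd (Finset.mem_univ _) h'
    exact_mod_cast h1
  -- the construction, given the signs
  have key : ∀ (φ₁ φ₂ : IrrCharacter G) (D₁ D₂ a₁ : ℕ), N φ₁ = 1 → N φ₂ = -1 →
      φ₁.1 1 = (D₁ : ℂ) → φ₂.1 1 = (D₂ : ℂ) → (D₂ : ℤ) = D₁ + (p : ℤ) - 2 →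
      (D₁ : ℤ) + ((p : ℤ) - 1) = p * a₁ →
      (∀ φ : IrrCharacter G, φ ≠ φ₁ → φ ≠ φ₂ → N φ = 0) →
      ∃ χ₁ χ₂ : IrrCharacter G, Blk G p w z (cz ζ) u χ₁ χ₂ Y := by
    intro φ₁ φ₂ D₁ D₂ a₁ h1 h2 hD1 hD2 hrel hcong hoth
    have hR1 := hRof φ₁ (by rw [h1]; norm_num)
    have hR2' := hRof φ₂ (by rw [h2]; norm_num)
    refine ⟨φ₁, φ₂, ?_⟩
    refine
      { zc1 := hR1.1
        zc2 := hR2'.1
        zcY := hYzc
        val1 := ?_
        val2 := ?_
        valY := hYval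
        degY := hYdeg
        deg1 := ?_
        deg2 := ?_
        regY := ?_
        eqY := hYeq
        ne12 := ?_
        neY1 := fun k hk => hR1.2 k hk.symm
        neY2 := fun k hk => hR2'.2 k hk.symm
        rest := ?_ }
    · intro t ht
      rw [hN1 φ₁ hR1 t ht, h1, Int.cast_one]
    · intro t ht
      rw [hN1 φ₂ hR2' t ht, h2, Int.cast_neg, Int.cast_one]
    · have ha1' : 1 ≤ a₁ := by
        by_contra h0
        have h3 : a₁ = 0 := by omega
        rw [h3] at hcong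
        have h4 : (0 : ℤ) ≤ (D₁ : ℤ) := Int.natCast_nonneg _
        have h5 : (5 : ℤ) < (p : ℤ) := by exact_mod_cast hp5
        push_cast at hcong
        linarith
      refine ⟨a₁ - 1, ?_⟩
      have h3 : (D₁ : ℤ) = 1 + ((a₁ - 1 : ℕ) : ℤ) * p := by
        rw [Nat.cast_sub ha1']
        push_cast
        linarith
      have h4 : ((D₁ : ℤ) : ℂ) = ((1 + ((a₁ - 1 : ℕ) : ℤ) * p : ℤ) : ℂ) := by rw [h3]
      rw [hD1]
      push_cast at h4
      exact h4
    · rw [hD2, hD1]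
      have h4 : ((D₂ : ℤ) : ℂ) = ((D₁ + (p : ℤ) - 2 : ℤ) : ℂ) := by rw [hrel]
      push_cast at h4
      rw [h4]
      ring
    · intro k g hg
      rw [hYreg k g hg, hY1]
    · intro h12
      rw [h12, h2] at h1
      norm_num at h1
    · intro φ hzc
      by_cases hYk : ∃ k, φ = Y k
      · exact Or.inr (Or.inr (Or.inl hYk))
      · push_neg at hYk
        by_cases e1 : φ = φ₁
        · exact Or.inl e1
        · by_cases e2 : φ = φ₂
          · exact Or.inr (Or.inl e2)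
          · right
            right
            right
            intro t ht
            rw [hN1 φ ⟨hzc, hYk⟩ t ht, hoth φ e1 e2, Int.cast_zero]
  have hp5' : (5 : ℤ) < (p : ℤ) := by exact_mod_cast hp5
  have hDa0 : (0 : ℤ) ≤ (Da : ℤ) := Int.natCast_nonneg _
  have hDb0 : (0 : ℤ) ≤ (Db : ℤ) := Int.natCast_nonneg _
  have ha0a : (0 : ℤ) ≤ (a0a : ℤ) := Int.natCast_nonneg _
  have ha0b : (0 : ℤ) ≤ (a0b : ℤ) := Int.natCast_nonneg _
  rcases ha with ea | ea <;> rcases hb with eb | eb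
  · -- (+,+)
    exfalso
    rw [ea, eb] at hsum3
    linarith
  · -- (+,-)
    rw [ea, eb] at hsum3
    rw [ea] at hcongA
    exact key φa φb Da Db a0a ea eb hDa hDb (by linarith) (by linarith)
      (fun φ h1 h2 => hothers φ h1 h2)
  · -- (-,+)
    rw [ea, eb] at hsum3
    rw [eb] at hcongB
    exact key φb φa Db Da a0b eb ea hDb hDa (by linarith) (by linarith)
      (fun φ h1 h2 => hothers φ h2 h1)
  · -- (-,-)
    exfalso
    rw [ea, eb] at hsum3
    rw [ea] at hcongA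
    rw [eb] at hcongB
    have h1 : (p : ℤ) * a0a ≥ 0 := by positivity
    have h2 : (p : ℤ) * a0b ≥ 0 := by positivity
    linarith

end Cfsg.Agent.Lib.Helper79.PT
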