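import Mathlib
import Cfsg.Agent.Lib.Helper22.PTDefs
import Cfsg.Agent.Lib.Helper68.BFPDEC
import Cfsg.Agent.Lib.Helper33.TIFour

/-! Project PT (helper22, S4705), piece LOCA: from the structure `Str` of `ζ` on the powers of
`z` one gets `|E| = 2` and `∑_t ζ (z ^ t) = p`. -/

set_option autoImplicit false

namespace Cfsg.Agent.Lib.Helper79.PT

open Cfsg Cfsg.Agent.Lib.Helper22.BFD Cfsg.Agent.Lib.Helper22.PT
open scoped ComplexConjugate

universe u

/-- Fourier uniqueness on `ZMod p` -/
theorem loca_fourier (p : ℕ) [Fact p.Prime] (w : ℂ) (hw : IsPrimitiveRoot w p) (c : ZMod p → ℂ)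
    (h : ∀ t : ZMod p, t ≠ 0 → ∑ v : ZMod p, c v * w ^ (v * t).val = 0) (u : ZMod p) :
    (p : ℂ) * c u = ∑ v : ZMod p, c v := by
  classical
  have hw1 : w ^ p = 1 := hw.pow_eq_one
  have key : ∑ t : ZMod p, w ^ (-u * t).val * ∑ v : ZMod p, c v * w ^ (v * t).val
      = (p : ℂ) * c u := by
    calc ∑ t : ZMod p, w ^ (-u * t).val * ∑ v : ZMod p, c v * w ^ (v * t).val
        = ∑ t : ZMod p, ∑ v : ZMod p, c v * w ^ ((v - u) * t).val := by
          apply Finset.sum_congr rfl
          intro t _
          rw [Finset.mul_sum]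
          apply Finset.sum_congr rfl
          intro v _
          have e : (v - u) * t = v * t + (-u * t) := by ring
          rw [e, Cfsg.Agent.Lib.Helper33.TI.pow_val_add p w hw1]
          ring
      _ = ∑ v : ZMod p, ∑ t : ZMod p, c v * w ^ ((v - u) * t).val := Finset.sum_comm
      _ = ∑ v : ZMod p, c v * (if v - u = 0 then (p : ℂ) else 0) := by
          apply Finset.sum_congr rfl
          intro v _
          rw [← Finset.mul_sum, Cfsg.Agent.Lib.Helper33.TI.sum_pow_val p w hw]
      _ = (p : ℂ) * c u := by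
          rw [Finset.sum_eq_single u]
          · rw [sub_self, if_pos rfl, mul_comm]
          · intro v _ hv
            rw [if_neg (sub_ne_zero.mpr hv), mul_zero]
          · intro h'
            exact absurd (Finset.mem_univ u) h'
  rw [← key, Finset.sum_eq_single (0 : ZMod p)]
  · simp
  · intro t _ ht
    rw [h t ht, mul_zero]
  · intro h'
    exact absurd (Finset.mem_univ _) h'

/-- the arithmetic of the case `∑ ζ (z ^ t) = ζ 1 + k (p - 1)` -/
theorem loca_arith1 (p P B k S : ℕ) (hP : p = P + 1) (hB : B + S + 2 = p)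
    (h : p * B + 2 = p + k * P) : S = 0 := by
  subst hP
  have hd : (P : ℤ) ∣ (B : ℤ) + 1 := by
    refine ⟨1 + k - B, ?_⟩
    have h' : ((P : ℤ) + 1) * B + 2 = (P : ℤ) + 1 + k * P := by exact_mod_cast h
    linear_combination h'
  have h1 : (P : ℤ) ≤ (B : ℤ) + 1 := Int.le_of_dvd (by positivity) hd
  omega

variable {G : Type u} [Group G] [Fintype G]

/-- PIECE LOCA -/
theorem locA (p : ℕ) [Fact p.Prime] (w : ℂ) (hw : IsPrimitiveRoot w p) (z : G) (ζ : G → ℂ)
    (h : Hyp G p z ζ) (hstr : Str p w z ζ) (hE : (Ef p z).card ∣ p - 1)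
    (hzabs : ∀ g : G, ‖ζ g‖ = ‖ζ 1‖ → g ∈ Subgroup.center G) :
    (Ef p z).card = 2 ∧ ∑ t : ZMod p, ζ (z ^ t.val) = (p : ℂ) := by
  classical
  have hp : p.Prime := Fact.out
  haveI : Fact (1 < p) := ⟨hp.one_lt⟩
  haveI : NeZero p := ⟨hp.ne_zero⟩
  have hp5 := h.p5
  have hw1 : w ^ p = 1 := hw.pow_eq_one
  have hzp : z ^ p = 1 := by rw [← h.ord]; exact pow_orderOf_eq_one z
  have hchar : IsCharacter G ζ := by
    obtain ⟨n, ρ, -, hρ⟩ := h.irr
    exact ⟨n, ρ, hρ⟩
  obtain ⟨b, hb⟩ := Cfsg.Agent.Lib.Helper68.BFT.pdec p w hw ζ hchar z hzp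
  obtain ⟨d, r, e, wt, hd, hre, hval, hsP⟩ := hstr
  have hpne : (p : ℂ) ≠ 0 := by exact_mod_cast hp.ne_zero
  -- `∑ b = p - 2`
  have hsumC : ∑ v : ZMod p, (b v : ℂ) = (p : ℂ) - 2 := by
    have h0 := hb 0
    simp only [ZMod.val_zero, pow_zero, mul_zero, mul_one] at h0
    rw [← h0, h.deg]
  have hsumN : ∑ v : ZMod p, b v + 2 = p := by
    have h1 : ((∑ v : ZMod p, b v + 2 : ℕ) : ℂ) = (p : ℂ) := by
      push_cast
      rw [hsumC]
      ring
    exact_mod_cast h1
  have hsplit : b 0 + ∑ v ∈ Finset.univ.erase (0 : ZMod p), b v = ∑ v : ZMod p, b v :=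
    Finset.add_sum_erase Finset.univ b (Finset.mem_univ 0)
  -- `sP = p * b 0`
  have hsP0 : sP p z ζ = (p : ℂ) * (b 0 : ℂ) := by
    unfold sP
    calc ∑ t : ZMod p, ζ (z ^ t.val)
        = ∑ t : ZMod p, ∑ u : ZMod p, (b u : ℂ) * w ^ (u * t).val :=
          Finset.sum_congr rfl (fun t _ => hb t)
      _ = ∑ u : ZMod p, ∑ t : ZMod p, (b u : ℂ) * w ^ (u * t).val := Finset.sum_comm
      _ = ∑ u : ZMod p, (b u : ℂ) * (if u = 0 then (p : ℂ) else 0) := by
          apply Finset.sum_congr rfl
          intro u _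
          rw [← Finset.mul_sum, Cfsg.Agent.Lib.Helper33.TI.sum_pow_val p w hw]
      _ = (p : ℂ) * (b 0 : ℂ) := by
          rw [Finset.sum_eq_single (0 : ZMod p)]
          · rw [if_pos rfl, mul_comm]
          · intro v _ hv
            rw [if_neg hv, mul_zero]
          · intro h'
            exact absurd (Finset.mem_univ _) h'
  -- Fourier: `b v - d wt v` is constant
  have hconst : ∀ v : ZMod p, (b v : ℤ) = (b 0 : ℤ) + d * (wt v - wt 0) := by
    intro v
    have hF := loca_fourier p w hw (fun v => ((b v : ℂ) - (d : ℂ) * (wt v : ℂ))) (by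
      intro t ht
      have h1 := hb t
      have h2 := hval t ht
      calc ∑ v : ZMod p, ((b v : ℂ) - (d : ℂ) * (wt v : ℂ)) * w ^ (v * t).val
          = ∑ v : ZMod p, (b v : ℂ) * w ^ (v * t).val
            - (d : ℂ) * ∑ v : ZMod p, (wt v : ℂ) * w ^ (v * t).val := by
            rw [Finset.mul_sum, ← Finset.sum_sub_distrib]
            apply Finset.sum_congr rfl
            intro v _
            ring
        _ = 0 := by rw [← h1, ← h2, sub_self])
    have hFv := hF v
    have hF0 := hF 0
    have h3 : ((b v : ℂ) - (d : ℂ) * (wt v : ℂ)) = ((b 0 : ℂ) - (d : ℂ) * (wt 0 : ℂ)) := by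
      apply mul_left_cancel₀ hpne
      rw [hFv, hF0]
    have h4 : ((b v : ℤ) - (d : ℤ) * wt v : ℤ) = (b 0 : ℤ) - (d : ℤ) * wt 0 := by
      exact_mod_cast h3
    linarith
  -- `1 ∈ Ef`
  have hE1 : 1 ≤ (Ef p z).card := by
    apply Finset.card_pos.mpr
    refine ⟨1, ?_⟩
    unfold Ef
    rw [Finset.mem_filter]
    refine ⟨Finset.mem_univ _, ?_⟩
    rw [ZMod.val_one, pow_one]
  have hr : 1 ≤ r := by
    rcases Nat.eq_zero_or_pos r with h0 | h0
    · rw [h0, zero_mul] at hre
      omega
    · exact h0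
  -- if all `b v`, `v ≠ 0`, vanish then `z = 1`
  have hcontra1 : ∑ v ∈ Finset.univ.erase (0 : ZMod p), b v = 0 → False := by
    intro hS
    have hb0 : b 0 + 2 = p := by omega
    have hbv : ∀ v : ZMod p, v ≠ 0 → b v = 0 := by
      intro v hv
      exact (Finset.sum_eq_zero_iff.mp hS) v (Finset.mem_erase.mpr ⟨hv, Finset.mem_univ _⟩)
    have hz1 := hb 1
    rw [Finset.sum_eq_single (0 : ZMod p)] at hz1
    · simp only [ZMod.val_one, pow_one, zero_mul, ZMod.val_zero, pow_zero, mul_one] at hz1
      have h5 : ζ z = ζ 1 := by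
        rw [hz1, h.deg]
        have h6 : ((b 0 + 2 : ℕ) : ℂ) = (p : ℂ) := by exact_mod_cast hb0
        push_cast at h6
        linear_combination h6
      have h7 := h.faith z h5
      have h8 := h.ord
      rw [h7, orderOf_one] at h8
      omega
    · intro v _ hv
      rw [hbv v hv, Nat.cast_zero, zero_mul]
    · intro h'
      exact absurd (Finset.mem_univ _) h'
  obtain ⟨P, hP⟩ : ∃ P, P = p - 1 := ⟨_, rfl⟩
  rw [← hP] at hsP hE
  have hpP : p = P + 1 := by omega
  rw [hsP0, h.deg] at hsP
  rcases hsP with hc | hc | hc | hc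
  · -- case `+ d r (p - 1)`
    exfalso
    have hc' : p * b 0 + 2 = p + d * r * P := by
      have h1 : ((p * b 0 + 2 : ℕ) : ℂ) = ((p + d * r * P : ℕ) : ℂ) := by
        push_cast at hc ⊢
        linear_combination hc
      exact_mod_cast h1
    exact hcontra1 (loca_arith1 p P (b 0) (d * r) _ hpP (by omega) hc')
  · -- case `- d r (p - 1)`
    exfalso
    have hc' : p * b 0 + d * r * P + 2 = p := by
      have h1 : ((p * b 0 + d * r * P + 2 : ℕ) : ℂ) = ((p : ℕ) : ℂ) := by
        push_cast at hc ⊢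
        linear_combination hc
      exact_mod_cast h1
    have h2 : P ≤ d * r * P := Nat.le_mul_of_pos_left P (Nat.mul_pos hd hr)
    omega
  · -- case `+ d |E|`
    rw [hre] at hc
    have hc' : p * b 0 + 2 = p + d * (Ef p z).card := by
      have h1 : ((p * b 0 + 2 : ℕ) : ℂ) = ((p + d * (Ef p z).card : ℕ) : ℂ) := by
        push_cast at hc ⊢
        linear_combination hc
      exact_mod_cast h1
    obtain ⟨E, hEdef⟩ : ∃ E, E = (Ef p z).card := ⟨_, rfl⟩
    rw [← hEdef] at hc' hE hE1 ⊢
    have hb0pos : 1 ≤ b 0 := by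
      rcases Nat.eq_zero_or_pos (b 0) with h0 | h0
      · rw [h0, mul_zero] at hc'
        omega
      · exact h0
    -- `d ≤ b 0`
    have hdb : d ≤ b 0 := by
      by_contra hlt
      push_neg at hlt
      have hge : ∀ v : ZMod p, b 0 ≤ b v := by
        intro v
        have h1 := hconst v
        have h2 : 0 ≤ wt v - wt 0 := by
          by_contra hneg
          push_neg at hneg
          have h3 : (d : ℤ) * (wt v - wt 0) ≤ -(d : ℤ) := by nlinarith
          have h4 : (0 : ℤ) ≤ (b v : ℤ) := Int.natCast_nonneg _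
          have h5 : (b 0 : ℤ) < (d : ℤ) := by exact_mod_cast hlt
          linarith
        have h3 : (0 : ℤ) ≤ (d : ℤ) * (wt v - wt 0) := mul_nonneg (Int.natCast_nonneg _) h2
        have h4 : (b 0 : ℤ) ≤ (b v : ℤ) := by linarith
        exact_mod_cast h4
      have h1 : Finset.card (Finset.univ : Finset (ZMod p)) • b 0 ≤ ∑ v : ZMod p, b v :=
        Finset.card_nsmul_le_sum _ _ _ (fun v _ => hge v)
      rw [Finset.card_univ, ZMod.card, smul_eq_mul] at h1
      have h2 : p ≤ p * b 0 := Nat.le_mul_of_pos_right p hb0pos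
      omega
    -- `b 0 = 1`
    have hb01 : b 0 = 1 := by
      by_contra hne
      have hb2 : 2 ≤ b 0 := by omega
      by_cases hEP : E = P
      · rw [hEP] at hc'
        exact hcontra1 (loca_arith1 p P (b 0) d _ hpP (by omega) hc')
      · obtain ⟨k, hk⟩ := hE
        have hk2 : 2 ≤ k := by
          by_contra hk2
          have hk01 : k = 0 ∨ k = 1 := by omega
          rcases hk01 with rfl | rfl
          · rw [mul_zero] at hk
            omega
          · rw [mul_one] at hk
            exact hEP hk.symm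
        have h1 : p * d ≤ p * b 0 := Nat.mul_le_mul_left p hdb
        have h2 : 2 * E ≤ P := by
          rw [hk]
          calc 2 * E = E * 2 := by ring
            _ ≤ E * k := Nat.mul_le_mul_left E hk2
        have h3 : d * (2 * E) ≤ d * P := Nat.mul_le_mul_left d h2
        have hd1 : d = 1 := by
          by_contra hd1
          have hd2 : 2 ≤ d := by omega
          have h4 : 2 * (p + 1) ≤ d * (p + 1) := Nat.mul_le_mul_right _ hd2
          nlinarith
        rw [hd1, one_mul] at hc'
        have h4 : p * 2 ≤ p * b 0 := Nat.mul_le_mul_left p hb2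
        omega
    have hdE : d * E = 2 := by
      rw [hb01, mul_one] at hc'
      omega
    refine ⟨?_, ?_⟩
    · have hE2 : E ∣ 2 := Dvd.intro_left d hdE
      rcases (Nat.dvd_prime Nat.prime_two).mp hE2 with hE1' | hE2'
      · exfalso
        rw [hE1', mul_one] at hdE
        have hge : ∀ v : ZMod p, 1 ≤ b v := by
          intro v
          have h1 := hconst v
          rw [hb01, hdE] at h1
          by_contra h0
          have h2 : b v = 0 := by omega
          rw [h2] at h1
          push_cast at h1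
          omega
        have h1 : Finset.card (Finset.univ : Finset (ZMod p)) • 1 ≤ ∑ v : ZMod p, b v :=
          Finset.card_nsmul_le_sum _ _ _ (fun v _ => hge v)
        rw [Finset.card_univ, ZMod.card, smul_eq_mul] at h1
        omega
      · exact hE2'
    · have h1 : sP p z ζ = (p : ℂ) := by
        rw [hsP0, hb01, Nat.cast_one, mul_one]
      exact h1
  · -- case `- d |E|`
    exfalso
    rw [hre] at hc
    have hc' : p * b 0 + d * (Ef p z).card + 2 = p := by
      have h1 : ((p * b 0 + d * (Ef p z).card + 2 : ℕ) : ℂ) = ((p : ℕ) : ℂ) := by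
        push_cast at hc ⊢
        linear_combination hc
      exact_mod_cast h1
    obtain ⟨E, hEdef⟩ : ∃ E, E = (Ef p z).card := ⟨_, rfl⟩
    rw [← hEdef] at hc' hE hE1
    have hb00 : b 0 = 0 := by
      rcases Nat.eq_zero_or_pos (b 0) with h0 | h0
      · exact h0
      · have h2 : p ≤ p * b 0 := Nat.le_mul_of_pos_right p h0
        omega
    rw [hb00, mul_zero, zero_add] at hc'
    have hE' : E = 1 := by
      have h1 : E ∣ d * E := Dvd.intro_left d rfl
      have h2 : E ∣ P - d * E := Nat.dvd_sub hE h1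
      have h3 : P - d * E = 1 := by omega
      rw [h3] at h2
      exact Nat.dvd_one.mp h2
    rw [hE', mul_one] at hc'
    -- `d ∣ b v`
    have hdvd : ∀ v : ZMod p, d ∣ b v := by
      intro v
      have h1 := hconst v
      rw [hb00] at h1
      have h2 : (d : ℤ) ∣ (b v : ℤ) := ⟨wt v - wt 0, by rw [h1]; push_cast; ring⟩
      exact_mod_cast h2
    have hsumd : ∑ v : ZMod p, b v = d := by omega
    have hex : ∃ u0 : ZMod p, b u0 ≠ 0 := by
      by_contra hno
      push_neg at hno
      have h1 : ∑ v : ZMod p, b v = 0 := Finset.sum_eq_zero (fun v _ => hno v)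
      omega
    obtain ⟨u0, hu0⟩ := hex
    have hu0d : d ≤ b u0 := Nat.le_of_dvd (Nat.pos_of_ne_zero hu0) (hdvd u0)
    have hsplit2 : b u0 + ∑ v ∈ Finset.univ.erase u0, b v = ∑ v : ZMod p, b v :=
      Finset.add_sum_erase Finset.univ b (Finset.mem_univ u0)
    have hbu0 : b u0 = d := by omega
    have hrest : ∑ v ∈ Finset.univ.erase u0, b v = 0 := by omega
    have hbv : ∀ v : ZMod p, v ≠ u0 → b v = 0 := by
      intro v hv
      exact (Finset.sum_eq_zero_iff.mp hrest) v (Finset.mem_erase.mpr ⟨hv, Finset.mem_univ _⟩)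
    have hz1 := hb 1
    rw [Finset.sum_eq_single u0] at hz1
    · simp only [ZMod.val_one, pow_one, mul_one] at hz1
      have hnw : ‖w‖ = 1 := Complex.norm_eq_one_of_pow_eq_one hw1 hp.ne_zero
      have h5 : ‖ζ z‖ = ‖ζ 1‖ := by
        rw [hz1, h.deg, norm_mul, norm_pow, hnw, one_pow, mul_one, hbu0]
        have h6 : ((d + 2 : ℕ) : ℂ) = (p : ℂ) := by exact_mod_cast hc'
        have h7 : (p : ℂ) - 2 = (d : ℂ) := by
          push_cast at h6
          linear_combination -h6
        rw [h7]
      have hzc := hzabs z h5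
      apply h.nn
      constructor
      intro n hn g
      have hnc : n ∈ Subgroup.center G := (Subgroup.zpowers_le.mpr hzc) hn
      have h8 := Subgroup.mem_center_iff.mp hnc g
      have h9 : g * n * g⁻¹ = n := by
        rw [h8, mul_inv_cancel_right]
      rw [h9]
      exact hn
    · intro v _ hv
      rw [hbv v hv, Nat.cast_zero, zero_mul]
    · intro h'
      exact absurd (Finset.mem_univ _) h'

end Cfsg.Agent.Lib.Helper79.PT
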