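import Mathlib
import Cfsg.Agent.Lib.Helper44.PU3Defs
import Cfsg.Agent.Lib.Helper7.SUCenter
import Cfsg.Agent.Lib.Helper18.UnitaryGenB

/-! PU3 project (helper44, S2784 + S2786), piece PCORE (glue from COREA, TRANS). -/

set_option autoImplicit false

namespace Cfsg.Agent.Lib.Helper44.PU3

open Matrix

private theorem pu3pcore_suM_pow {F : Type*} [Field F] [Fintype F] {q n : ℕ}
    (g : ↥(Cfsg.SU n F q)) (k : ℕ) :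
    Cfsg.Agent.Lib.Helper87.suM (g ^ k) = Cfsg.Agent.Lib.Helper87.suM g ^ k := by
  induction k with
  | zero => simp [Cfsg.Agent.Lib.Helper87.suM_one]
  | succ k ih => rw [pow_succ, pow_succ, Cfsg.Agent.Lib.Helper87.suM_mul, ih]

private theorem pu3pcore_su_eq {F : Type*} [Field F] [Fintype F] {q n : ℕ}
    {g h : ↥(Cfsg.SU n F q)}
    (H : Cfsg.Agent.Lib.Helper87.suM g = Cfsg.Agent.Lib.Helper87.suM h) : g = h :=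
  Subtype.ext (Subtype.ext H)

theorem pu3_pcore {F : Type*} [Field F] [Fintype F] (q : ℕ) (h1 : CoreAStmt F q) (h2 : TransStmt F q) : PCoreStmt F q := by
  intro hF r hr hr3 hr1 hrq hrq4 v c hv0 hvv hc0 hc
  haveI : Fact r.Prime := ⟨hr⟩
  obtain ⟨v₁, v₂, v₃, hv₁, hv₂, hv₃, hvv₁, hvv₂, hvv₃, hYr, hY1⟩ :=
    h1 hF r hr hr3 hr1 hrq hrq4 c hc0 hc
  obtain ⟨M₁, ⟨hd₁, hp₁⟩, hM₁⟩ := h2 hF v v₁ hv0 hv₁ hvv hvv₁
  obtain ⟨M₂, ⟨hd₂, hp₂⟩, hM₂⟩ := h2 hF v v₂ hv0 hv₂ hvv hvv₂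
  obtain ⟨M₃, ⟨hd₃, hp₃⟩, hM₃⟩ := h2 hF v v₃ hv0 hv₃ hvv hvv₃
  obtain ⟨k₁, hk₁⟩ := Cfsg.Agent.Lib.Helper18.exists_su hF M₁ hd₁ hp₁
  obtain ⟨k₂, hk₂⟩ := Cfsg.Agent.Lib.Helper18.exists_su hF M₂ hd₂ hp₂
  obtain ⟨k₃, hk₃⟩ := Cfsg.Agent.Lib.Helper18.exists_su hF M₃ hd₃ hp₃
  have e₁ : Cfsg.Agent.Lib.Helper87.tU hF v₁ c =
      k₁ * Cfsg.Agent.Lib.Helper87.tU hF v c * k₁⁻¹ := by
    rw [Cfsg.Agent.Lib.Helper87.tU_conj hF hvv hc, ← hM₁, ← hk₁]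
  have e₂ : Cfsg.Agent.Lib.Helper87.tU hF v₂ c =
      k₂ * Cfsg.Agent.Lib.Helper87.tU hF v c * k₂⁻¹ := by
    rw [Cfsg.Agent.Lib.Helper87.tU_conj hF hvv hc, ← hM₂, ← hk₂]
  have e₃ : Cfsg.Agent.Lib.Helper87.tU hF v₃ c =
      k₃ * Cfsg.Agent.Lib.Helper87.tU hF v c * k₃⁻¹ := by
    rw [Cfsg.Agent.Lib.Helper87.tU_conj hF hvv hc, ← hM₃, ← hk₃]
  obtain ⟨Y, hY⟩ : ∃ Y : ↥(Cfsg.SU 3 F q), Y = Cfsg.Agent.Lib.Helper87.tU hF v₁ c *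
      Cfsg.Agent.Lib.Helper87.tU hF v₂ c * Cfsg.Agent.Lib.Helper87.tU hF v₃ c := ⟨_, rfl⟩
  have hYm : Cfsg.Agent.Lib.Helper87.suM Y = Cfsg.unitaryTransvection 3 q v₁ c *
      Cfsg.unitaryTransvection 3 q v₂ c * Cfsg.unitaryTransvection 3 q v₃ c := by
    rw [hY, Cfsg.Agent.Lib.Helper87.suM_mul, Cfsg.Agent.Lib.Helper87.suM_mul,
      Cfsg.Agent.Lib.Helper87.suM_tU hF hvv₁ hc, Cfsg.Agent.Lib.Helper87.suM_tU hF hvv₂ hc,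
      Cfsg.Agent.Lib.Helper87.suM_tU hF hvv₃ hc]
  have hYr' : Y ^ r = 1 := by
    apply pu3pcore_su_eq
    rw [pu3pcore_suM_pow, hYm, hYr, Cfsg.Agent.Lib.Helper87.suM_one]
  have hY1' : Y ≠ 1 := by
    intro h
    apply hY1
    rw [← hYm, h, Cfsg.Agent.Lib.Helper87.suM_one]
  have hord : orderOf Y = r := orderOf_eq_prime hYr' hY1'
  have hW : Cfsg.Agent.Lib.Helper87.tU hF v c *
      ((k₁⁻¹ * k₂) * Cfsg.Agent.Lib.Helper87.tU hF v c * (k₁⁻¹ * k₂)⁻¹) *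
      ((k₁⁻¹ * k₃) * Cfsg.Agent.Lib.Helper87.tU hF v c * (k₁⁻¹ * k₃)⁻¹) = k₁⁻¹ * Y * k₁ := by
    rw [hY, e₁, e₂, e₃]
    group
  refine ⟨QuotientGroup.mk (k₁⁻¹ * k₂), QuotientGroup.mk (k₁⁻¹ * k₃), ?_⟩
  have hmk : ((QuotientGroup.mk (Cfsg.Agent.Lib.Helper87.tU hF v c) : Cfsg.PSU 3 F q) *
        ((QuotientGroup.mk (k₁⁻¹ * k₂) : Cfsg.PSU 3 F q) *
          (QuotientGroup.mk (Cfsg.Agent.Lib.Helper87.tU hF v c) : Cfsg.PSU 3 F q) *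
          (QuotientGroup.mk (k₁⁻¹ * k₂) : Cfsg.PSU 3 F q)⁻¹) *
        ((QuotientGroup.mk (k₁⁻¹ * k₃) : Cfsg.PSU 3 F q) *
          (QuotientGroup.mk (Cfsg.Agent.Lib.Helper87.tU hF v c) : Cfsg.PSU 3 F q) *
          (QuotientGroup.mk (k₁⁻¹ * k₃) : Cfsg.PSU 3 F q)⁻¹)) =
      (QuotientGroup.mk (k₁⁻¹ * Y * k₁) : Cfsg.PSU 3 F q) := by
    rw [← hW]
    rfl
  rw [hmk]
  apply orderOf_eq_prime
  · have hpow : (k₁⁻¹ * Y * k₁) ^ r = 1 := by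
      have h3 := conj_pow (i := r) (a := k₁⁻¹) (b := Y)
      rw [inv_inv] at h3
      rw [h3, hYr', mul_one, inv_mul_cancel]
    rw [← QuotientGroup.mk_pow, hpow]
    rfl
  · intro h
    rw [QuotientGroup.eq_one_iff] at h
    have hYc : Y ∈ Subgroup.center (Cfsg.SU 3 F q) := by
      have h3 : k₁ * (k₁⁻¹ * Y * k₁) * k₁⁻¹ ∈ Subgroup.center (Cfsg.SU 3 F q) :=
        Subgroup.Normal.conj_mem inferInstance _ h k₁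
      have h4 : k₁ * (k₁⁻¹ * Y * k₁) * k₁⁻¹ = Y := by group
      rwa [h4] at h3
    have hdvd : r ∣ Nat.card (Subgroup.center (Cfsg.SU 3 F q)) := by
      rw [← hord]
      have := Subgroup.orderOf_dvd_natCard (Subgroup.center (Cfsg.SU 3 F q)) hYc
      exact this
    rw [Cfsg.Agent.Lib.Helper7.card_center_SU hF 3 (by norm_num)] at hdvd
    exact hr1 (hdvd.trans (Nat.gcd_dvd_right 3 (q + 1)))

end Cfsg.Agent.Lib.Helper44.PU3
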