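import Cfsg.Agent.Lib.Helper96.PiDefs
import Cfsg.Agent.Lib.Helper96.PiGlueB
import Cfsg.Agent.Lib.Helper96.PiOmega
import Cfsg.Agent.Lib.Helper9.HeUNIPPOW

/-!
Project PI (S5989, helper96), piece X2DECOMP: an isometry `x` with `x * x = -1` is a product of
`2d` reflections whose norms multiply to `2 ^ d * s ^ 2`.
-/

set_option autoImplicit false
set_option linter.unusedSectionVars false
set_option linter.unusedVariables false

namespace Cfsg.Agent.Lib.Helper79.Pi

open Module Cfsg.Agent.Lib.Helper96.Sp Cfsg.Agent.Lib.Helper96.BG Cfsg.Agent.Lib.Helper96.Hy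
  Cfsg.Agent.Lib.Helper96.Pi Cfsg.Agent.Lib.Helper47

universe u

open Matrix
open scoped MatrixGroups

variable {F : Type u} [Field F] [Fintype F]

/-- the induction behind X2DECOMP -/
theorem x2decomp_aux {ι : Type} [Fintype ι] [DecidableEq ι] (Q : QuadraticForm F (ι → F))
    (h2 : (2 : F) ≠ 0) (x : Matrix ι ι F) (hx2 : x * x = -1)
    (hpair : ∀ v : ι → F, Q v ≠ 0 →
      Q (v - x *ᵥ v) = 2 * Q v ∧
      (Cfsg.reflectionMatrix ⇑Q v * Cfsg.reflectionMatrix ⇑Q (v - x *ᵥ v)) *ᵥ v = x *ᵥ v ∧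
      (Cfsg.reflectionMatrix ⇑Q v * Cfsg.reflectionMatrix ⇑Q (v - x *ᵥ v)) *ᵥ (x *ᵥ v) = -v ∧
      ∀ w, QuadraticMap.polar ⇑Q v w = 0 → QuadraticMap.polar ⇑Q (x *ᵥ v) w = 0 →
        (Cfsg.reflectionMatrix ⇑Q v * Cfsg.reflectionMatrix ⇑Q (v - x *ᵥ v)) *ᵥ w = w)
    (hstep : ∀ W : Submodule F (ι → F), ND (QuadraticMap.polarBilin Q) W →
      W.map (Matrix.toLin' x) ≤ W → ∀ v : ι → F, v ∈ W → QuadraticMap.polarBilin Q v v ≠ 0 →
      ND (QuadraticMap.polarBilin Q)
        (W ⊓ LinearMap.BilinForm.orthogonal (QuadraticMap.polarBilin Q) (Submodule.span F {v, Matrix.toLin' x v})) ∧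
      (W ⊓ LinearMap.BilinForm.orthogonal (QuadraticMap.polarBilin Q)
        (Submodule.span F {v, Matrix.toLin' x v})).map (Matrix.toLin' x) ≤
        W ⊓ LinearMap.BilinForm.orthogonal (QuadraticMap.polarBilin Q) (Submodule.span F {v, Matrix.toLin' x v}) ∧
      finrank F ↥(W ⊓ LinearMap.BilinForm.orthogonal (QuadraticMap.polarBilin Q)
        (Submodule.span F {v, Matrix.toLin' x v})) + 2 = finrank F W ∧
      Submodule.span F {v, Matrix.toLin' x v} ⊔ (W ⊓ LinearMap.BilinForm.orthogonal (QuadraticMap.polarBilin Q)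
        (Submodule.span F {v, Matrix.toLin' x v})) = W ∧
      Orth (QuadraticMap.polarBilin Q) (Submodule.span F {v, Matrix.toLin' x v})
        (W ⊓ LinearMap.BilinForm.orthogonal (QuadraticMap.polarBilin Q) (Submodule.span F {v, Matrix.toLin' x v}))) :
    ∀ (e : ℕ) (W : Submodule F (ι → F)), ND (QuadraticMap.polarBilin Q) W →
      W.map (Matrix.toLin' x) ≤ W → finrank F W = 2 * e →
      ∃ (vs : List (ι → F)) (s : F), (∀ v ∈ vs, Q v ≠ 0) ∧ vs.length = 2 * e ∧ s ≠ 0 ∧
        (vs.map (fun v => Q v)).prod = 2 ^ e * s ^ 2 ∧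
        (∀ w ∈ W, (vs.map (fun v => Cfsg.reflectionMatrix ⇑Q v)).prod *ᵥ w = x *ᵥ w) ∧
        (∀ w, (∀ u ∈ W, QuadraticMap.polar ⇑Q u w = 0) →
          (vs.map (fun v => Cfsg.reflectionMatrix ⇑Q v)).prod *ᵥ w = w) := by
  intro e
  induction e with
  | zero =>
    intro W hW hWx hfin
    have hW0 : W = ⊥ := by
      rw [mul_zero] at hfin
      exact Submodule.finrank_eq_zero.mp hfin
    refine ⟨[], 1, by simp, by simp, one_ne_zero, by simp, ?_, ?_⟩
    · intro w hw
      rw [hW0, Submodule.mem_bot] at hw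
      rw [hw]
      simp
    · intro w _
      simp
  | succ e ih =>
    intro W hW hWx hfin
    have hex : ∃ v ∈ W, QuadraticMap.polarBilin Q v v ≠ 0 := by
      by_contra hno
      push_neg at hno
      have hWne : W ≠ ⊥ := by
        intro h0
        rw [h0, finrank_bot] at hfin
        omega
      obtain ⟨w, hw, hw0⟩ := (Submodule.ne_bot_iff W).mp hWne
      apply hw0
      apply hW w hw
      intro w' hw'
      have h1 := hno (w + w') (W.add_mem hw hw')
      have h3 := hno w hw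
      have h4 := hno w' hw'
      simp only [map_add, LinearMap.add_apply] at h1
      rw [h3, h4] at h1
      have hsymm : QuadraticMap.polarBilin Q w' w = QuadraticMap.polarBilin Q w w' := by
        simp only [QuadraticMap.polarBilin_apply_apply]
        exact QuadraticMap.polar_comm _ _ _
      rw [hsymm] at h1
      have h5 : (2 : F) * QuadraticMap.polarBilin Q w w' = 0 := by linear_combination h1
      exact (mul_eq_zero.mp h5).resolve_left h2
    obtain ⟨v, hvW, hvv⟩ := hex
    have hQv : Q v ≠ 0 := by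
      intro h0
      apply hvv
      rw [QuadraticMap.polarBilin_apply_apply, QuadraticMap.polar_self, h0]
      simp
    obtain ⟨hW'nd, hW'x, hW'fin, hsup, horth⟩ := hstep W hW hWx v hvW hvv
    have hfin' : finrank F ↥(W ⊓ LinearMap.BilinForm.orthogonal (QuadraticMap.polarBilin Q)
        (Submodule.span F {v, Matrix.toLin' x v})) = 2 * e := by omega
    obtain ⟨vs', s', hvs', hlen', hs', hprod', hM'W, hM'fix⟩ := ih _ hW'nd hW'x hfin'
    obtain ⟨hQu, hpv, hpxv, hpfix⟩ := hpair v hQv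
    have hvP : v ∈ Submodule.span F {v, Matrix.toLin' x v} :=
      Submodule.subset_span (Set.mem_insert _ _)
    have hxvP : Matrix.toLin' x v ∈ Submodule.span F {v, Matrix.toLin' x v} :=
      Submodule.subset_span (Set.mem_insert_of_mem _ rfl)
    have hxx : ∀ a : ι → F, x *ᵥ (x *ᵥ a) = -a := by
      intro a
      rw [Matrix.mulVec_mulVec, hx2, Matrix.neg_mulVec, Matrix.one_mulVec]
    refine ⟨v :: (v - x *ᵥ v) :: vs', Q v * s', ?_, ?_, mul_ne_zero hQv hs', ?_, ?_, ?_⟩
    · intro a ha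
      simp only [List.mem_cons] at ha
      rcases ha with rfl | rfl | ha
      · exact hQv
      · rw [hQu]
        exact mul_ne_zero h2 hQv
      · exact hvs' a ha
    · simp only [List.length_cons, hlen']
      ring
    · simp only [List.map_cons, List.prod_cons]
      rw [hprod', hQu]
      ring
    · intro w hw
      simp only [List.map_cons, List.prod_cons]
      rw [← mul_assoc, ← Matrix.mulVec_mulVec]
      rw [← hsup] at hw
      obtain ⟨a, ha, w', hw', rfl⟩ := Submodule.mem_sup.mp hw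
      rw [Matrix.mulVec_add, Matrix.mulVec_add, Matrix.mulVec_add]
      -- the part in `W'`
      have hxw' : x *ᵥ w' ∈ W ⊓ LinearMap.BilinForm.orthogonal (QuadraticMap.polarBilin Q)
          (Submodule.span F {v, Matrix.toLin' x v}) := by
        have h1 := hW'x (Submodule.mem_map_of_mem hw')
        rwa [Matrix.toLin'_apply] at h1
      have e1 : (vs'.map (fun v => Cfsg.reflectionMatrix ⇑Q v)).prod *ᵥ w' = x *ᵥ w' :=
        hM'W w' hw'
      have e2 : (Cfsg.reflectionMatrix ⇑Q v * Cfsg.reflectionMatrix ⇑Q (v - x *ᵥ v)) *ᵥ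
          (x *ᵥ w') = x *ᵥ w' := by
        apply hpfix
        · have h1 := horth v hvP (x *ᵥ w') hxw'
          rwa [QuadraticMap.polarBilin_apply_apply] at h1
        · have h1 := horth _ hxvP (x *ᵥ w') hxw'
          rwa [QuadraticMap.polarBilin_apply_apply, Matrix.toLin'_apply] at h1
      -- the part in `P`
      have e3 : (vs'.map (fun v => Cfsg.reflectionMatrix ⇑Q v)).prod *ᵥ a = a := by
        apply hM'fix
        intro u hu
        have h1 := horth a ha u hu
        rw [QuadraticMap.polarBilin_apply_apply] at h1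
        rw [QuadraticMap.polar_comm]
        exact h1
      obtain ⟨α, β, rfl⟩ := Submodule.mem_span_pair.mp ha
      have e4 : (Cfsg.reflectionMatrix ⇑Q v * Cfsg.reflectionMatrix ⇑Q (v - x *ᵥ v)) *ᵥ
          (α • v + β • Matrix.toLin' x v) = x *ᵥ (α • v + β • Matrix.toLin' x v) := by
        rw [Matrix.toLin'_apply, Matrix.mulVec_add, Matrix.mulVec_smul, Matrix.mulVec_smul,
          hpv, hpxv, Matrix.mulVec_add, Matrix.mulVec_smul, Matrix.mulVec_smul, hxx]
      rw [e1, e2, e3, e4]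
    · intro w hw
      simp only [List.map_cons, List.prod_cons]
      rw [← mul_assoc, ← Matrix.mulVec_mulVec]
      have e1 : (vs'.map (fun v => Cfsg.reflectionMatrix ⇑Q v)).prod *ᵥ w = w := by
        apply hM'fix
        intro u hu
        exact hw u hu.1
      rw [e1]
      apply hpfix
      · exact hw v hvW
      · have h1 := hWx (Submodule.mem_map_of_mem hvW)
        rw [Matrix.toLin'_apply] at h1
        exact hw _ h1

-- PIECE X2DECOMP
theorem exists_refl_decomp {ι : Type} [Fintype ι] [DecidableEq ι] (Q : QuadraticForm F (ι → F))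
    (h2 : (2 : F) ≠ 0) (hQ : Cfsg.Agent.Lib.Helper54.PolarSep Q) (d : ℕ)
    (hd : Fintype.card ι = 2 * d) (x : Matrix ι ι F) (hxQ : ∀ v, Q (x *ᵥ v) = Q v)
    (hx2 : x * x = -1)
    (hpair : ∀ v : ι → F, Q v ≠ 0 →
      Q (v - x *ᵥ v) = 2 * Q v ∧
      (Cfsg.reflectionMatrix ⇑Q v * Cfsg.reflectionMatrix ⇑Q (v - x *ᵥ v)) *ᵥ v = x *ᵥ v ∧
      (Cfsg.reflectionMatrix ⇑Q v * Cfsg.reflectionMatrix ⇑Q (v - x *ᵥ v)) *ᵥ (x *ᵥ v) = -v ∧
      ∀ w, QuadraticMap.polar ⇑Q v w = 0 → QuadraticMap.polar ⇑Q (x *ᵥ v) w = 0 →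
        (Cfsg.reflectionMatrix ⇑Q v * Cfsg.reflectionMatrix ⇑Q (v - x *ᵥ v)) *ᵥ w = w)
    (hstep : ∀ W : Submodule F (ι → F), ND (QuadraticMap.polarBilin Q) W →
      W.map (Matrix.toLin' x) ≤ W → ∀ v : ι → F, v ∈ W → QuadraticMap.polarBilin Q v v ≠ 0 →
      ND (QuadraticMap.polarBilin Q)
        (W ⊓ LinearMap.BilinForm.orthogonal (QuadraticMap.polarBilin Q) (Submodule.span F {v, Matrix.toLin' x v})) ∧
      (W ⊓ LinearMap.BilinForm.orthogonal (QuadraticMap.polarBilin Q)
        (Submodule.span F {v, Matrix.toLin' x v})).map (Matrix.toLin' x) ≤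
        W ⊓ LinearMap.BilinForm.orthogonal (QuadraticMap.polarBilin Q) (Submodule.span F {v, Matrix.toLin' x v}) ∧
      finrank F ↥(W ⊓ LinearMap.BilinForm.orthogonal (QuadraticMap.polarBilin Q)
        (Submodule.span F {v, Matrix.toLin' x v})) + 2 = finrank F W ∧
      Submodule.span F {v, Matrix.toLin' x v} ⊔ (W ⊓ LinearMap.BilinForm.orthogonal (QuadraticMap.polarBilin Q)
        (Submodule.span F {v, Matrix.toLin' x v})) = W ∧
      Orth (QuadraticMap.polarBilin Q) (Submodule.span F {v, Matrix.toLin' x v})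
        (W ⊓ LinearMap.BilinForm.orthogonal (QuadraticMap.polarBilin Q) (Submodule.span F {v, Matrix.toLin' x v}))) :
    ∃ (vs : List (ι → F)) (s : F), (∀ v ∈ vs, Q v ≠ 0) ∧ vs.length = 2 * d ∧ s ≠ 0 ∧
      (vs.map (fun v => Q v)).prod = 2 ^ d * s ^ 2 ∧
      x = (vs.map (fun v => Cfsg.reflectionMatrix ⇑Q v)).prod := by
  have hND : ND (QuadraticMap.polarBilin Q) ⊤ := by
    intro u _ hu
    apply hQ u
    intro y
    have h1 := hu y Submodule.mem_top
    rw [QuadraticMap.polarBilin_apply_apply] at h1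
    rw [QuadraticMap.polar_comm]
    exact h1
  have hfin : finrank F (⊤ : Submodule F (ι → F)) = 2 * d := by
    rw [finrank_top, Module.finrank_fintype_fun_eq_card, hd]
  obtain ⟨vs, s, hvs, hlen, hs, hprod, hM, -⟩ :=
    x2decomp_aux Q h2 x hx2 hpair hstep d ⊤ hND le_top hfin
  refine ⟨vs, s, hvs, hlen, hs, hprod, ?_⟩
  apply Matrix.toLin'.injective
  apply LinearMap.ext
  intro w
  rw [Matrix.toLin'_apply, Matrix.toLin'_apply, hM w Submodule.mem_top]

end Cfsg.Agent.Lib.Helper79.Pi
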