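import Cfsg.Agent.Lib.Helper79.T73NOISOAux
import Cfsg.Agent.Lib.Helper89.T73CHARP
import Cfsg.Agent.Lib.Helper32.T73TYPC
import Cfsg.Agent.Lib.Helper23.T73TAUSGN

/-!
# Project T73 (S5973), piece NOISO
-/

set_option autoImplicit false

namespace Cfsg.Agent.Lib.Helper98.T73

open Cfsg.Agent.Lib.Helper47 Module Polynomial

universe u

variable {F : Type u} [Field F] [Fintype F] {V : Type u} [AddCommGroup V] [Module F V]
  [FiniteDimensional F V] {Q : V → F} {B : V → V → F}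

/-- NOISO -/
theorem no_qi_small (hf : QFacts F) (hQ : IsQuad Q B) (hnd : Nondeg B) (k : ℕ)
    (hdim : finrank F V = 2 * k + 2) (ε : ℤ) (htyp : IsTyp Q k ε)
    (p : ℕ) [Fact p.Prime] [CharP F p] (r : ℕ) (hr : r.Prime) (hr2 : r ≠ 2) (hrp : r ≠ p)
    (hsmall : 2 * k + 2 < (if Even (orderOf ((Fintype.card F : ℕ) : ZMod r))
          then orderOf ((Fintype.card F : ℕ) : ZMod r)
          else 2 * orderOf ((Fintype.card F : ℕ) : ZMod r)) ∨
      (2 * k + 2 = (if Even (orderOf ((Fintype.card F : ℕ) : ZMod r))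
          then orderOf ((Fintype.card F : ℕ) : ZMod r)
          else 2 * orderOf ((Fintype.card F : ℕ) : ZMod r)) ∧
        ε = (if Even (orderOf ((Fintype.card F : ℕ) : ZMod r)) then 1 else -1)))
    (g : Module.End F V) (hgQ : QI Q g) (hg : g ^ r = 1) : g = 1 := by
  apply noiso_aux k hdim ε r hsmall g
  intro hg1
  obtain ⟨u, hu, hdual, hu0, hch, hR⟩ := charp hQ hnd p r hr hr2 hrp g hgQ hg hg1
  obtain ⟨-, -, -, h0⟩ :=
    typc hf hQ hnd k hdim ε htyp p r hr hr2 hrp g hgQ hg u hu hdual hu0 hch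
  exact ⟨u, hdual, hu0, h0, tau_sgn p r hr hr2 hrp u hu, hR⟩

end Cfsg.Agent.Lib.Helper98.T73
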