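import Mathlib
import Cfsg.Agent.Lib.Helper98.T73Defs

/-!
# Project T73 (S5973), piece NOISO: the arithmetic core

A quadratic space of dimension `< blk`, or of dimension `blk` and the wrong type, has no isometry
of order `r`; here from the data (`u`) supplied by the pieces CHARP, TYPC and TAUSGN.
-/

set_option autoImplicit false

namespace Cfsg.Agent.Lib.Helper98.T73

open Cfsg.Agent.Lib.Helper47 Module Polynomial

universe u

variable {F : Type u} [Field F] [Fintype F] {V : Type u} [AddCommGroup V] [Module F V]
  [FiniteDimensional F V]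

/-- NOISO, from the structure of `g` -/
theorem noiso_aux (k : ℕ) (hdim : finrank F V = 2 * k + 2) (ε : ℤ) (r : ℕ)
    (hsmall : 2 * k + 2 < (if Even (orderOf ((Fintype.card F : ℕ) : ZMod r))
          then orderOf ((Fintype.card F : ℕ) : ZMod r)
          else 2 * orderOf ((Fintype.card F : ℕ) : ZMod r)) ∨
      (2 * k + 2 = (if Even (orderOf ((Fintype.card F : ℕ) : ZMod r))
          then orderOf ((Fintype.card F : ℕ) : ZMod r)
          else 2 * orderOf ((Fintype.card F : ℕ) : ZMod r)) ∧
        ε = (if Even (orderOf ((Fintype.card F : ℕ) : ZMod r)) then 1 else -1)))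
    (g : Module.End F V)
    (hstr : g ≠ 1 → ∃ u : Multiset F[X], u.map (dualP (RingHom.id F)) = u ∧ u ≠ 0 ∧
      (finrank F (LinearMap.ker (g - 1)) = 0 → tauSign u = ε) ∧
      tauSign u = sgn (orderOf ((Fintype.card F : ℕ) : ZMod r)) (Multiset.card u) ∧
      finrank F (LinearMap.range (g - 1))
        = orderOf ((Fintype.card F : ℕ) : ZMod r) * Multiset.card u) : g = 1 := by
  classical
  by_contra hg1
  obtain ⟨u, hdual, hu0, htyp0, htau, hR⟩ := hstr hg1
  obtain ⟨i, hi⟩ : ∃ i, i = orderOf ((Fintype.card F : ℕ) : ZMod r) := ⟨_, rfl⟩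
  rw [← hi] at hsmall htau hR
  have hrn : finrank F (LinearMap.range (g - 1)) + finrank F (LinearMap.ker (g - 1))
      = finrank F V := LinearMap.finrank_range_add_finrank_ker (g - 1)
  have hc1 : 1 ≤ Multiset.card u := Multiset.card_pos.mpr hu0
  by_cases hev : Even i
  · simp only [if_pos hev] at hsmall
    have h1 : i ≤ i * Multiset.card u := Nat.le_mul_of_pos_right i hc1
    rcases hsmall with hlt | ⟨heq, hε⟩
    · omega
    · have hcu : Multiset.card u = 1 := by
        by_contra hne
        have h2 : 2 ≤ Multiset.card u := by omega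
        have h3 : i * 2 ≤ i * Multiset.card u := Nat.mul_le_mul_left i h2
        omega
      have hC0 : finrank F (LinearMap.ker (g - 1)) = 0 := by
        rw [hcu, mul_one] at hR
        omega
      have h2 := htyp0 hC0
      rw [htau, hcu] at h2
      unfold sgn at h2
      rw [if_pos hev, hε] at h2
      norm_num at h2
  · simp only [if_neg hev] at hsmall
    have hc2 : 2 ≤ Multiset.card u := by
      by_contra hlt
      have hcu : Multiset.card u = 1 := by omega
      obtain ⟨f, rfl⟩ := Multiset.card_eq_one.mp hcu
      have hdf : dualP (RingHom.id F) f = f := by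
        rw [Multiset.map_singleton] at hdual
        exact Multiset.singleton_inj.mp hdual
      have h3 : tauSign ({f} : Multiset F[X]) = -1 := by
        rw [← Multiset.cons_zero, tauSign_cons_self hdf, tauSign_zero]
      rw [htau] at h3
      unfold sgn at h3
      rw [if_neg hev] at h3
      norm_num at h3
    have h1 : i * 2 ≤ i * Multiset.card u := Nat.mul_le_mul_left i hc2
    rcases hsmall with hlt | ⟨heq, hε⟩
    · omega
    · have hcu : Multiset.card u = 2 := by
        by_contra hne
        have h2 : 3 ≤ Multiset.card u := by omega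
        have h3 : i * 3 ≤ i * Multiset.card u := Nat.mul_le_mul_left i h2
        omega
      have hC0 : finrank F (LinearMap.ker (g - 1)) = 0 := by
        rw [hcu] at hR
        omega
      have h2 := htyp0 hC0
      rw [htau] at h2
      unfold sgn at h2
      rw [if_neg hev, hε] at h2
      norm_num at h2

end Cfsg.Agent.Lib.Helper98.T73
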