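import Mathlib
import Cfsg.Agent.Lib.Helper47.SemiConjMat

/-! S5980 piece TD2-CHARPROD (helper98's project; proved by helper79). -/

set_option autoImplicit false

namespace Cfsg.Agent.Lib.Helper98.TD2

open Matrix Polynomial
open scoped Kronecker

/-! ### TD2-CHARPROD -/
theorem charpoly_kron_diag {L : Type*} [Field L] {a b : ℕ}
    (A PA : Matrix (Fin a) (Fin a) L) (B PB : Matrix (Fin b) (Fin b) L)
    (dA : Fin a → L) (dB : Fin b → L) (hPA : IsUnit PA.det) (hPB : IsUnit PB.det)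
    (hA : A * PA = PA * Matrix.diagonal dA) (hB : B * PB = PB * Matrix.diagonal dB) :
    (A ⊗ₖ B).charpoly = ∏ p : Fin a × Fin b, (X - C (dA p.1 * dB p.2)) := by
  classical
  have hP : IsUnit (PA ⊗ₖ PB).det := by
    rw [Matrix.det_kronecker]
    exact (hPA.pow _).mul (hPB.pow _)
  have hcomm : (A ⊗ₖ B) * (PA ⊗ₖ PB) =
      (PA ⊗ₖ PB) * Matrix.diagonal (fun p : Fin a × Fin b => dA p.1 * dB p.2) := by
    have hd : Matrix.diagonal (fun p : Fin a × Fin b => dA p.1 * dB p.2) =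
        Matrix.diagonal dA ⊗ₖ Matrix.diagonal dB := by
      rw [Matrix.diagonal_kronecker_diagonal]
    rw [hd, ← Matrix.mul_kronecker_mul, ← Matrix.mul_kronecker_mul, hA, hB]
  rw [← Cfsg.Agent.Lib.Helper47.charpoly_eq_of_mul_eq (PA ⊗ₖ PB) _ (A ⊗ₖ B) hP hcomm.symm,
    Matrix.charpoly_diagonal]

end Cfsg.Agent.Lib.Helper98.TD2
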