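import Mathlib

/-! S5980 piece TD2-ROOTS (helper98's project; proved by helper79). -/

set_option autoImplicit false

namespace Cfsg.Agent.Lib.Helper98.TD2

open Matrix Polynomial
open scoped Kronecker

/-! ### TD2-ROOTS -/
theorem count_of_charpoly_eq {F L : Type*} [Field F] [Field L] [Algebra F L] [IsAlgClosed L]
    {κ : Type*} [Fintype κ] (v : κ → L) (c : ℕ) (G : F[X]) (hsep : G.Separable)
    (h1 : G.eval 1 ≠ 0) (hdeg : 1 ≤ G.natDegree)
    (h : ((X - 1) ^ c * G).map (algebraMap F L) = ∏ p : κ, (X - C (v p))) :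
    (∀ θ : L, θ ≠ 1 → Nat.card {p : κ // v p = θ} ≤ 1) ∧ (∃ p : κ, v p ≠ 1) ∧
      Nat.card {p : κ // v p = 1} = c := by
  classical
  have hG0 : G ≠ 0 := by
    rintro rfl
    simp at hdeg
  have hG'0 : G.map (algebraMap F L) ≠ 0 := Polynomial.map_ne_zero hG0
  have hG'sep : (G.map (algebraMap F L)).Separable := hsep.map
  have hG'1 : (G.map (algebraMap F L)).eval 1 ≠ 0 := by
    rw [Polynomial.eval_one_map]
    exact (map_ne_zero (algebraMap F L)).mpr h1
  have hL : ((X - 1) ^ c * G).map (algebraMap F L) =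
      (X - C (1 : L)) ^ c * G.map (algebraMap F L) := by
    simp [Polynomial.map_mul, Polynomial.map_pow]
  have hX1 : (X - C (1 : L)) ^ c * G.map (algebraMap F L) ≠ 0 :=
    mul_ne_zero (pow_ne_zero _ (X_sub_C_ne_zero 1)) hG'0
  have hrootsL : ((X - C (1 : L)) ^ c * G.map (algebraMap F L)).roots =
      c • ({1} : Multiset L) + (G.map (algebraMap F L)).roots := by
    rw [Polynomial.roots_mul hX1, Polynomial.roots_pow, Polynomial.roots_X_sub_C]
  have hrootsR : (∏ p : κ, (X - C (v p))).roots = Finset.univ.val.map v := by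
    have h0 : ∏ p : κ, (X - C (v p)) =
        ((Finset.univ.val.map v).map (fun a => X - C a)).prod := by
      rw [Multiset.map_map]
      rfl
    rw [h0, Polynomial.roots_multiset_prod_X_sub_C]
  have hroots : Finset.univ.val.map v =
      c • ({1} : Multiset L) + (G.map (algebraMap F L)).roots := by
    rw [← hrootsR, ← h, hL, hrootsL]
  have hcount : ∀ θ : L, Nat.card {p : κ // v p = θ} =
      Multiset.count θ (Finset.univ.val.map v) := by
    intro θ
    rw [Nat.card_eq_fintype_card, Fintype.card_subtype, Multiset.count_map, Finset.card_def,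
      Finset.filter_val]
    congr 1
    apply Multiset.filter_congr
    intro x _
    exact eq_comm
  have hc1 : Multiset.count (1 : L) (G.map (algebraMap F L)).roots = 0 := by
    rw [Multiset.count_eq_zero, Polynomial.mem_roots hG'0]
    exact hG'1
  have hcle : ∀ θ : L, Multiset.count θ (G.map (algebraMap F L)).roots ≤ 1 := fun θ =>
    Multiset.nodup_iff_count_le_one.mp (Polynomial.nodup_roots hG'sep) θ
  refine ⟨?_, ?_, ?_⟩
  · intro θ hθ
    rw [hcount, hroots, Multiset.count_add, Multiset.count_nsmul, Multiset.count_singleton,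
      if_neg hθ]
    simpa using hcle θ
  · have hdeg' : (G.map (algebraMap F L)).degree ≠ 0 := by
      rw [Polynomial.degree_map]
      intro h0
      have h00 : G.natDegree = 0 :=
        Polynomial.natDegree_eq_zero_iff_degree_le_zero.mpr (le_of_eq h0)
      omega
    obtain ⟨θ, hθ⟩ := IsAlgClosed.exists_root (G.map (algebraMap F L)) hdeg'
    have hθ1 : θ ≠ 1 := by
      rintro rfl
      exact hG'1 hθ
    have hmem : θ ∈ Finset.univ.val.map v := by
      rw [hroots]
      exact Multiset.mem_add.mpr (Or.inr ((Polynomial.mem_roots hG'0).mpr hθ))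
    obtain ⟨p, -, hp⟩ := Multiset.mem_map.mp hmem
    exact ⟨p, by rw [hp]; exact hθ1⟩
  · rw [hcount, hroots, Multiset.count_add, Multiset.count_nsmul, Multiset.count_singleton,
      if_pos rfl, hc1]
    simp

end Cfsg.Agent.Lib.Helper98.TD2
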